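/-
CHEV library: isometries in characteristic three normalizing a cubic field extension.
-/
import Cfsg.Agent.CHEV.Cov3

set_option autoImplicit false
set_option linter.unusedSectionVars false

namespace CL.Cover

open Module Polynomial CL.Witt LinearMap

theorem jac {R : Type*} [Ring R] (h3 : (3 : R) = 0) {θ P N : R} (hP : θ * P = P * θ - P) (hN : θ * N = N * θ + N)
    (h : P * N = N * P) : (θ + (P + N)) ^ 3 = θ ^ 3 + (P + N) ^ 3 + (P + N) := by
  have e : θ * (P + N) - (P + N) * θ = N - P := by rw [mul_add, hP, hN]; noncomm_ring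
  have e1 : θ * (N - P) - (N - P) * θ = P + N := by rw [mul_sub, hP, hN]; noncomm_ring
  have e2 : (N - P) * (P + N) - (P + N) * (N - P) = 0 := by
    simp only [mul_add, add_mul, mul_sub, sub_mul, h]; abel
  generalize P + N = M at *
  rw [← e] at e1 e2
  have : (θ + M) ^ 3 = θ ^ 3 + M ^ 3 + (θ * (θ * M - M * θ) - (θ * M - M * θ) * θ) +
    ((θ * M - M * θ) * M - M * (θ * M - M * θ)) + 3 * (θ * M * θ + M * θ * M) := by noncomm_ring
  rw [this, e1, e2, h3, zero_mul, add_zero, add_zero]

variable {F V : Type*} [Field F] [AddCommGroup V] [Module F V] [FiniteDimensional F V] {T : FormType F} {f : Form T V}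

theorem exists_adj (hf : f.Nondeg) (z : End F V) : ∃ z', Adj f z z' ∧ trace F V z' = T.σ (trace F V z) := by
  let b := Module.finBasis F V
  choose t ht using fun i => hf.exists_rep (b.coord i)
  have e : z = ∑ i, (f.B (t i)).smulRight (z (b i)) := b.ext fun j => by simp [ht, Finsupp.single_apply]
  refine ⟨∑ i, (T.ε • f.B (z (b i))).smulRight (t i), fun x y => ?_, ?_⟩
  · conv_lhs => rw [e]
    simp only [LinearMap.sum_apply, smulRight_apply, map_sum, f.B_smul_left, f.B_smul_right, f.σ_B, LinearMap.smul_apply,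
      smul_eq_mul]
    exact Finset.sum_congr rfl fun _ _ => by ring
  · conv_rhs => rw [e]
    simp only [map_sum, trace_smulRight, f.σ_B, LinearMap.smul_apply, smul_eq_mul]

theorem trace_ext {a : End F V} (h : ∀ θ, trace F V (a * θ) = 0) : a = 0 := LinearMap.ext fun v =>
  (forall_dual_apply_eq_zero_iff F _).1 fun φ => by
    rw [← trace_smulRight, ← h (φ.smulRight v)]
    congr 1
    ext; simp

theorem exists_trace (φ : Dual F (End F V)) : ∃ z, ∀ θ, trace F V (z * θ) = φ θ := by
  obtain ⟨z, hz⟩ := (injective_iff_surjective_of_finrank_eq_finrank (f := (LinearMap.mul F (End F V)).compr₂ (trace F V))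
    Subspace.dual_finrank_eq.symm).1 ((injective_iff_map_eq_zero _).2 fun a ha =>
      trace_ext fun θ => LinearMap.congr_fun ha θ) φ
  exact ⟨z, fun θ => LinearMap.congr_fun hz θ⟩

theorem exists_shift {a : End F V} (h : ∀ z, a * z = z * a → trace F V z = 0) : ∃ θ, a * θ = θ * a + a := by
  by_contra! H
  obtain ⟨φ, h1, h2⟩ := Submodule.exists_dual_map_eq_bot_of_notMem (x := a)
    (p := LinearMap.range (mulLeft F a - mulRight F a)) (fun ⟨θ, e⟩ => H θ (eq_add_of_sub_eq' e)) inferInstance
  obtain ⟨z, hz⟩ := exists_trace φ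
  have e : z * a - a * z = 0 := trace_ext fun θ => by
    rw [sub_mul, map_sub, mul_assoc a, trace_mul_comm F a, mul_assoc, mul_assoc, ← map_sub, ← mul_sub, hz]
    exact h2.le ⟨_, ⟨θ, rfl⟩, rfl⟩
  exact h1 ((hz a).symm.trans (h _ (by rw [← mul_assoc, sub_eq_zero.1 e])))

theorem Adj.comm (hf : f.Nondeg) {g : V ≃ₗ[F] V} (hg : g ∈ f.O) {z z' : End F V} (h : Adj f z z')
    (e : (g : End F V) * z = z * g) : (g : End F V) * z' = z' * g :=
  (((adj_O hg).symm.mul h).unique hf (commute_symm e ▸ h.mul (adj_O hg).symm)).symm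

variable [Finite F] [CharP F 3]

theorem core (hf : f.Nondeg) (h3 : 3 ∣ finrank F V) {g : V ≃ₗ[F] V} (hg : g ∈ f.O)
    (H : ∀ z, Adj f z z → (g : End F V) * z = z * g → ∃ c, T.σ c = c ∧ IsNilpotent (z - c • 1)) {c₀ : F}
    (hc : T.σ c₀ = c₀) : ∃ θ, Adj f θ θ ∧ θ ^ 3 - θ = c₀ • 1 ∧ (g : End F V) * θ = (θ + 1) * g := by
  rcases subsingleton_or_nontrivial V with _ | _
  · exact ⟨0, fun _ _ => by simp, Subsingleton.elim _ _, Subsingleton.elim _ _⟩
  have := Fintype.ofFinite F
  have : Fact (Nat.Prime 3) := ⟨by decide⟩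
  have : CharP (End F V) 3 := charP_of_injective_algebraMap (algebraMap F _).injective 3
  have three : (3 : F) = 0 := by exact_mod_cast CharP.cast_eq_zero F 3
  have three' : (3 : End F V) = 0 := by exact_mod_cast CharP.cast_eq_zero (End F V) 3
  have t0 : ∀ z, (g : End F V) * z = z * g → trace F V z + T.σ (trace F V z) = 0 := fun z e => by
    obtain ⟨z', h1, h2⟩ := exists_adj hf z
    obtain ⟨c, -, h4⟩ := H (z + z') (add_comm z z' ▸ (h1.add h1.symm : Adj f (z + z') (z' + z)))
      (by rw [mul_add, add_mul, e, h1.comm hf hg e])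
    simpa [h2, (CharP.cast_eq_zero_iff F 3 _).2 h3] using (isNilpotent_trace_of_isNilpotent h4).eq_zero
  obtain ⟨θ₁, h1⟩ := exists_shift (a := (g : End F V)) fun z e => by_contra fun h => by
    have := t0 ((trace F V z)⁻¹ • z) (by rw [mul_smul_comm, smul_mul_assoc, e])
    rw [map_smul, smul_eq_mul, inv_mul_cancel₀ h, map_one] at this
    exact one_ne_zero (α := F) (by linear_combination three - this)
  obtain ⟨θ₂, h2, -⟩ := exists_adj hf θ₁
  have ag := adj_O hg
  have i1 : (g : End F V) * g.symm = 1 := by ext; simp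
  have i2 : (g.symm : End F V) * g = 1 := by ext; simp
  replace H : ∀ z, Adj f z z → Commute (g : End F V) z → Commute (g.symm : End F V) z ∧
      ∃ c, T.σ c = c ∧ IsNilpotent (z - c • 1) := fun z a b => ⟨commute_symm b, H z a b⟩
  generalize (g : End F V) = a, (g.symm : End F V) = b at *
  have h4 : θ₂ * b = b * θ₂ + b := (ag.mul h2).unique hf (h1 ▸ (h2.mul ag).add ag)
  obtain ⟨θ, a1, a2⟩ : ∃ θ, Adj f θ θ ∧ a * θ = (θ + 1) * a := ⟨-(θ₁ + θ₂),
    (add_comm θ₁ θ₂ ▸ (h2.add h2.symm : Adj f (θ₁ + θ₂) (θ₂ + θ₁)) : Adj f (θ₁ + θ₂) (θ₁ + θ₂)).neg, by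
      have : a * θ₂ = θ₂ * a + a := by
        rw [← mul_one (a * θ₂), ← i2, ← mul_assoc, mul_assoc a, h4, mul_add, ← mul_assoc, i1, one_mul, add_mul, one_mul]
      rw [mul_neg, mul_add, h1, this, ← sub_zero (_ * a), ← zero_mul a, ← three']
      noncomm_ring⟩
  have ta : θ * a = a * θ - a := by rw [a2]; noncomm_ring
  have tb : θ * b = b * θ + b := by
    rw [← one_mul (θ * b), ← i2, mul_assoc, ← mul_assoc a, a2, mul_assoc, i1, mul_one, mul_add, mul_one]
  have cab : Commute a b := i1.trans i2.symm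
  have sh : ∀ x : End F V, (x + 1) ^ 3 - (x + 1) = x ^ 3 - x := fun x => by
    rw [add_pow_char_of_commute 3 (Commute.one_right x), one_pow, add_sub_add_right_eq_sub]
  obtain ⟨-, s, s1, s2⟩ := H (a + b) (add_comm a b ▸ (ag.add ag.symm : Adj f (a + b) (b + a)))
    ((Commute.refl a).add_right cab)
  have c1 : Commute a (θ ^ 3 - θ) := ((SemiconjBy.pow_right a2 3).sub_right a2).trans (by rw [sh])
  obtain ⟨c2, c, c3, c4⟩ := H _ ((a1.pow 3).sub a1) c1
  obtain ⟨β, hβ⟩ := (frobeniusEquiv F 3).surjective (c₀ - c)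
  replace hβ : β ^ 3 = c₀ - c := hβ
  have β1 : T.σ β = β := frobenius_inj F 3 (show T.σ β ^ 3 = β ^ 3 by rw [← map_pow, hβ, map_sub, hc, c3])
  have j := jac three' (θ := θ) (P := β • (b * b - s • a)) (N := β • (a * a - s • b)) (by
      simp only [mul_smul_comm, smul_mul_assoc, mul_sub, sub_mul, ← mul_assoc, tb, ta, add_mul, mul_assoc b θ, mul_add]
      linear_combination (norm := module) (three * β) • (b * b)) (by
      simp only [mul_smul_comm, smul_mul_assoc, mul_sub, sub_mul, ← mul_assoc, tb, ta, mul_assoc a θ]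
      linear_combination (norm := module) (-three * β) • (a * a))
    ((((cab.symm.mul_left cab.symm).mul_right (cab.symm.mul_left cab.symm)).sub_right
      (((Commute.refl b).mul_left (Commute.refl b)).smul_right s)).sub_left ((((Commute.refl a).mul_right
        (Commute.refl a)).sub_right (cab.smul_right s)).smul_left s) |>.smul_left β |>.smul_right β)
  have m1 : β • (b * b - s • a) + β • (a * a - s • b) = β • ((a + b) * (a + b - s • 1) + 1) := by
    simp only [mul_smul_comm, mul_sub, add_mul, mul_add, i1, i2, mul_one]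
    linear_combination (norm := module) (-three * β) • (1 : End F V)
  rw [m1] at j
  have cm : ∀ y, Commute a y → Commute b y → Commute (β • ((a + b) * (a + b - s • 1) + 1)) y := fun y p q =>
    ((((p.add_left q).mul_left ((p.add_left q).sub_left ((Commute.one_left y).smul_left s))).add_left
      (Commute.one_left y))).smul_left β
  have am : Adj f (β • ((a + b) * (a + b - s • 1) + 1)) (β • ((a + b) * (a + b - s • 1) + 1)) := by
    rw [← m1]
    convert (((ag.symm.mul ag.symm).sub (ag.smul s)).smul β).add (((ag.mul ag).sub (ag.symm.smul s)).smul β) using 1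
    rw [β1, s1, add_comm]
  have nm : IsNilpotent (β • ((a + b) * (a + b - s • 1) + 1) - β • 1) := by
    rw [smul_add, add_sub_cancel_right]
    exact (((Commute.refl _).sub_right ((Commute.one_right _).smul_right s)).isNilpotent_mul_left s2).smul β
  have ca := cm a (Commute.refl a) cab.symm
  have cy := cm _ c1 c2
  generalize β • ((a + b) * (a + b - s • 1) + 1) = M at *
  obtain ⟨m, hm⟩ : IsNilpotent ((θ + M) ^ 3 - (θ + M) - c₀ • 1) := by
    have k := (Commute.one_right M).smul_right β
    rw [show (θ + M) ^ 3 - (θ + M) - c₀ • 1 = (M - β • 1) ^ 3 + (θ ^ 3 - θ - c • 1) by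
      rw [sub_pow_char_of_commute 3 k, j, _root_.smul_pow, hβ, one_pow]; module]
    exact (((cy.sub_right ((Commute.one_right M).smul_right c)).sub_left
      ((Commute.one_left _).smul_left β)).pow_left 3).isNilpotent_add (nm.pow_of_pos (n := 3) (by decide)) c4
  obtain ⟨k, -, hk⟩ := FiniteField.card F 3
  have a3 : SemiconjBy a (θ + M) (θ + M + 1) := by rw [SemiconjBy, mul_add, a2, ← ca.eq]; noncomm_ring
  refine ⟨(θ + M) ^ 3 ^ (k * m), (a1.add am).pow _, ?_, (a3.pow_right _).trans ?_⟩
  · rw [← pow_mul, mul_comm, pow_mul, ← sub_pow_char_pow_of_commute 3 _ ((Commute.refl _).pow_left 3),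
      eq_add_of_sub_eq (rfl : (θ + M) ^ 3 - (θ + M) - c₀ • 1 = _),
      add_pow_char_pow_of_commute 3 _ ((Commute.one_right _).smul_right c₀), pow_mul, ← hk,
      pow_eq_zero_of_le (Nat.lt_pow_self Fintype.one_lt_card).le hm, _root_.smul_pow, FiniteField.pow_card_pow, one_pow, zero_add]
  · rw [add_pow_char_pow_of_commute 3 _ (Commute.one_right _), one_pow]

end CL.Cover
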