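/-
CHEV library: indecomposable isometries in characteristic three and the family of cubic field structures.
-/
import Cfsg.Agent.CHEV.Cov6

set_option autoImplicit false
set_option linter.unusedSectionVars false

namespace CL.Cover

open Module Polynomial CL.Witt

variable {F V : Type*} [Field F] [AddCommGroup V] [Module F V] [FiniteDimensional F V] {T : FormType F} {f : Form T V}

/-- the action on sets of endomorphisms -/
@[reducible] def setAct : MulAction (V ≃ₗ[F] V) (Set (End F V)) where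
  smul g S := endAct.smul g '' S
  one_smul S := Set.image_id S
  mul_smul g h S := (Set.image_image (endAct.smul g) (endAct.smul h) S).symm

theorem setAct_eq {g : V ≃ₗ[F] V} {θ θ' : End F V} {c : F} (h : (g : End F V) * θ = (θ' + c • 1) * g) :
    setAct.smul g (Set.range fun d : F => θ + d • 1) = Set.range fun d : F => θ' + d • 1 := by
  have k : ∀ d : F, endAct.smul g (θ + d • 1) = θ' + (c + d) • 1 := fun d => endAct_eq.2 (by
    simp only [mul_add, add_mul, h, mul_smul_comm, smul_mul_assoc, mul_one, one_mul, add_smul, add_assoc])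
  refine Set.ext fun x => ⟨?_, ?_⟩
  · rintro ⟨_, ⟨d, rfl⟩, rfl⟩
    exact ⟨c + d, (k d).symm⟩
  · rintro ⟨d, rfl⟩
    exact ⟨_, ⟨d - c, rfl⟩, (k _).trans (by simp)⟩

variable (f) in
/-- the cubic field structures -/
def Cub (c₀ : F) : Set (Set (End F V)) :=
  {S | ∃ θ, (Adj f θ θ ∧ θ ^ 3 - θ = c₀ • 1) ∧ S = Set.range fun d : F => θ + d • 1}

theorem famCub (hf : f.Nondeg) (h3 : 3 ≤ finrank F V) {c₀ : F} (hc : ∀ x, x ^ 3 - x ≠ c₀) {Γ : Subgroup (V ≃ₗ[F] V)}
    (ht : ∀ θ θ' : End F V, Adj f θ θ → θ ^ 3 - θ = c₀ • 1 → Adj f θ' θ' → θ' ^ 3 - θ' = c₀ • 1 →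
      ∃ g ∈ Γ, (g : End F V) * θ = θ' * g) {u : V} {a : F} (u0 : u ≠ 0) (hu : f.q u = 0) (a0 : a ≠ 0) (ha : T.π a = 0)
    (hm : f.ei u 0 a ∈ Γ) : Fam Γ (Scal F V) setAct (Cub f c₀) := by
  classical
  refine ⟨?_, ?_, ?_⟩
  · rintro _ ⟨θ, h, rfl⟩ _ ⟨θ', h', rfl⟩
    obtain ⟨g, h1, h2⟩ := ht θ θ' h.1 h.2 h'.1 h'.2
    exact ⟨g, h1, setAct_eq (c := 0) (by simpa using h2)⟩
  · rintro _ ⟨θ, h, rfl⟩
    refine ⟨_, hm, fun e => ?_⟩
    obtain ⟨c, hc'⟩ := e.le ⟨θ, ⟨0, by simp⟩, rfl⟩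
    have k : ∀ x, c • x = (T.ε * a * f.B u x) • θ u + (c * (T.ε * a * f.B u x) - T.ε * a * f.B u (θ x)) • u := fun x => by
      have := LinearMap.congr_fun (endAct_eq.1 hc'.symm) x
      simp only [End.mul_apply, LinearEquiv.coe_coe, f.ei_zero_apply hu ha, LinearMap.add_apply, LinearMap.smul_apply,
        End.one_apply, map_sub, map_smul] at this
      linear_combination (norm := module) -this
    obtain ⟨w, hw⟩ := exists_notMem (W := Submodule.span F (({θ u, u} : Finset V) : Set V))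
      ((finrank_span_finset_le_card _).trans_lt (Finset.card_le_two.trans_lt h3))
    obtain rfl : c = 0 := by_contra fun c0 => hw ((Submodule.smul_mem_iff _ c0).1 (by
      rw [Finset.coe_pair]; exact Submodule.mem_span_pair.2 ⟨_, _, (k w).symm⟩))
    obtain ⟨x, hx⟩ := not_forall.1 (mt (hf u) u0)
    have b0 : T.ε * a * f.B u x ≠ 0 := mul_ne_zero (mul_ne_zero T.ε_ne_zero a0) hx
    have e1 : θ u = (f.B u (θ x) / f.B u x) • u := smul_right_injective V b0 (by
      have := k x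
      simp only [smul_smul]
      rw [mul_assoc (T.ε * a) _ (_ / _), mul_div_cancel₀ _ hx]
      linear_combination (norm := module) -this)
    have e2 := LinearMap.congr_fun h.2 u
    simp only [pow_succ, pow_zero, one_mul, LinearMap.sub_apply, End.mul_apply, e1, map_smul, LinearMap.smul_apply,
      End.one_apply, smul_smul, ← sub_smul] at e2
    exact hc (f.B u (θ x) / f.B u x) ((smul_left_injective F u0 e2).symm.trans (by ring)).symm
  · rintro _ ⟨θ, h, rfl⟩ z _ hz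
    exact setAct_eq (c := 0) (by simpa using endAct_eq.1 (endAct_scal θ hz))

theorem fit (hf : f.Nondeg) {g : V ≃ₗ[F] V}
    (H : ∀ W : Submodule F V, (∀ v ∈ W, g v ∈ W) → Disjoint W (f.perp W) → W = ⊥ ∨ W = ⊤) {y : End F V} (hy : Adj f y y)
    (e : (g : End F V) * y = y * g) (h0 : LinearMap.ker y ≠ ⊥) : IsNilpotent y := by
  obtain ⟨n, h1, h2⟩ := (y.eventually_isCompl_ker_pow_range_pow.and (Filter.eventually_ge_atTop 1)).exists
  refine (H _ (ker_inv (Commute.pow_right e n)) (Submodule.disjoint_def.2 fun v a b => hf _ fun w => ?_)).elim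
    (fun h => absurd (eq_bot_iff.2 fun v hv => h.le ?_) h0) fun h => ⟨n, LinearMap.ker_eq_top.1 h⟩
  · obtain ⟨s, hs, _, ⟨t, rfl⟩, rfl⟩ := Submodule.mem_sup.1 (h1.sup_eq_top.ge (Submodule.mem_top (x := w)))
    rw [map_add, f.mem_perp'.1 b s hs, ← hy.pow n, LinearMap.mem_ker.1 a, f.B_zero_left, add_zero]
  · obtain ⟨n, rfl⟩ := Nat.exists_eq_add_of_le' h2
    rw [LinearMap.mem_ker, pow_succ, End.mul_apply, LinearMap.mem_ker.1 hv, map_zero]

theorem commute_aeval' {a z : End F V} (e : a * z = z * a) (p : F[X]) : a * aeval z p = aeval z p * a := by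
  induction p using Polynomial.induction_on' with
  | add p q hp hq => rw [map_add, mul_add, add_mul, hp, hq]
  | monomial n c => simp [aeval_monomial, ← Algebra.smul_def, (Commute.pow_right e n).eq]

theorem map_σσ (p : F[X]) : (p.map T.σ).map T.σ = p := by
  rw [Polynomial.map_map, show T.σ.comp T.σ = RingHom.id F from RingHom.ext T.σσ, Polynomial.map_id]

theorem red (hf : f.Nondeg) [Nontrivial V] {g : V ≃ₗ[F] V}
    (H : ∀ W : Submodule F V, (∀ v ∈ W, g v ∈ W) → Disjoint W (f.perp W) → W = ⊥ ∨ W = ⊤) {z : End F V} (hz : Adj f z z)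
    (e : (g : End F V) * z = z * g) :
    ∃ P : F[X], P.Monic ∧ Irreducible P ∧ ∃ m, aeval z (P ^ m * (P ^ m).map T.σ) = 0 := by
  obtain ⟨P, h1, h2, h3⟩ := exists_monic_irreducible_factor (minpoly F z) (minpoly.not_isUnit F z)
  obtain ⟨m, hm⟩ := fit hf H (y := aeval z (P.map T.σ * P)) (by simpa [map_σσ, mul_comm P] using hz.aeval (P.map T.σ * P))
    (commute_aeval' e _) fun h => ker_ne_bot h2 h3 (eq_bot_iff.2 fun v hv => h.le (by
      rw [LinearMap.mem_ker, map_mul, End.mul_apply, LinearMap.mem_ker.1 hv, map_zero]))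
  exact ⟨P, h1, h2, m, by rwa [Polynomial.map_pow, ← mul_pow, mul_comm, map_pow]⟩

variable [Finite F]

theorem exists_ss {z : End F V} {P : F[X]} (h1 : P.Monic) (h2 : Irreducible P) {m : ℕ} (h : aeval z (P ^ m) = 0)
    {Q : F[X]} (hQ : Irreducible Q) (hd : Q.natDegree ∣ P.natDegree) : ∃ p : F[X], aeval (aeval z p) Q = 0 :=
  exists_root hQ (pow_ne_zero m h1.ne_zero) h fun R a b => by
    rwa [natDegree_eq_of_degree_eq (degree_eq_degree_of_associated (a.associated_of_dvd h2 (a.prime.dvd_of_dvd_pow b)))]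

theorem aeval_cub {θ : End F V} {c : F} : aeval θ (X ^ 3 - X - C c : F[X]) = 0 ↔ θ ^ 3 - θ = c • 1 := by
  simp [sub_eq_zero, Algebra.algebraMap_eq_smul_one]

theorem natDegree_cub (c : F) : (X ^ 3 - X - C c : F[X]).natDegree = 3 := by compute_degree!

theorem irreducible_cub {c : F} (hc : ∀ x, x ^ 3 - x ≠ c) : Irreducible (X ^ 3 - X - C c : F[X]) :=
  irreducible_of_degree_le_three_of_not_isRoot (by rw [natDegree_cub]; decide) fun x => by simpa [sub_eq_zero] using hc x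

variable [CharP F 3]

variable (T) in
theorem exists_c0 : ∃ c : F, T.σ c = c ∧ ∀ x, x ^ 3 - x ≠ c := by
  have three : (3 : F) = 0 := by exact_mod_cast CharP.cast_eq_zero F 3
  let φ : {x // T.σ x = x} → {x // T.σ x = x} := fun x => ⟨x.1 ^ 3 - x.1, by simp [x.2]⟩
  obtain ⟨c, hc⟩ := not_forall.1 (mt (Finite.injective_iff_surjective (f := φ)).2 fun h => zero_ne_one (α := F)
    (congrArg Subtype.val (h (a₁ := ⟨0, map_zero _⟩) (a₂ := ⟨1, map_one _⟩) (Subtype.ext (by simp [φ])))))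
  refine ⟨c, c.2, fun x e => hc ⟨⟨-(x + T.σ x), by simp [T.σσ, add_comm]⟩, Subtype.ext ?_⟩⟩
  have e' := congrArg T.σ e
  rw [map_sub, map_pow, c.2] at e'
  change (-(x + T.σ x)) ^ 3 - -(x + T.σ x) = _
  linear_combination -e - e' - (x ^ 2 * T.σ x + x * T.σ x ^ 2 + c.1) * three

theorem good (hf : f.Nondeg) (h3 : 3 ∣ finrank F V) {g : V ≃ₗ[F] V} (hg : g ∈ f.O)
    (H : ∀ z, Adj f z z → (g : End F V) * z = z * g → ∃ P : F[X], P.Monic ∧ Irreducible P ∧ P.map T.σ = P ∧
      P.natDegree ∣ 3 ∧ ∃ m, aeval z (P ^ m) = 0) {c₀ : F} (hc : T.σ c₀ = c₀) (hc' : ∀ x, x ^ 3 - x ≠ c₀) :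
    ∃ S ∈ Cub f c₀, setAct.smul g S = S := by
  have three : (3 : F) = 0 := by exact_mod_cast CharP.cast_eq_zero F 3
  by_cases h : ∀ z, Adj f z z → (g : End F V) * z = z * g → ∃ c, T.σ c = c ∧ IsNilpotent (z - c • 1)
  · obtain ⟨θ, h1, h2, h4⟩ := core hf h3 hg h hc
    exact ⟨_, ⟨θ, ⟨h1, h2⟩, rfl⟩, setAct_eq (c := 1) (by rwa [one_smul])⟩
  push Not at h
  obtain ⟨z, h1, h2, h4⟩ := h
  obtain ⟨P, p1, p2, p3, p4, m, p5⟩ := H z h1 h2
  rcases (Nat.dvd_prime Nat.prime_three).1 p4 with e | e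
  · refine absurd ⟨m, ?_⟩ (h4 (-P.coeff 0) (by rw [map_neg, ← coeff_map, p3]))
    rw [← p5, map_pow, p1.eq_X_add_C e]
    simp [Algebra.algebraMap_eq_smul_one]
  obtain ⟨p, hp⟩ := exists_ss p1 p2 p5 (irreducible_cub hc') (by rw [natDegree_cub, e])
  have a := h1.aeval p
  have b := aeval_cub.1 hp
  have b' : aeval z (p.map T.σ) ^ 3 - aeval z (p.map T.σ) = c₀ • 1 :=
    ((a.pow 3).sub a).unique hf (by rw [b]; simpa only [hc] using (adj_one (f := f)).smul c₀)
  refine ⟨_, ⟨aeval z (-(p + p.map T.σ)), ⟨by simpa [map_σσ, add_comm] using h1.aeval (-(p + p.map T.σ)), ?_⟩, rfl⟩,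
    setAct_eq (c := 0) (by simpa using commute_aeval' h2 (-(p + p.map T.σ)))⟩
  have : (-(p + p.map T.σ)) ^ 3 - -(p + p.map T.σ) = -((p ^ 3 - p) + ((p.map T.σ) ^ 3 - p.map T.σ)) := by
    have t : (3 : F[X]) = 0 := (congrArg C three).trans C_0
    linear_combination -(p ^ 2 * p.map T.σ + p * p.map T.σ ^ 2) * t
  rw [← map_pow, ← map_sub, this, map_neg, map_add, map_sub, map_sub, map_pow, map_pow, b, b']
  linear_combination (norm := module) (-three * c₀) • (1 : End F V)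

end CL.Cover
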