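/-
CHEV library: `PSp₆(3^a)` and `PSU₃(3^a)` are unions of the conjugates of two proper subgroups.
-/
import Cfsg.Agent.CHEV.Cov4
import Cfsg.Agent.CHEV.Cov7

set_option autoImplicit false
set_option linter.unusedSectionVars false

namespace CL.Cover

open Module Polynomial CL.Witt

variable {F V : Type*} [Field F] [AddCommGroup V] [Module F V] [FiniteDimensional F V]

theorem conj_of_maps {T : FormType F} {f : Form T V} (hf : f.Nondeg) {U : Type*} [AddCommGroup U] [Module F U]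
    [FiniteDimensional F U] (hU : finrank F U = finrank F V) {φ ψ : U →ₗ[F] V} (hφ : Function.Injective φ)
    (hB : ∀ x y, f.B (ψ x) (ψ y) = f.B (φ x) (φ y)) (hq : ∀ x, f.q (ψ x) = f.q (φ x)) {r : U → U} {θ θ' : End F V}
    (h : ∀ x, φ (r x) = θ (φ x)) (h' : ∀ x, ψ (r x) = θ' (ψ x)) : ∃ g ∈ f.O, (g : End F V) * θ = θ' * g := by
  have s := (LinearMap.injective_iff_surjective_of_finrank_eq_finrank hU).1 hφ
  obtain ⟨g, h1, h2⟩ := hf.witt_maps φ ψ hφ ((injective_iff_map_eq_zero _).2 fun x hx =>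
    (injective_iff_map_eq_zero _).1 hφ x (hf _ (s.forall.2 fun y => by rw [← hB, hx, f.B_zero_left]))) hB hq
  exact ⟨g, h1, LinearMap.ext (s.forall.2 fun x => by simp [← h, h2, h'])⟩

section Ext
variable {E : Type*} [Field E] [Algebra F E]

/-- the orbit map -/
def orb (ι : E →ₐ[F] End F V) (v : V) : E →ₗ[F] V := LinearMap.applyₗ v ∘ₗ ι.toLinearMap

theorem orb_apply (ι : E →ₐ[F] End F V) (v : V) (e : E) : orb ι v e = ι e v := rfl

theorem orb_inj (ι : E →ₐ[F] End F V) {v : V} (hv : v ≠ 0) : Function.Injective (orb ι v) :=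
  (injective_iff_map_eq_zero _).2 fun e he => by_contra fun h => hv (by
    rw [← End.one_apply (R := F) v, ← map_one ι, ← inv_mul_cancel₀ h, map_mul, End.mul_apply, ← orb_apply ι v, he, map_zero])

theorem dual_inj {ℓ : Dual F E} (h : ℓ ≠ 0) : Function.Injective ((LinearMap.mul F E).compr₂ ℓ) :=
  (injective_iff_map_eq_zero _).2 fun k hk => by_contra fun k0 => h (LinearMap.ext fun e => by
    simpa [k0] using LinearMap.congr_fun hk (k⁻¹ * e))

end Ext

variable [Finite F] [CharP F 3]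

theorem finrank_cub {c : F} (hc : ∀ x, x ^ 3 - x ≠ c) : finrank F (AdjoinRoot (X ^ 3 - X - C c : F[X])) = 3 := by
  rw [(AdjoinRoot.powerBasis (irreducible_cub hc).ne_zero).finrank, AdjoinRoot.powerBasis_dim, natDegree_cub]

section Sp
variable {f : Form (FormType.alt F) V}

theorem Adj.aeval_alt {z : End F V} (h : Adj f z z) (p : F[X]) : Adj f (Polynomial.aeval z p) (Polynomial.aeval z p) := by
  simpa only [show p.map (FormType.alt F).σ = p from Polynomial.map_id] using h.aeval p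

theorem Adj.iso {z : End F V} (h : Adj f z z) (v : V) : f.B v (z v) = 0 := by
  have three : (3 : F) = 0 := by exact_mod_cast CharP.cast_eq_zero F 3
  linear_combination f.B v (z v) * three + h v v - f.alt_symm v (z v)

theorem exists_lag (hf : f.Nondeg) {s : End F V} (h : Adj f s s) :
    ∃ W : Submodule F V, (∀ v ∈ W, s v ∈ W) ∧ 2 * finrank F W = finrank F V := by
  obtain ⟨W, ⟨h1, h2⟩, h3⟩ := exists_maximal_of_wellFoundedGT
    (fun W : Submodule F V => (∀ v ∈ W, s v ∈ W) ∧ W ≤ f.perp W) ⟨⊥, by simp, bot_le⟩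
  refine ⟨W, h1, ?_⟩
  rw [← hf.finrank_add_finrank_perp W, two_mul, ← le_antisymm h2 fun v hv => ?_]
  refine h3 (y := W ⊔ LinearMap.range (LinearMap.applyₗ v ∘ₗ (aeval s).toLinearMap)) ⟨fun x hx => ?_, fun x hx y hy => ?_⟩
    le_sup_left (Submodule.mem_sup_right ⟨1, by simp⟩)
  · obtain ⟨a, ha, _, ⟨p, rfl⟩, rfl⟩ := Submodule.mem_sup.1 hx
    rw [map_add]
    exact Submodule.add_mem_sup (h1 a ha) ⟨X * p, by simp⟩
  · obtain ⟨a, ha, _, ⟨p, rfl⟩, rfl⟩ := Submodule.mem_sup.1 hx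
    obtain ⟨b, hb, _, ⟨q, rfl⟩, rfl⟩ := Submodule.mem_sup.1 hy
    have k : ∀ a ∈ W, ∀ p : F[X], f.B a (aeval s p v) = 0 := fun a ha p =>
      (h.aeval_alt p a v).symm.trans (hv _ (aeval_apply_smul_mem_of_le_comap ha p s h1))
    have := (h.aeval_alt (q * p)).iso v
    rw [map_mul, End.mul_apply, ← h.aeval_alt q] at this
    simp [h2 ha b hb, k b hb, f.B_eq_zero_symm (k a ha q), this]

theorem famPlane (hf : f.Nondeg) (h3 : 3 ≤ finrank F V) :
    Fam f.O (Scal F V) subAct {W | finrank F W = 2 ∧ Disjoint W (f.perp W)} := by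
  have n : ∀ W : Submodule F V, finrank F W = 2 → Disjoint W (f.perp W) →
      ∃ x y, f.B x y = 1 ∧ W = Submodule.span F {x, y} := fun W h1 h2 => by
    obtain ⟨x, x1, x0⟩ := W.exists_mem_ne_zero_of_ne_bot (by rintro rfl; simp at h1)
    obtain ⟨y, y1, y0⟩ : ∃ y ∈ W, f.B x y ≠ 0 := by
      by_contra! h
      exact x0 (Submodule.disjoint_def.1 h2 x x1 (f.mem_perp'.2 h))
    have e : f.B x ((f.B x y)⁻¹ • y) = 1 := by rw [f.B_smul_right, inv_mul_cancel₀ y0]
    exact ⟨x, _, e, (Submodule.eq_of_le_of_finrank_eq (Submodule.span_le.2 (Set.pair_subset x1 (W.smul_mem _ y1)))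
      ((f.finrank_span_pair (f.alt_q _) (f.alt_q _) e).trans h1.symm)).symm⟩
  have t : ∀ x y x' y', f.B x y = 1 → f.B x' y' = 1 →
      ∃ g ∈ f.O, subAct.smul g (Submodule.span F {x, y}) = Submodule.span F {x', y'} := fun x y x' y' h h' => by
    obtain ⟨g, h1, rfl, rfl⟩ := Form.exists_tv_prod_pair (f := f) (M := f.O) (U := ⊤) (fun x _ x0 => by
      simpa using mt (hf.right x) x0) (fun v _ => f.tv_mem_O v) trivial trivial trivial trivial (h ▸ one_ne_zero)
      (h'.trans h.symm)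
    exact ⟨g, h1, (Submodule.map_span _ _).trans (by simp [Set.image_pair])⟩
  refine ⟨fun W hW W' hW' => ?_, fun W hW => ?_, fun _ _ _ _ => subAct_scal _⟩
  · obtain ⟨x, y, h, rfl⟩ := n W hW.1 hW.2
    obtain ⟨x', y', h', rfl⟩ := n W' hW'.1 hW'.2
    exact t _ _ _ _ h h'
  · obtain ⟨u, u1, u0⟩ := (f.perp W).exists_mem_ne_zero_of_ne_bot fun e => by
      have := hf.finrank_perp W
      rw [e, finrank_bot, hW.1] at this
      omega
    obtain ⟨x, y, h, rfl⟩ := n W hW.1 hW.2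
    obtain ⟨g, h1, h2⟩ := t x y x (y + u) h (by rw [map_add, h, (f.mem_perp_span_pair.1 u1).1, add_zero])
    exact ⟨g, h1, fun e => u0 (Submodule.disjoint_def.1 hW.2 u ((Submodule.add_mem_iff_right _ (x := y) (Submodule.subset_span
      (by simp))).1 ((h2.symm.trans e).le (Submodule.subset_span (Or.inr rfl)))) u1)⟩

theorem sp_model {E : Type*} [Field E] [Algebra F E] (hf : f.Nondeg) [Nontrivial V] (ι : E →ₐ[F] End F V)
    (h : ∀ e, Adj f (ι e) (ι e)) (ℓ : Dual F E) : ∃ φ : E × E →ₗ[F] V,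
      (∀ x y, f.B (φ x) (φ y) = ℓ (x.2 * y.1) - ℓ (y.2 * x.1)) ∧ ∀ e x, φ (e • x) = ι e (φ x) := by
  obtain ⟨v, hv⟩ := exists_ne (0 : V)
  obtain ⟨ψ, hψ⟩ := LinearMap.dualMap_surjective_of_injective (orb_inj ι hv) ℓ
  obtain ⟨t, ht⟩ := hf.exists_rep ψ
  have k : ∀ a b w, f.B (ι a w) (ι b w) = 0 := fun a b w => by rw [h, ← End.mul_apply, ← map_mul, (h _).iso]
  have k' : ∀ a b, f.B (ι a t) (ι b v) = ℓ (a * b) := fun a b => by
    rw [h, ← End.mul_apply, ← map_mul, ht, ← hψ]; rfl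
  refine ⟨(orb ι v).coprod (orb ι t), fun x y => ?_, fun e x => by simp [orb_apply]⟩
  simp [orb_apply, k, k', f.alt_symm (ι y.2 t) (ι x.1 v), sub_eq_neg_add]

theorem trans_sp (hf : f.Nondeg) (h6 : finrank F V = 6) {c : F} (hc : ∀ x, x ^ 3 - x ≠ c) (θ θ' : End F V)
    (h1 : Adj f θ θ) (h2 : θ ^ 3 - θ = c • 1) (h3 : Adj f θ' θ') (h4 : θ' ^ 3 - θ' = c • 1) :
    ∃ g ∈ f.O, (g : End F V) * θ = θ' * g := by
  have : Nontrivial V := Module.nontrivial_of_finrank_pos (R := F) (by omega)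
  have : Fact (Irreducible (X ^ 3 - X - C c : F[X])) := ⟨irreducible_cub hc⟩
  have := (AdjoinRoot.powerBasis (irreducible_cub hc).ne_zero).finite
  obtain ⟨ℓ, hℓ⟩ := Projective.exists_dual_eq_one F (one_ne_zero (α := AdjoinRoot (X ^ 3 - X - C c : F[X])))
  have i := (injective_iff_map_eq_zero _).1 (dual_inj (ℓ := ℓ) (by rintro rfl; simp at hℓ))
  obtain ⟨φ, a1, a2⟩ := sp_model hf (emb (aeval_cub.2 h2)) (AdjoinRoot.mk_surjective.forall.2 h1.aeval_alt) ℓ
  obtain ⟨ψ, b1, b2⟩ := sp_model hf (emb (aeval_cub.2 h4)) (AdjoinRoot.mk_surjective.forall.2 h3.aeval_alt) ℓ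
  refine conj_of_maps hf (by rw [finrank_prod, finrank_cub hc, h6]) ((injective_iff_map_eq_zero φ).2 fun x hx => ?_)
    (fun x y => (b1 x y).trans (a1 x y).symm) (fun x => by rw [f.alt_q, f.alt_q]) (r := (AdjoinRoot.root _ • ·))
    (fun x => by rw [a2, emb_root]) fun x => by rw [b2, emb_root]
  exact Prod.ext (i _ (LinearMap.ext fun y => by simpa [hx, mul_comm y] using a1 x (0, y)))
    (i _ (LinearMap.ext fun y => by simpa [hx] using (a1 x (y, 0)).symm))

theorem cov_PSp6 : Cov (Cfsg.PSp 3 F) := by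
  have hf := Sp.spForm_nondeg 3 F
  have h6 : finrank F (Fin 3 ⊕ Fin 3 → F) = 6 := Sp.finrank_sp 3 F
  obtain ⟨c, -, hc⟩ := exists_c0 (FormType.alt F)
  obtain ⟨u, hu⟩ := exists_ne (0 : Fin 3 ⊕ Fin 3 → F)
  refine cov_quot (famPlane hf (by omega)) (famCub hf (by omega) hc (trans_sp hf h6 hc) hu rfl one_ne_zero rfl
    (Form.ei_mem_O _ _ _)) (fun g hg => or_iff_not_imp_left.2 fun H => good hf ⟨2, h6⟩ hg (fun z h1 h2 => ?_) rfl hc) _
    (range_sp 3) _ fun z hz => (sign_sp z hz).imp fun _ h => h.2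
  refine (red hf (fun W w1 w2 => ?_) h1 h2).elim fun P ⟨p1, p2, m, p3⟩ => ?_
  on_goal 2 =>
    rw [show (P ^ m).map (FormType.alt F).σ = P ^ m from Polynomial.map_id, ← pow_add] at p3
    obtain ⟨p, hp⟩ := exists_ss p1 p2 p3 p2 dvd_rfl
    obtain ⟨W, w1, w2⟩ := exists_lag hf (h1.aeval_alt p)
    have := FFO.dvd_finrank_of_invt _ p2 w1 fun x _ => by rw [hp]; rfl
    exact ⟨P, p1, p2, Polynomial.map_id, by rwa [show finrank F W = 3 by omega] at this, _, p3⟩
  · obtain ⟨k, hk⟩ := (((Sp.spForm 3 F).restrict_nondeg_iff W).2 w2).even_finrank_alt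
    have a1 := hf.finrank_perp W
    have a2 := Submodule.finrank_le W
    have a3 : finrank F W ≠ 2 := fun e => H ⟨W, ⟨e, w2⟩, subAct_eq w1⟩
    have a4 : finrank F ((Sp.spForm 3 F).perp W) ≠ 2 := fun e =>
      H ⟨_, ⟨e, by rw [hf.perp_perp]; exact w2.symm⟩, subAct_eq (perp_inv hg w1)⟩
    exact (by omega : finrank F W = 0 ∨ finrank F W = finrank F (Fin 3 ⊕ Fin 3 → F)).imp Submodule.finrank_eq_zero.1
      (Submodule.eq_top_of_finrank_eq)

end Sp

section U
variable [Fintype F] {q : ℕ} {hF : Fintype.card F = q ^ 2} {f : Form (Uni.HT hF) V}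

theorem trans_u (hf : f.Nondeg) (h3 : finrank F V = 3) {c : F} (hσ : Uni.sig hF c = c) (hc : ∀ x, x ^ 3 - x ≠ c)
    (θ θ' : End F V) (h1 : Adj f θ θ) (h2 : θ ^ 3 - θ = c • 1) (h1' : Adj f θ' θ') (h2' : θ' ^ 3 - θ' = c • 1) :
    ∃ g ∈ f.SO, (g : End F V) * θ = θ' * g := by
  have : Nontrivial V := Module.nontrivial_of_finrank_pos (R := F) (by omega)
  have : Fact (Irreducible (X ^ 3 - X - C c : F[X])) := ⟨irreducible_cub hc⟩
  have : Fact (Nat.Prime 3) := ⟨by decide⟩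
  have := (AdjoinRoot.powerBasis (irreducible_cub hc).ne_zero).finite
  have := Module.finite_of_finite F (M := AdjoinRoot (X ^ 3 - X - C c : F[X]))
  obtain ⟨τ, hτ⟩ : ∃ τ : AdjoinRoot (X ^ 3 - X - C c : F[X]) →+* AdjoinRoot (X ^ 3 - X - C c : F[X]),
      ∀ p, τ (AdjoinRoot.mk _ p) = AdjoinRoot.mk _ (p.map (Uni.HT hF).σ) := by
    have k : ∀ p : F[X], p.eval₂ ((AdjoinRoot.of _).comp (Uni.HT hF).σ) (AdjoinRoot.root _) =
        AdjoinRoot.mk (X ^ 3 - X - C c : F[X]) (p.map (Uni.HT hF).σ) := fun p => by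
      rw [← eval₂_map, ← AdjoinRoot.aeval_eq]; rfl
    exact ⟨AdjoinRoot.lift _ _ ((k _).trans (by simp [FormType.herm_σ, hσ])), fun p => k p⟩
  have t2 : ∀ e, τ (τ e) = e := AdjoinRoot.mk_surjective.forall.2 fun p => by rw [hτ, hτ, map_σσ]
  have t1 : τ ≠ RingHom.id _ := fun e => Uni.sig_ne_id hF (RingHom.ext fun a => (AdjoinRoot.of (X ^ 3 - X - C c)).injective
    (by simpa [e, FormType.herm_σ] using (hτ (C a)).symm))
  obtain ⟨v, hv⟩ := exists_ne (0 : V)
  have hd := (finrank_cub hc).trans h3.symm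
  have md : ∀ {θ : End F V} (h : aeval θ (X ^ 3 - X - C c : F[X]) = 0), Adj f θ θ → f.B v ∘ₗ orb (emb h) v ≠ 0 ∧
      (∀ x y, f.B (orb (emb h) v x) (orb (emb h) v y) = (f.B v ∘ₗ orb (emb h) v) (τ x * y)) ∧
      ∀ x, (f.B v ∘ₗ orb (emb h) v) (τ x) = Uni.sig hF ((f.B v ∘ₗ orb (emb h) v) x) := fun {θ} h a => by
    have k : ∀ e, Adj f (emb h e) (emb h (τ e)) := AdjoinRoot.mk_surjective.forall.2 fun p => hτ p ▸ a.aeval p
    refine ⟨fun e => hv (hf v (((LinearMap.injective_iff_surjective_of_finrank_eq_finrank hd).1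
      (orb_inj (emb h) hv)).forall.2 (LinearMap.congr_fun e))), fun x y => (k x _ _).trans (by simp [orb_apply]),
      fun x => (k x v v).symm.trans (f.herm_symm _ _)⟩
  obtain ⟨-, a2, a3⟩ := md (aeval_cub.2 h2) h1
  obtain ⟨b1, b2, b3⟩ := md (aeval_cub.2 h2') h1'
  obtain ⟨k, hk⟩ := (LinearMap.injective_iff_surjective_of_finrank_eq_finrank Subspace.dual_finrank_eq.symm).1
    (dual_inj b1) (f.B v ∘ₗ orb (emb (aeval_cub.2 h2)) v)
  replace hk : ∀ e, (f.B v ∘ₗ orb (emb (aeval_cub.2 h2')) v) (k * e) = _ := LinearMap.congr_fun hk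
  obtain ⟨m, hm⟩ := Tv.exists_norm_eq_of_involution t1 t2 (b := k) (dual_inj b1 (LinearMap.ext
    ((Function.LeftInverse.surjective t2).forall.2 fun e => by
      simp only [LinearMap.compr₂_apply, LinearMap.mul_apply']
      rw [← map_mul, b3, hk, hk, a3])))
  obtain ⟨g, g1, g2⟩ := conj_of_maps hf hd (ψ := orb (emb (aeval_cub.2 h2')) v ∘ₗ LinearMap.mulLeft F m)
    (orb_inj (emb (aeval_cub.2 h2)) hv) (θ := θ) (θ' := θ') (r := (AdjoinRoot.root _ * ·)) (fun x y => by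
      rw [a2, ← hk, ← hm, LinearMap.comp_apply, LinearMap.comp_apply, b2]; congr 1; simp only [LinearMap.mulLeft_apply, map_mul]
      ring) (fun x => by
      rw [f.herm_q, f.herm_q, a2, ← hk, ← hm, LinearMap.comp_apply, b2]; congr 1; simp only [LinearMap.mulLeft_apply, map_mul]
      ring) (fun x => by simp [orb_apply, emb_root]) fun x => by
      simp only [LinearMap.comp_apply, LinearMap.mulLeft_apply, orb_apply, mul_left_comm m]; simp [emb_root]
  obtain ⟨d, hd⟩ := (frobeniusEquiv F 3).surjective (LinearMap.det (g : End F V))⁻¹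
  replace hd : d ^ 3 = _ := hd
  have g0 := Form.det_equiv_ne_zero g
  have d0 : d ≠ 0 := by rintro rfl; exact inv_ne_zero g0 (by simpa using hd.symm)
  refine ⟨Uni.scal V (Units.mk0 d d0) * g, f.mem_SO.2 ⟨mul_mem (Uni.scal_mem_O (frobenius_inj F 3 ?_)) g1, ?_⟩,
    LinearMap.ext fun x => by simpa using congrArg (d • ·) (LinearMap.congr_fun g2 x)⟩
  · rw [map_one, frobenius_def, mul_pow, ← map_pow, Units.val_mk0, hd, map_inv₀, ← mul_inv, hf.σ_det_mul_det g1, inv_one]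
  · rw [Form.det_mul_equiv, Uni.det_scal, h3, Units.val_mk0, hd, inv_mul_cancel₀ g0]

variable (hF) in
include hF in
theorem cov_PSU3 : Cov (Cfsg.PSU 3 F q) := by
  have hf := Uni.std_nondeg hF (Fin 3)
  have h3 : finrank F (Fin 3 → F) = 3 := by simp
  obtain ⟨c, hσ, hc⟩ := exists_c0 (Uni.HT hF)
  obtain ⟨u, u0, hu⟩ := Uni.exists_isotropic (Uni.sig_ne_id hF) hf (by omega)
  obtain ⟨a, a0, ha⟩ := FormType.exists_add_σ_eq_zero (Uni.sig_ne_id hF) (Uni.sig_sig hF)
  refine cov_quot (famPoint hf (by omega)) (famCub hf (by omega) hc (trans_u hf h3 hσ hc) u0 hu a0 ha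
    (Form.ei_mem_SO _ _ _ _)) (fun g hg => or_iff_not_imp_left.2 fun H => good hf ⟨1, h3⟩ hg.1 (fun z h1 h2 => ?_) hσ hc) _
    (range_su 3) _ (scal_su (by decide))
  generalize Uni.std hF (Fin 3) = f at *
  refine (red hf (fun W w1 w2 => ?_) h1 h2).elim fun P ⟨p1, p2, m, p3⟩ => ?_
  on_goal 2 =>
    have k : ∀ A B : F[X], IsCoprime A B → B = A.map (Uni.HT hF).σ →
        finrank F (LinearMap.ker (aeval z A)) ≤ 1 := fun A B ⟨s, t, e⟩ e' => by
      have := Form.TotSing.two_mul_finrank_le hf ((f.herm_totSing_iff (LinearMap.ker (aeval z A))).2 fun x hx y hy => by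
        have e1 := congrArg (fun p => aeval z p y) e
        simp only [map_add, map_mul, LinearMap.add_apply, End.mul_apply, LinearMap.mem_ker.1 hy, map_zero, zero_add, map_one,
          End.one_apply, mul_comm t] at e1
        rw [← e1, e', ← h1.aeval A, LinearMap.mem_ker.1 hx, f.B_zero_left])
      omega
    have e : P.map (Uni.HT hF).σ = P := by_contra fun e => by
      have c1 : IsCoprime (P ^ m) ((P ^ m).map (Uni.HT hF).σ) := by
        rw [Polynomial.map_pow]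
        refine (p2.coprime_iff_not_dvd.2 fun h => e ?_).pow
        exact eq_of_monic_of_dvd_of_natDegree_le p1 (p1.map _) h (natDegree_map_le)
      have c2 := Submodule.finrank_add_le_finrank_add_finrank (LinearMap.ker (aeval z (P ^ m)))
        (LinearMap.ker (aeval z ((P ^ m).map (Uni.HT hF).σ)))
      rw [sup_ker_aeval_eq_ker_aeval_mul_of_coprime z c1, p3, LinearMap.ker_zero, finrank_top] at c2
      have := k _ _ c1 rfl
      have := k _ _ c1.symm (map_σσ _).symm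
      omega
    rw [Polynomial.map_pow, e, ← pow_add] at p3
    obtain ⟨p, hp⟩ := exists_ss p1 p2 p3 p2 dvd_rfl
    have := FFO.dvd_finrank_of_invt _ p2 (W := ⊤) (fun _ _ => trivial) fun x _ => by rw [hp]; rfl
    exact ⟨P, p1, p2, e, by rwa [finrank_top, h3] at this, _, p3⟩
  · have k : ∀ W : Submodule F (Fin 3 → F), (∀ v ∈ W, g v ∈ W) → Disjoint W (f.perp W) → finrank F W ≠ 1 :=
      fun W w1 w2 e => by
        obtain ⟨v, v1, v0⟩ := W.exists_mem_ne_zero_of_ne_bot (by rintro rfl; simp at e)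
        obtain rfl : (F ∙ v) = W := Submodule.eq_of_le_of_finrank_eq ((Submodule.span_singleton_le_iff_mem _ _).2 v1)
          ((finrank_span_singleton v0).trans e.symm)
        exact H ⟨_, ⟨v, fun h => v0 (Submodule.disjoint_def.1 w2 v v1
          (f.mem_perp_span_singleton.2 ((f.herm_q v).symm.trans h))), rfl⟩, subAct_eq w1⟩
    have a1 := hf.finrank_perp W
    have a2 := Submodule.finrank_le W
    have a3 := k W w1 w2
    have a4 := k _ (perp_inv hg.1 w1) (by rw [hf.perp_perp]; exact w2.symm)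
    exact (by omega : finrank F W = 0 ∨ finrank F W = finrank F (Fin 3 → F)).imp Submodule.finrank_eq_zero.1
      (Submodule.eq_top_of_finrank_eq)

end U

end CL.Cover
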