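import Cfsg.Agent.CHEV.CoxTypes

/-! Centre of a Weyl group and generation by the Coxeter element and simple reflections. -/

namespace CL.Cox

open Calc Finset

section Gen
variable {ι : Type*} [Fintype ι] [DecidableEq ι] {A : ι → ι → ℤ} {W : Type*} [Group W]
  {s : ι → W} {ρ : W →* Module.End ℤ (ι → ℤ)}

/-- a central element acts as `±1` when the diagram is connected -/
theorem Geom.central (g : Geom A s ρ) (hd : ∀ i, A i i = 2) (i₀ : ι) (r : ι → ℕ)
    (hr : ∀ i, i = i₀ ∨ ∃ j, r j < r i ∧ A j i ≠ 0) {w : W} (hw : w ∈ Subgroup.center W) :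
    ρ w = 1 ∨ ρ w = -1 := by
  have hc : ∀ i v, ρ w (srefl A i v) = srefl A i (ρ w v) := by
    intro i v
    have := Subgroup.mem_center_iff.1 hw (s i)
    rw [← g.apply_s_mul, this, map_mul, Module.End.mul_apply, g.apply_s_apply]
  set e : ι → ℤ := fun i => ρ w (Pi.single i 1) i with he
  have h1 : ∀ i, ρ w (Pi.single i 1) = e i • Pi.single i 1 := by
    intro i
    have := hc i (Pi.single i 1)
    rw [srefl_self (hd i), map_neg, srefl_eq] at this
    ext k
    by_cases hk : k = i
    · subst hk; simp [he]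
    · have h2 := congrFun this k
      simp only [Pi.neg_apply, Pi.sub_apply, Pi.smul_apply, Pi.single_eq_of_ne hk, smul_eq_mul,
        mul_zero, sub_zero] at h2 ⊢
      omega
  have h2 : ∀ i j, A j i ≠ 0 → e i = e j := by
    intro i j hA
    by_cases hij : i = j
    · rw [hij]
    have := hc j (Pi.single i 1)
    rw [srefl_single, map_sub, map_smul, h1, h1, ← sreflL_apply, map_smul, sreflL_apply,
      srefl_single] at this
    have h3 := congrFun this j
    simp only [Pi.sub_apply, Pi.smul_apply, Pi.single_eq_of_ne (Ne.symm hij), Pi.single_eq_same,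
      smul_eq_mul, mul_zero, mul_one, zero_sub] at h3
    have : A j i * (e i - e j) = 0 := by linarith
    rcases mul_eq_zero.1 this with h | h
    · exact absurd h hA
    · linarith
  have h3 : ∀ m i, r i = m → e i = e i₀ := by
    intro m
    induction m using Nat.strong_induction_on with
    | _ m ih =>
      intro i hi
      rcases hr i with rfl | ⟨j, hj, hA⟩
      · rfl
      · rw [h2 i j hA]; exact ih (r j) (hi ▸ hj) j rfl
  have h4 : ρ w = e i₀ • (1 : Module.End ℤ (ι → ℤ)) := by
    refine LinearMap.pi_ext' fun k => LinearMap.ext_ring ?_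
    have := h1 k
    rw [h3 _ k rfl] at this
    simpa using this
  have h5 : e i₀ * ρ w⁻¹ (Pi.single i₀ 1) i₀ = 1 := by
    have := rep_apply_inv ρ w (Pi.single i₀ 1)
    rw [h4] at this
    simpa using congrFun this i₀
  rcases Int.eq_one_or_neg_one_of_mul_eq_one h5 with h | h
  · left; rw [h4, h, one_smul]
  · right; rw [h4, h, neg_smul, one_smul]

theorem Geom.mem_center_of_neg (g : Geom A s ρ) {z : W} (hz : ρ z = -1) :
    z ∈ Subgroup.center W := by
  refine Subgroup.mem_center_iff.2 fun x => g.inj ?_
  rw [map_mul, map_mul, hz]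
  simp

theorem Geom.center_eq (g : Geom A s ρ) (hd : ∀ i, A i i = 2) (i₀ : ι) (r : ι → ℕ)
    (hr : ∀ i, i = i₀ ∨ ∃ j, r j < r i ∧ A j i ≠ 0) {z : W} (hz : ρ z = -1) :
    Nat.card (Subgroup.center W) = 2 ∧ ∀ w ∈ Subgroup.center W, w = 1 ∨ w = z := by
  have h1 : ∀ w ∈ Subgroup.center W, w = 1 ∨ w = z := by
    intro w hw
    rcases g.central hd i₀ r hr hw with h | h
    · left; exact g.inj (by rw [h, map_one])
    · right; exact g.inj (by rw [h, hz])
  refine ⟨?_, h1⟩
  have hz1 : (1 : W) ≠ z := by
    intro h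
    rw [← h, map_one] at hz
    have := congrFun (LinearMap.congr_fun hz (Pi.single i₀ 1)) i₀
    simp at this
  have : (Subgroup.center W : Set W) = {1, z} := by
    ext w
    constructor
    · intro hw; exact h1 w hw
    · rintro (rfl | rfl)
      · exact one_mem _
      · exact g.mem_center_of_neg hz
  change Nat.card (Subgroup.center W : Set W) = 2
  rw [this, Nat.card_coe_set_eq, Set.ncard_pair hz1]

theorem Geom.eq_one_of_pos (g : Geom A s ρ) {d : ι → ℤ} {Φ : Set (ι → ℤ)} (h : RootOK A d Φ)
    {w : W} (hw : ∀ i, ρ w (Pi.single i 1) ∈ Φ) : w = 1 := by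
  by_contra hne
  obtain ⟨i, hi⟩ := g.gen.exists_left_descent (inv_ne_one.2 hne)
  have := ((g.exch_and h).2 i w⁻¹).1 (by rw [inv_inv]; exact hw i)
  omega

end Gen

variable {n : ℕ} {A : List (List ℤ)} {W : Type*} [Group W] {s : Fin n → W}
  {ρ : W →* Module.End ℤ (Fin n → ℤ)}

/-- check that a power of a word acts as `-1` -/
def negCheck (n : ℕ) (A : List (List ℤ)) (ω : List ℕ) (m : ℕ) : Bool :=
  (List.range n).all fun k => (actW n A ω)^[m] (unitL n k) == (unitL n k).map fun x => -x

theorem toV_map_neg (n : ℕ) (v : List ℤ) : toV n (v.map fun x => -x) = -toV n v := by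
  ext k
  simp only [toV, Pi.neg_apply, List.getD_eq_getElem?_getD, List.getElem?_map]
  cases v[(k : ℕ)]? <;> simp

theorem neg_of_check (g : Geom (matA n A) s ρ) (ω : List (Fin n)) {m : ℕ}
    (h : negCheck n A (ω.map Fin.val) m = true) : ρ (wp s ω ^ m) = -1 := by
  simp only [negCheck, List.all_eq_true, List.mem_range, beq_iff_eq] at h
  refine LinearMap.pi_ext' fun k => LinearMap.ext_ring ?_
  have := toV_actW_iterate g ω m (unitL n k)
  rw [h k k.2, toV_map_neg, toV_unitL] at this
  simpa using this.symm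

theorem center_of_check (g : Geom (matA n A) s ρ) (hd : ∀ i, matA n A i i = 2) (i₀ : Fin n)
    (r : Fin n → ℕ) (hr : ∀ i, i = i₀ ∨ ∃ j, r j < r i ∧ matA n A j i ≠ 0) (ω : List (Fin n))
    {m : ℕ} (h : negCheck n A (ω.map Fin.val) m = true) :
    Nat.card (Subgroup.center W) = 2 ∧ Subgroup.center W ≤ Subgroup.zpowers (wp s ω) := by
  obtain ⟨h1, h2⟩ := g.center_eq hd i₀ r hr (neg_of_check g ω h)
  refine ⟨h1, fun w hw => ?_⟩
  rcases h2 w hw with rfl | rfl
  · exact one_mem _
  · exact pow_mem (Subgroup.mem_zpowers _) _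

/-- check that a word maps the simple roots to negatives of simple roots, `α_k ↦ -α_{σ k}` -/
def oppCheck (n : ℕ) (A : List (List ℤ)) (ω : List ℕ) (σ : Fin n → Fin n) : Bool :=
  (List.finRange n).all fun k => actW n A ω (unitL n k) == (unitL n (σ k)).map fun x => -x

theorem center_eq_bot_of_check (g : Geom (matA n A) s ρ) {d : Fin n → ℤ} {Φ : Set (Fin n → ℤ)}
    (hΦ : RootOK (matA n A) d Φ) (i₀ : Fin n)
    (r : Fin n → ℕ) (hr : ∀ i, i = i₀ ∨ ∃ j, r j < r i ∧ matA n A j i ≠ 0) (ω : List (Fin n))
    {σ : Fin n → Fin n} (h : oppCheck n A (ω.map Fin.val) σ = true) (hσ : σ i₀ ≠ i₀) :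
    Subgroup.center W = ⊥ := by
  simp only [oppCheck, List.all_eq_true, List.mem_finRange, true_imp_iff, beq_iff_eq] at h
  have h1 : ∀ k, ρ (wp s ω) (Pi.single k 1) = -Pi.single (σ k) 1 := by
    intro k
    have := toV_actW g ω (unitL n k)
    rw [h k, toV_map_neg, toV_unitL, toV_unitL] at this
    exact this.symm
  refine (Subgroup.eq_bot_iff_forall _).2 fun w hw => ?_
  rcases g.central hΦ.diag i₀ r hr hw with h2 | h2
  · exact g.inj (by rw [h2, map_one])
  · exfalso
    have h3 : ∀ k, ρ (w * wp s ω) (Pi.single k 1) = Pi.single (σ k) 1 := by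
      intro k
      rw [map_mul, Module.End.mul_apply, h1, h2]
      simp
    have h4 : w * wp s ω = 1 := g.eq_one_of_pos hΦ fun k => by rw [h3]; exact hΦ.simple_mem _
    have := congrFun (h3 i₀) i₀
    rw [h4, map_one, Module.End.one_apply, Pi.single_eq_same, Pi.single_eq_of_ne (Ne.symm hσ)]
      at this
    exact one_ne_zero this

/-- letters: a simple reflection, the Coxeter element or its inverse -/
def expandL (n : ℕ) : Fin n ⊕ Bool → List (Fin n)
  | .inl k => [k]
  | .inr true => List.finRange n
  | .inr false => (List.finRange n).reverse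

/-- check that each simple reflection is a word in the Coxeter element and those of `K` -/
def genCheck (n : ℕ) (A : List (List ℤ)) (K : List (Fin n)) (ws : Fin n → List (Fin n ⊕ Bool)) :
    Bool :=
  (List.finRange n).all fun j =>
    ((ws j).all fun l => match l with | .inl k => K.contains k | .inr _ => true) &&
    (List.range n).all fun k =>
      actW n A (((ws j).flatMap (expandL n)).map Fin.val) (unitL n k) == actW n A [j] (unitL n k)

theorem closure_eq_top_of_check (g : Geom (matA n A) s ρ) {K : List (Fin n)}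
    {ws : Fin n → List (Fin n ⊕ Bool)} (h : genCheck n A K ws = true) {H : Subgroup W}
    (hc : wp s (List.finRange n) ∈ H) (hK : ∀ k ∈ K, s k ∈ H) : H = ⊤ := by
  simp only [genCheck, List.all_eq_true, List.mem_finRange, true_imp_iff, Bool.and_eq_true,
    List.mem_range, beq_iff_eq] at h
  have key : ∀ j, s j ∈ H := by
    intro j
    obtain ⟨h1, h2⟩ := h j
    have e : wp s ((ws j).flatMap (expandL n)) = wp s [j] := by
      apply g.inj
      refine LinearMap.pi_ext' fun k => LinearMap.ext_ring ?_
      have a := toV_actW g ((ws j).flatMap (expandL n)) (unitL n k)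
      have b := toV_actW g [j] (unitL n k)
      rw [h2 k k.2] at a
      have := a.symm.trans b
      rw [toV_unitL] at this
      simpa using this
    rw [wp_singleton] at e
    rw [← e]
    generalize ws j = l at h1
    induction l with
    | nil => exact one_mem _
    | cons x l ih =>
      rw [List.flatMap_cons, wp_append]
      refine mul_mem ?_ (ih fun y hy => h1 y (List.mem_cons_of_mem _ hy))
      have hx := h1 x List.mem_cons_self
      rcases x with k | _ | _
      · simp only [List.contains_iff_mem] at hx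
        rw [expandL, wp_singleton]; exact hK k hx
      · rw [expandL, g.gen.wp_reverse]; exact inv_mem hc
      · exact hc
  rw [eq_top_iff, ← g.gen.closure_eq_top, Subgroup.closure_le]
  rintro _ ⟨j, rfl⟩
  exact key j

theorem exists_gen_of_check [DecidableEq W] (g : Geom (matA n A) s ρ) {d : Fin n → ℤ}
    {Φ : Set (Fin n → ℤ)} (hΦ : RootOK (matA n A) d Φ) {K : List (Fin n)} (hK : K.Nodup)
    {ws : Fin n → List (Fin n ⊕ Bool)} (h : genCheck n A K ws = true) :
    ∃ T : Finset W, T.card = K.length ∧ (∀ t ∈ T, ∃ (x : W) (i : Fin n), t = x * s i * x⁻¹) ∧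
      Subgroup.closure (({((List.finRange n).map s).prod} : Set W) ∪ ↑T) = ⊤ := by
  refine ⟨(K.map s).toFinset, ?_, ?_, ?_⟩
  · rw [List.toFinset_card_of_nodup (hK.map (g.injective_s hΦ)), List.length_map]
  · intro t ht
    obtain ⟨i, -, rfl⟩ := List.mem_map.1 (List.mem_toFinset.1 ht)
    exact ⟨1, i, by simp⟩
  · refine closure_eq_top_of_check g h (Subgroup.subset_closure (Or.inl rfl)) fun k hk => ?_
    exact Subgroup.subset_closure (Or.inr (List.mem_toFinset.2 (List.mem_map_of_mem hk)))

end CL.Cox
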