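/-
CHEV library: the isometry group of the cubic form in 27 variables is generated by the root elements of E₆.
-/
import Cfsg.Agent.CHEV.E6Cubic

set_option autoImplicit false
set_option linter.unusedSectionVars false

namespace CL.E6C

open Cfsg.Lie CL.Chev
open scoped Matrix MatrixGroups

variable {F : Type*} [Field F]

/-- the action of the isometry group on vectors -/
def act (g : E6univ F) (v : I27 → F) : I27 → F := ((g : GL I27 F) : Matrix I27 I27 F) *ᵥ v

theorem act_mul (g h : E6univ F) (v : I27 → F) : act (g * h) v = act g (act h v) := by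
  simp [act, Matrix.mulVec_mulVec]
theorem act_one (v : I27 → F) : act (1 : E6univ F) v = v := by simp [act]
theorem act_add (g : E6univ F) (v w : I27 → F) : act g (v + w) = act g v + act g w := Matrix.mulVec_add _ _ _
theorem act_smul (g : E6univ F) (t : F) (v : I27 → F) : act g (t • v) = t • act g v := Matrix.mulVec_smul _ _ _
theorem act_inv (g : E6univ F) (v : I27 → F) : act g (act g⁻¹ v) = v := by rw [← act_mul, mul_inv_cancel, act_one]
theorem inv_act (g : E6univ F) (v : I27 → F) : act g⁻¹ (act g v) = v := by rw [← act_mul, inv_mul_cancel, act_one]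

theorem N_act (g : E6univ F) (v : I27 → F) : N (act g v) = N v := by
  rw [N_eq, N_eq]; exact g.2 v

theorem T3_act (g : E6univ F) (u v w : I27 → F) : T3 (act g u) (act g v) (act g w) = T3 u v w := by
  simp only [T3_pol, ← act_add, N_act]

theorem eq_of_act {g h : E6univ F} (k : ∀ v i, act g v i = act h v i) : g = h :=
  Subtype.ext (Units.ext (mat_ext k))

theorem sing_act {a : F} (h0 : a ≠ 0) (h1 : a ≠ 1) (g : E6univ F) (d : I27) (z : I27 → F) :
    P (act g (e d)) z = 0 := by
  have key : ∀ t : F, t * P z (act g (e d)) + t ^ 2 * P (act g (e d)) z = t * P (act g⁻¹ z) (e d) := by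
    intro t
    have k1 := N_expand t (act g (e d)) z
    have k2 := N_expand t (e d) (act g⁻¹ z)
    rw [(iso2_e d).P_eq, (iso2_e d).N_eq, N_act] at k2
    rw [N_act, (iso2_e d).N_eq] at k1
    have k3 : z + t • act g (e d) = act g (act g⁻¹ z + t • e d) := by rw [act_add, act_smul, act_inv]
    rw [k3, N_act, k2] at k1
    linear_combination -k1
  have k : a * (a - 1) * P (act g (e d)) z = 0 := by linear_combination key a - a * key 1
  exact (mul_eq_zero.1 k).resolve_left (mul_ne_zero h0 (sub_ne_zero.2 h1))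

/-! ### root elements -/

theorem xm_mul {r : ℕ} (hr : r < 72) (t u : F) :
    (1 + t • Em r : Matrix I27 I27 F) * (1 + u • Em r) = 1 + (t + u) • Em r := by
  simp only [add_mul, mul_add, one_mul, mul_one, Matrix.smul_mul, Matrix.mul_smul, Em_sq hr, smul_zero, add_zero,
    add_smul]
  abel

/-- the root element `1 + t E_r` -/
def xe {r : ℕ} (hr : r < 72) (t : F) : E6univ F :=
  ⟨⟨1 + t • Em r, 1 + (-t) • Em r, by rw [xm_mul hr]; simp, by rw [xm_mul hr]; simp⟩, fun v => by
    rw [← N_eq, ← N_eq, ← N_root hr t v]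
    simp [Matrix.add_mulVec, Matrix.smul_mulVec]⟩

theorem xe_val {r : ℕ} (hr : r < 72) (t : F) :
    ((xe hr t : GL I27 F) : Matrix I27 I27 F) = 1 + t • Em r := rfl

theorem act_xe {r : ℕ} (hr : r < 72) (t : F) (w : I27 → F) (i : I27) :
    act (xe hr t) w i = w i + t * ((sz r i : F) * w (sr r i)) := by
  simp [act, xe_val, Matrix.add_mulVec, Matrix.smul_mulVec, Em_mulVec]

/-- the root elements indexed by the roots of the tabulated datum -/
def xr (r : Rt chevE6) (t : F) : E6univ F := xe (r := r) r.2 t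

theorem xr_val (r : Rt chevE6) (t : F) : ((xr r t : GL I27 F) : Matrix I27 I27 F) = 1 + t • Em r := rfl

theorem xr_add (r : Rt chevE6) (t u : F) : xr r (t + u) = xr r t * xr r u :=
  Subtype.ext (Units.ext (xm_mul r.2 t u).symm)

theorem xN_xr {k : ℕ} (hk : k < 72) (t : F) : xN xr k t = xe hk t := dif_pos (show k < chevE6.nroots from hk)

theorem xr_exact : ExactComm (xr (F := F)) := by
  intro r s h1 h2 t u
  have h := (allLt_iff _ _).1 ((allLt_iff _ _).1 pair_chk r r.2) s s.2
  simp only [Bool.or_eq_true, Nat.beq_eq] at h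
  have h3 : pair r s (certE6.fct 72 r s) = true := by
    refine (h.resolve_left fun k => h1 (Fin.ext k)).resolve_left fun k => h2 (Fin.ext ?_)
    rw [ng_val', k]; rfl
  rw [cprod_eq_fct]
  change _ = _ * ((certE6.fct 72 r s).map (evT xr t u)).prod
  generalize certE6.fct 72 r s = L at h3
  refine Subtype.ext (Units.ext ?_)
  cases L with
  | nil =>
    have k := Em_comm (F := F) (all27 h3)
    simp only [List.map_nil, List.prod_nil, mul_one, Subgroup.coe_mul, Units.val_mul, xr_val]
    simp only [add_mul, mul_add, one_mul, mul_one, Matrix.smul_mul, Matrix.mul_smul, k]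
    simp only [Int.cast_zero, zero_smul, sub_zero]
    module
  | cons x L =>
    obtain ⟨k, c, i, j⟩ := x
    simp only [pair, Bool.and_eq_true, List.isEmpty_iff, Nat.beq_eq, Nat.blt_eq] at h3
    obtain ⟨rfl, rfl, rfl, hk, h4⟩ := h3
    have h5 := fun i => all27 h4 i
    simp only [Bool.and_eq_true] at h5
    have k1 := Em_comm (F := F) fun i => (h5 i).1
    have k2 := Em_mul_eq_zero (F := F) fun i => (h5 i).2.1
    have k3 := Em_mul_eq_zero (F := F) fun i => (h5 i).2.2
    simp only [List.map_cons, List.map_nil, List.prod_cons, List.prod_nil, mul_one, evT, xN_xr hk, Subgroup.coe_mul,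
      Units.val_mul, xr_val, xe_val]
    simp only [add_mul, mul_add, one_mul, mul_one, Matrix.smul_mul, Matrix.mul_smul, k1, k2, k3, Matrix.mul_assoc,
      Matrix.mul_zero, smul_zero, add_zero]
    module

/-- the representation of the Steinberg cover -/
def rho : chevE6.SteinbergCover F →* E6univ F := scLift xr xr_add xr_exact

theorem xe_mem {r : ℕ} (hr : r < 72) (t : F) : xe hr t ∈ (rho (F := F)).range :=
  ⟨chevE6.scGen F r t, scLift_scGen xr xr_add xr_exact ⟨r, hr⟩ t⟩

/-! ### isometries fixing basis vectors -/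

def Fix (S : List I27) (g : E6univ F) : Prop := ∀ a ∈ S, act g (e a) = e a

theorem Fix.T3_ee {S : List I27} {g : E6univ F} (h : Fix S g) {a b : I27} (ha : a ∈ S) (hb : b ∈ S)
    (hab : tz a b ≠ 0) (v : I27 → F) : act g v (th a b) = v (th a b) := by
  have k := T3_act g v (e a) (e b)
  rw [h a ha, h b hb, T3_e, T3_e] at k
  exact tz_cancel hab k

theorem T3_ee_zero {a d : I27} (had : tz a d = 0) (z : I27 → F) : T3 (e d) z (e a) = 0 := by
  rw [T3_swap, T3_e, tz_comm, had]; simp

theorem Fix.vanish {S : List I27} {g : E6univ F} (h : Fix S g) {a c d : I27} (ha : a ∈ S) (hac : tz a c ≠ 0)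
    (had : tz a d = 0) : act g (e d) c = 0 := by
  obtain ⟨-, -, -, k1, k2, -⟩ := tz_spec hac
  have k := T3_act g (e d) (act g⁻¹ (e (th a c))) (e a)
  have hb : tz a (th a c) ≠ 0 := k1 ▸ hac
  rw [act_inv, h a ha, T3_ee_zero had, T3_e, (tz_spec hb).2.1, (tz_spec hb).2.2.1, k2] at k
  exact tz_cancel hb (y := 0) (by rw [k, mul_zero])

theorem Fix.exists_mate {S : List I27} {g : E6univ F} (h : Fix S g) {a d : I27} (ha : a ∈ S) (had : tz a d ≠ 0) :
    ∃ c, tz a c ≠ 0 ∧ act g (e d) c ≠ 0 := by
  by_contra hc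
  push Not at hc
  have k0 : ∀ z, T3 (act g (e d)) z (e a) = 0 := T3_eq_zero _ _ fun b => by
    rw [T3_e]
    by_cases hb : tz b a = 0
    · simp [hb]
    · have hb' : tz a b ≠ 0 := by rwa [tz_comm]
      rw [(tz_spec hb').2.2.1, hc _ ((tz_spec hb').2.2.2.1 ▸ hb'), mul_zero]
  obtain ⟨-, -, -, k1, k2, -⟩ := tz_spec had
  have hb : tz a (th a d) ≠ 0 := k1 ▸ had
  have k := T3_act g (e d) (e (th a d)) (e a)
  rw [h a ha, k0, T3_e, (tz_spec hb).2.1, (tz_spec hb).2.2.1, k2, e_self] at k
  exact one_ne_zero (tz_cancel hb (x := (1 : F)) (y := 0) (by rw [← k, mul_zero]))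

theorem Fix.exists_out {S : List I27} {g : E6univ F} (h : Fix S g) {d : I27} (hd : d ∉ S) :
    ∃ c, c ∉ S ∧ act g (e d) c ≠ 0 := by
  by_contra hc
  push Not at hc
  have key : ∀ w : I27 → F, (∀ c, c ∉ S → w c = 0) → act g w = w := by
    intro w hw
    have e1 : w = ∑ c, w c • (e c : I27 → F) := by
      ext i; simp [e_apply, Finset.sum_apply]
    have e2 : act g (∑ c, w c • (e c : I27 → F)) = ∑ c, w c • act g (e c) := by
      simp [act, Matrix.mulVec_sum, Matrix.mulVec_smul]
    rw [e1, e2]
    refine Finset.sum_congr rfl fun c _ => ?_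
    by_cases k : c ∈ S
    · rw [h c k]
    · simp [hw c k]
  have k := congrArg (act g⁻¹) (key _ hc)
  rw [inv_act, inv_act] at k
  have := hc d hd
  rw [k, e_self] at this
  exact one_ne_zero this

/-! ### the reduction steps -/

def memN (n : ℕ) (S : List ℕ) : Bool := S.any (Nat.beq n)

theorem memN_iff {a : I27} {S : List I27} : memN (ix a) (S.map ix) = true ↔ a ∈ S := by
  simp [memN, beq_ix]

theorem ieq_nz {x y : I27} (k : ieq (tzN (ix x) (ix y)) 0 = false) : tz x y ≠ 0 := fun e => by
  rw [(ieq_iff (tzN (ix x) (ix y)) 0).2 e] at k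
  exact absurd k (by simp)

/-- coordinate `c` of the image of `e d` is forced to vanish -/
def exc (S : List ℕ) (d c : ℕ) : Bool :=
  S.any fun a => !ieq (tzN a c) 0 && (ieq (tzN a d) 0 || (memN (thN a c) S && !Nat.beq c d))

theorem Fix.exc {S : List I27} {g : E6univ F} (h : Fix S g) {d c : I27}
    (hx : exc (S.map ix) (ix d) (ix c) = true) : act g (e d) c = 0 := by
  simp only [E6C.exc, List.any_map, List.any_eq_true, Function.comp, Bool.and_eq_true, Bool.or_eq_true, ieq_iff,
    Bool.not_eq_true', ← ix_th, memN_iff, beq_ix, decide_eq_false_iff_not] at hx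
  obtain ⟨a, ha, hac, hx⟩ := hx
  have hac' : tz a c ≠ 0 := ieq_nz hac
  rcases hx with hx | ⟨h1, h2⟩
  · exact h.vanish ha hac' hx
  · obtain ⟨-, -, -, k1, k2, -⟩ := tz_spec hac'
    have := h.T3_ee ha h1 (k1 ▸ hac') (e d)
    rwa [k2, e_ne h2] at this

/-- the root moving `c` to `c'` fixes the basis vectors in `S` -/
def arr (S : List ℕ) (c c' : ℕ) : Bool :=
  ieq (szN (rtN c c') c' * szN (rtN c c') c') 1 && (Nat.beq (srN (rtN c c') c') c &&
    allLt 27 fun i => ieq (szN (rtN c c') i) 0 || !memN (srN (rtN c c') i) S)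

theorem arr_spec {S : List I27} {c c' : I27} (h : arr (S.map ix) (ix c) (ix c') = true) :
    (sz (rt c c') c' : F) * sz (rt c c') c' = 1 ∧ sr (rt c c') c' = c ∧ ∀ t : F, Fix S (xe (rt_lt c c') t) := by
  simp only [arr, Bool.and_eq_true, ieq_iff] at h
  obtain ⟨h1, h2, h3⟩ := h
  refine ⟨by exact_mod_cast congrArg (Int.cast : ℤ → F) h1, ix_inj (by rw [ix_sr]; exact Nat.eq_of_beq_eq_true h2),
    fun t a ha => ?_⟩
  ext i
  have k := all27 h3 i
  simp only [Bool.or_eq_true, ieq_iff, Bool.not_eq_true', ← ix_sr] at k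
  rw [act_xe]
  rcases k with k | k
  · have : sz (rt c c') i = 0 := k
    simp [this]
  · have : sr (rt c c') i ≠ a := fun e => by
      have k' : memN (ix (sr (rt c c') i)) (S.map ix) = false := k
      rw [memN_iff.2 (e ▸ ha)] at k'
      exact absurd k' (by simp)
    simp [e_ne this]

/-- all isometries fixing `S` whose value at `e d` has property `φ` are generated by root elements -/
def Red (S : List I27) (d : I27) (φ : (I27 → F) → Prop) : Prop :=
  ∀ g : E6univ F, Fix S g → φ (act g (e d)) → g ∈ (rho (F := F)).range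

theorem Red.step {S : List I27} {d : I27} {φ : (I27 → F) → Prop} (h : Red S d φ) {g : E6univ F} (hg : Fix S g)
    {r : ℕ} {hr : r < 72} {t : F} (hx : Fix S (xe hr t)) (hφ : φ (act (xe hr t) (act g (e d)))) :
    g ∈ (rho (F := F)).range := by
  have := h (xe hr t * g) (fun a ha => by rw [act_mul, hg a ha, hx a ha]) (by rwa [act_mul])
  exact (Subgroup.mul_mem_cancel_left _ (xe_mem hr t)).1 this

theorem Red.move {S : List I27} {d c c' : I27} (h : Red (F := F) S d fun w => w c' = 1)
    (ha : arr (S.map ix) (ix c) (ix c') = true) : Red (F := F) S d fun w => w c ≠ 0 := by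
  intro g hg hc
  obtain ⟨k1, k2, k3⟩ := arr_spec (F := F) ha
  refine h.step hg (k3 ((1 - act g (e d) c') * sz (rt c c') c' / act g (e d) c)) ?_
  show act _ _ c' = 1
  rw [act_xe, k2]
  field_simp
  linear_combination (1 - act g (e d) c') * k1

/-- coordinate `c` can be cleared -/
def clr (S : List ℕ) (d c : ℕ) : Bool :=
  Nat.beq c d || (!ieq (tzN d c) 0 || (exc S d c || (arr S d c &&
    allLt 27 fun i => ieq (szN (rtN d c) i) 0 || (Nat.beq i c || !ieq (tzN d i) 0))))

theorem red_clear {a : F} (h0 : a ≠ 0) (h1 : a ≠ 1) {S : List I27} {d : I27}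
    (hS : ∀ g : E6univ F, Fix (d :: S) g → g ∈ (rho (F := F)).range)
    (hc : allLt 27 (clr (S.map ix) (ix d)) = true) : Red (F := F) S d fun w => w d = 1 := by
  have key : ∀ K : List I27, Red (F := F) S d fun w => w d = 1 ∧ ∀ c, c ≠ d → tz d c = 0 → c ∉ K → w c = 0 := by
    intro K
    induction K with
    | nil =>
      intro g hg ⟨k1, k2⟩
      refine hS g fun b hb => ?_
      rcases List.mem_cons.1 hb with rfl | hb
      · exact eq_e_of_sing b _ (sing_act h0 h1 g b) k1 fun c k k' => k2 c k k' List.not_mem_nil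
      · exact hg b hb
    | cons c K ih =>
      intro g hg ⟨k1, k2⟩
      have easy : (c ≠ d → tz d c = 0 → act g (e d) c = 0) → g ∈ (rho (F := F)).range := fun k =>
        ih g hg ⟨k1, fun b hb hb' hK => by
          by_cases e : b = c
          · subst e; exact k hb hb'
          · exact k2 b hb hb' (by simp [e, hK])⟩
      by_cases hcd : c = d
      · exact easy fun k => (k hcd).elim
      by_cases hz : tz d c = 0
      swap
      · exact easy fun _ k => (hz k).elim
      have k := all27 hc c
      simp only [clr, Bool.or_eq_true, Bool.and_eq_true, beq_ix, decide_eq_true_eq, hcd, false_or,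
        Bool.not_eq_true', (ieq_iff (tzN (ix d) (ix c)) 0).2 hz, Bool.true_eq_false] at k
      rcases k with k | ⟨k, k'⟩
      · exact easy fun _ _ => hg.exc k
      obtain ⟨m1, m2, m3⟩ := arr_spec (F := F) k
      have same : ∀ b, b ≠ c → tz d b = 0 → ∀ (t : F) w, act (xe (rt_lt d c) t) w b = w b := by
        intro b hb hb' t w
        have m := all27 k' b
        simp only [Bool.or_eq_true, beq_ix, decide_eq_true_eq, hb, Bool.not_eq_true',
          (ieq_iff (tzN (ix d) (ix b)) 0).2 hb', Bool.true_eq_false, or_false, ieq_iff] at m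
        have m' : sz (rt d c) b = 0 := m
        rw [act_xe, m']; simp
      refine ih.step hg (m3 (-act g (e d) c * sz (rt d c) c)) ⟨?_, fun b hb hb' hK => ?_⟩
      · rw [same d (Ne.symm hcd) (tz_self d), k1]
      · by_cases e : b = c
        · subst e
          rw [act_xe, m2, k1]
          linear_combination (-act g (E6C.e d) b) * m1
        · rw [same b e hb', k2 b hb hb' (by simp [e, hK])]
  intro g hg k
  exact key (Finset.univ.toList) g hg ⟨k, fun c _ _ hK => (hK (by simp)).elim⟩

/-- a path of length at most two from `c` to `d` -/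
def pth (S : List ℕ) (d c : ℕ) : Bool :=
  exc S d c || (arr S c d || !allLt 27 fun m => !(arr S c m && arr S m d))

theorem Red.path {S : List I27} {d c : I27} (h : Red (F := F) S d fun w => w d = 1)
    (hp : pth (S.map ix) (ix d) (ix c) = true) : Red (F := F) S d fun w => w c ≠ 0 := by
  simp only [pth, Bool.or_eq_true] at hp
  rcases hp with hp | hp | hp
  · exact fun g hg k => (k (hg.exc hp)).elim
  · exact h.move hp
  · have : ∃ m < 27, (arr (S.map ix) (ix c) m && arr (S.map ix) m (ix d)) = true := by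
      by_contra k
      push Not at k
      rw [(allLt_iff _ _).2 fun m hm => by rw [Bool.not_eq_true']; exact Bool.eq_false_iff.2 (k m hm)] at hp
      exact absurd hp (by simp)
    obtain ⟨m, hm, k⟩ := this
    rw [← ix_un m hm, Bool.and_eq_true] at k
    have h2 := h.move k.2
    exact Red.move (c' := un m) (fun g hg e => h2 g hg (ne_of_eq_of_ne e one_ne_zero)) k.1

/-- one step of the reduction -/
def stp (S : List ℕ) (d : ℕ) : Bool :=
  allLt 27 (clr S d) &&
    ((S.any fun a => !ieq (tzN a d) 0 && memN (thN a d) S) ||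
      ((!memN d S && allLt 27 fun c => memN c S || pth S d c) ||
        S.any fun a => !ieq (tzN a d) 0 && allLt 27 fun c => ieq (tzN a c) 0 || pth S d c))

theorem red_step {a : F} (h0 : a ≠ 0) (h1 : a ≠ 1) {S : List I27} {d : I27}
    (hS : ∀ g : E6univ F, Fix (d :: S) g → g ∈ (rho (F := F)).range)
    (hc : stp (S.map ix) (ix d) = true) (g : E6univ F) (hg : Fix S g) : g ∈ (rho (F := F)).range := by
  simp only [stp, Bool.and_eq_true, Bool.or_eq_true, List.any_map, List.any_eq_true, Function.comp,
    Bool.not_eq_true', ← ix_th, memN_iff] at hc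
  obtain ⟨hc, h⟩ := hc
  have R := red_clear h0 h1 hS hc
  rcases h with ⟨b, hb, k1, k2⟩ | ⟨k1, k2⟩ | ⟨b, hb, k1, k2⟩
  · obtain ⟨-, -, -, m1, m2, -⟩ := tz_spec (ieq_nz k1)
    have := hg.T3_ee hb k2 (m1 ▸ ieq_nz k1) (e d)
    rw [m2, e_self] at this
    exact R g hg this
  · obtain ⟨c, m1, m2⟩ := hg.exists_out (d := d) fun e => by simp [memN_iff.2 e] at k1
    have m := all27 k2 c
    simp only [Bool.or_eq_true, memN_iff, m1, false_or] at m
    exact R.path m g hg m2
  · obtain ⟨c, m1, m2⟩ := hg.exists_mate hb (ieq_nz k1)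
    have m := all27 k2 c
    simp only [Bool.or_eq_true, ieq_iff] at m
    exact R.path (m.resolve_left m1) g hg m2

/-- the whole reduction -/
def chn (S : List ℕ) : List ℕ → Bool
  | [] => allLt 27 fun c => memN c S
  | d :: L => Nat.blt d 27 && (stp S d && chn (d :: S) L)

theorem red_chain {a : F} (h0 : a ≠ 0) (h1 : a ≠ 1) (L : List ℕ) (S : List I27) (h : chn (S.map ix) L = true)
    (g : E6univ F) (hg : Fix S g) : g ∈ (rho (F := F)).range := by
  induction L generalizing S g with
  | nil =>
    have : g = 1 := Subtype.ext (Units.ext (Matrix.ext fun i j => by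
      have k := congrFun (hg j (memN_iff.1 (all27 h j))) i
      simpa [act, e, Matrix.one_apply, Pi.single_apply] using k))
    rw [this]; exact one_mem _
  | cons d L ih =>
    simp only [chn, Bool.and_eq_true, Nat.blt_eq] at h
    obtain ⟨hd, k1, k2⟩ := h
    rw [← ix_un d hd] at k1 k2
    exact red_step h0 h1 (fun g hg => ih (un d :: S) k2 g hg) k1 g hg

theorem chn_chk :
    chn [] [0, 4, 1, 15, 8, 7, 22, 3, 2, 5, 6, 10, 13, 16, 21, 23, 11, 12, 14, 9, 17, 18, 19, 20, 24, 25, 26] = true := by
  decide +kernel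

theorem rho_surjective {a : F} (h0 : a ≠ 0) (h1 : a ≠ 1) : Function.Surjective (rho (F := F)) := fun g =>
  red_chain h0 h1 _ [] chn_chk g fun _ h => absurd h List.not_mem_nil

end CL.E6C
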