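/-
CHEV library: the generic Hecke algebra of a finite Coxeter group; the dimension of its centre does not depend
on the (positive real) parameter.
-/
import Cfsg.Agent.CHEV.CoxGen

set_option autoImplicit false
set_option linter.unusedSectionVars false

namespace CL.Cox

open Finset Module Polynomial

section PolyDep

variable {V V' V'' : Type*} [Fintype V] [DecidableEq V] [Fintype V'] [DecidableEq V']

/-- a family of linear maps depending polynomially on a parameter -/
def PolyDep (F : ℂ → (V → ℂ) →ₗ[ℂ] (V' → ℂ)) : Prop := ∀ v w, ∃ p : ℂ[X], ∀ b, F b v w = p.eval b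

theorem apply_eq_sum_single (φ : (V → ℂ) →ₗ[ℂ] (V'' → ℂ)) (v : V → ℂ) (w : V'') :
    φ v w = ∑ u, v u * φ (Pi.single u 1) w := by
  conv_lhs => rw [pi_eq_sum_univ' v]
  simp [map_sum, Finset.sum_apply]

theorem PolyDep.const (φ : (V → ℂ) →ₗ[ℂ] (V' → ℂ)) : PolyDep fun _ => φ :=
  fun v w => ⟨C (φ v w), fun _ => eval_C.symm⟩

theorem PolyDep.comp {F : ℂ → (V' → ℂ) →ₗ[ℂ] (V'' → ℂ)} {F' : ℂ → (V → ℂ) →ₗ[ℂ] (V' → ℂ)} (h : PolyDep F)
    (h' : PolyDep F') : PolyDep fun b => F b ∘ₗ F' b := fun v w => by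
  choose p hp using h
  choose p' hp' using h'
  refine ⟨∑ u, p' v u * p (Pi.single u 1) w, fun b => ?_⟩
  rw [LinearMap.comp_apply, apply_eq_sum_single]
  simp [eval_finset_sum, hp, hp']

theorem PolyDep.mul {F F' : ℂ → End ℂ (V → ℂ)} (h : PolyDep F) (h' : PolyDep F') :
    PolyDep fun b => F b * F' b := h.comp h'

theorem PolyDep.sum {α : Type*} (T : Finset α) {F : α → ℂ → (V → ℂ) →ₗ[ℂ] (V' → ℂ)} (h : ∀ a, PolyDep (F a)) :
    PolyDep fun b => ∑ a ∈ T, F a b := fun v w => by
  choose p hp using h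
  exact ⟨∑ a ∈ T, p a v w, fun b => by simp [Finset.sum_apply, eval_finset_sum, hp]⟩

theorem PolyDep.pow_smul {F : ℂ → (V → ℂ) →ₗ[ℂ] (V' → ℂ)} (h : PolyDep F) (k : ℕ) :
    PolyDep fun b => b ^ k • F b := fun v w => by
  obtain ⟨p, hp⟩ := h v w
  exact ⟨X ^ k * p, fun b => by simp [hp]⟩

/-- the rank drops only at finitely many values of the parameter -/
theorem PolyDep.finite_lt {F : ℂ → (V → ℂ) →ₗ[ℂ] (V' → ℂ)} (h : PolyDep F) (a : ℂ) :
    {b | finrank ℂ (LinearMap.range (F b)) < finrank ℂ (LinearMap.range (F a))}.Finite := by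
  set r := finrank ℂ (LinearMap.range (F a))
  let e := (Module.finBasis ℂ (LinearMap.range (F a))).equivFun
  obtain ⟨π, hπ⟩ := (LinearMap.range (F a)).subtype.exists_leftInverse_of_injective (Submodule.ker_subtype _)
  obtain ⟨σ, hσ⟩ := (F a).rangeRestrict.exists_rightInverse_of_surjective (LinearMap.range_rangeRestrict _)
  let Φ : ℂ → (Fin r → ℂ) →ₗ[ℂ] (Fin r → ℂ) := fun b =>
    (e.toLinearMap ∘ₗ π) ∘ₗ (F b ∘ₗ (σ ∘ₗ e.symm.toLinearMap))
  have hΦ : PolyDep Φ := (PolyDep.const _).comp (h.comp (PolyDep.const _))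
  have hΦa : Φ a = LinearMap.id := by
    refine LinearMap.ext fun v => ?_
    have h1 : F a (σ (e.symm v)) = (e.symm v : V' → ℂ) := congrArg Subtype.val (LinearMap.congr_fun hσ (e.symm v))
    have h2 : π (e.symm v : V' → ℂ) = e.symm v := LinearMap.congr_fun hπ (e.symm v)
    simp [Φ, h1, h2]
  choose p hp using hΦ
  let M : Matrix (Fin r) (Fin r) ℂ[X] := Matrix.of fun i j => p (Pi.single j 1) i
  have hM : ∀ b, M.det.eval b = (LinearMap.toMatrix' (Φ b)).det := fun b => by
    rw [← coe_evalRingHom, RingHom.map_det]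
    congr 1
    ext i j
    simp [M, hp, LinearMap.toMatrix'_apply, ← Pi.single_apply]
  have h0 : M.det ≠ 0 := fun h0 => by
    have := hM a
    rw [h0, hΦa] at this
    simp at this
  refine (M.det.rootSet_finite ℂ).subset fun b hb => ?_
  rw [mem_rootSet_of_ne h0, coe_aeval_eq_eval, hM]
  by_contra hd
  have h1 : Function.Surjective (Φ b) := by
    rw [LinearMap.det_toMatrix'] at hd
    exact (LinearMap.isUnit_iff_range_eq_top _).1 ((LinearMap.isUnit_iff_isUnit_det _).2 (Ne.isUnit hd))
      |> LinearMap.range_eq_top.1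
  have h2 : LinearMap.range (Φ b) ≤ (LinearMap.range (F b)).map (e.toLinearMap ∘ₗ π) := by
    rintro _ ⟨v, rfl⟩
    exact ⟨_, ⟨_, rfl⟩, rfl⟩
  have h3 := (Submodule.finrank_mono h2).trans (Submodule.finrank_map_le _ _)
  rw [LinearMap.range_eq_top.2 h1, finrank_top, finrank_fin_fun] at h3
  exact absurd hb (not_lt.2 h3)

theorem PolyDep.finrank_ker_eq {M : ℂ → End ℂ (V → ℂ)} {P : ℂ → (V → ℂ) →ₗ[ℂ] (V' → ℂ)} (hM : PolyDep M)
    (hP : PolyDep P) (h : ∀ b, LinearMap.range (M b) ≤ LinearMap.ker (P b)) {a a' : ℂ}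
    (ha : LinearMap.range (M a) = LinearMap.ker (P a)) (ha' : LinearMap.range (M a') = LinearMap.ker (P a')) :
    finrank ℂ (LinearMap.ker (P a)) = finrank ℂ (LinearMap.ker (P a')) := by
  have key : ∀ a a', LinearMap.range (M a) = LinearMap.ker (P a) →
      finrank ℂ (LinearMap.ker (P a)) ≤ finrank ℂ (LinearMap.ker (P a')) := fun a a' ha => by
    obtain ⟨b, hb⟩ := ((hM.finite_lt a).union (hP.finite_lt a')).exists_notMem
    simp only [Set.mem_union, Set.mem_setOf_eq, not_or, not_lt] at hb
    have h1 := Submodule.finrank_mono (h b)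
    have h2 := (P b).finrank_range_add_finrank_ker
    have h3 := (P a').finrank_range_add_finrank_ker
    rw [ha] at hb
    omega
  exact le_antisymm (key a a' ha) (key a' a ha')

end PolyDep

variable {W ι : Type*} [Group W] (s : ι → W)

open Classical in
/-- left multiplication by `T_s` in the generic Hecke algebra -/
noncomputable def gL (a : ℂ) (i : ι) : End ℂ (W → ℂ) where
  toFun f w := if len s w < len s (s i * w) then a * f (s i * w) else f (s i * w) + (a - 1) * f w
  map_add' f g := by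
    ext w
    simp only [Pi.add_apply]
    split_ifs <;> ring
  map_smul' c f := by
    ext w
    simp only [Pi.smul_apply, smul_eq_mul, RingHom.id_apply]
    split_ifs <;> ring

/-- the inversion -/
def gJ (W : Type*) [Group W] : End ℂ (W → ℂ) := LinearMap.funLeft ℂ ℂ fun w => w⁻¹

theorem gJ_apply (f : W → ℂ) (w : W) : gJ W f w = f w⁻¹ := rfl

theorem gJ_mul_self : gJ W * gJ W = 1 := by
  ext f w
  simp [gJ_apply]

theorem gJ_gJ (f : W → ℂ) : gJ W (gJ W f) = f := by
  ext w; simp [gJ_apply]

/-- right multiplication by `T_s` in the generic Hecke algebra -/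
noncomputable def gR (a : ℂ) (i : ι) : End ℂ (W → ℂ) := gJ W * gL s a i * gJ W

variable {s}

theorem gL_of_lt (a : ℂ) {i : ι} (f : W → ℂ) {w : W} (h : len s w < len s (s i * w)) :
    gL s a i f w = a * f (s i * w) := if_pos h

theorem gL_of_le (a : ℂ) {i : ι} (f : W → ℂ) {w : W} (h : len s (s i * w) ≤ len s w) :
    gL s a i f w = f (s i * w) + (a - 1) * f w := if_neg h.not_gt

theorem Gen.gR_of_lt (h : Gen s) (a : ℂ) {i : ι} (f : W → ℂ) {w : W} (hl : len s w < len s (w * s i)) :
    gR s a i f w = a * f (w * s i) := by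
  change gL s a i (gJ W f) w⁻¹ = _
  rw [gL_of_lt a _ (by rwa [h.len_inv, ← h.len_mul_simple_eq]), gJ_apply, mul_inv_rev, inv_inv, h.inv_simple]

theorem Gen.gR_of_le (h : Gen s) (a : ℂ) {i : ι} (f : W → ℂ) {w : W} (hl : len s (w * s i) ≤ len s w) :
    gR s a i f w = f (w * s i) + (a - 1) * f w := by
  change gL s a i (gJ W f) w⁻¹ = _
  rw [gL_of_le a _ (by rwa [h.len_inv, ← h.len_mul_simple_eq]), gJ_apply, gJ_apply, mul_inv_rev, inv_inv,
    h.inv_simple]

theorem gJ_wp (a : ℂ) (ω : List ι) : gJ W * wp (gL s a) ω * gJ W = wp (gR s a) ω := by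
  induction ω with
  | nil => rw [wp_nil, wp_nil, mul_one, gJ_mul_self]
  | cons i ω ih =>
    rw [wp_cons, wp_cons, ← ih, gR]
    simp only [mul_assoc]
    rw [← mul_assoc (gJ W) (gJ W), gJ_mul_self, one_mul]

namespace Exch

variable (h : Exch s)
include h

theorem gL_mul_gR (a : ℂ) (i j : ι) : gL s a i * gR s a j = gR s a j * gL s a i := by
  refine LinearMap.ext fun f => funext fun w => ?_
  have g := h.toGen
  rw [End.mul_apply, End.mul_apply]
  have e : s i * (w * s j) = s i * w * s j := (mul_assoc _ _ _).symm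
  have h3 := h.len_mul_simple (s i * w) j
  have h4 := h.len_simple_mul i (w * s j)
  rw [e] at h4
  rcases h.len_simple_mul i w with h1 | h1 <;> rcases h.len_mul_simple w j with h2 | h2
  · rw [gL_of_lt a _ (by omega), g.gR_of_lt a _ (w := w) (by omega)]
    rcases h3 with h3 | h3
    · rw [g.gR_of_lt a _ (by omega), gL_of_lt a _ (by rw [e]; omega), e]
    · rw [g.gR_of_le a _ (by omega), gL_of_le a _ (by rw [e]; omega), e,
        h.folding (i := i) (j := j) (w := w) (by omega) (by omega) (by omega)]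
  · rw [gL_of_lt a _ (by omega), g.gR_of_le a _ (w := w) (by omega), g.gR_of_le a _ (by omega),
      gL_of_lt a _ (by rw [e]; omega), gL_of_lt a _ (by omega), e]
    ring
  · rw [gL_of_le a _ (by omega), g.gR_of_lt a _ (w := w) (by omega), g.gR_of_lt a _ (w := w) (by omega),
      g.gR_of_lt a _ (by omega), gL_of_le a _ (by rw [e]; omega), e]
    ring
  · rw [gL_of_le a _ (by omega), g.gR_of_le a _ (w := w) (by omega), g.gR_of_le a _ (w := w) (by omega),
      gL_of_le a _ (w := w) (by omega)]
    rcases h3 with h3 | h3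
    · have := h.folding (i := i) (j := j) (w := s i * w) (by rw [g.simple_mul_simple_mul]; omega) (by omega)
        (by rw [g.simple_mul_simple_mul]; omega)
      rw [g.simple_mul_simple_mul] at this
      have e' : w * s j = s i * w := by
        conv_lhs => rw [this]
        rw [g.mul_simple_mul_simple]
      rw [g.gR_of_lt a _ (by omega), gL_of_lt a _ (by rw [e]; omega), e, e']
    · rw [g.gR_of_le a _ (by omega), gL_of_le a _ (by rw [e]; omega), e]
      ring

theorem wp_gL_mul_gR (a : ℂ) (ω : List ι) (j : ι) : wp (gL s a) ω * gR s a j = gR s a j * wp (gL s a) ω := by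
  induction ω with
  | nil => simp [wp_nil]
  | cons i ω ih => rw [wp_cons, mul_assoc, ih, ← mul_assoc, h.gL_mul_gR, mul_assoc]

variable [DecidableEq W]

theorem gL_single_of_lt (a : ℂ) {i : ι} {w : W} (hl : len s w < len s (s i * w)) :
    gL s a i (Pi.single w 1) = Pi.single (s i * w) 1 := by
  ext v
  have g := h.toGen
  by_cases hv : v = s i * w
  · subst hv
    have : s i * w ≠ w := fun e => by rw [e] at hl; omega
    rw [gL_of_le a _ (by rw [g.simple_mul_simple_mul]; omega), g.simple_mul_simple_mul]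
    simp [this]
  have h1 : s i * v ≠ w := fun e => hv (by rw [← e, g.simple_mul_simple_mul])
  by_cases h2 : len s v < len s (s i * v)
  · rw [gL_of_lt a _ h2]; simp [h1, hv]
  · have : v ≠ w := fun e => h2 (e ▸ hl)
    rw [gL_of_le a _ (not_lt.1 h2)]; simp [h1, hv, this]

theorem gL_single_of_le (a : ℂ) {i : ι} {w : W} (hl : len s (s i * w) ≤ len s w) :
    gL s a i (Pi.single w 1) = a • Pi.single (s i * w) 1 + (a - 1) • Pi.single w 1 := by
  ext v
  have g := h.toGen
  have h0 := h.len_simple_mul i w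
  by_cases hv : v = s i * w
  · subst hv
    have : s i * w ≠ w := fun e => by rw [e] at h0; omega
    rw [gL_of_lt a _ (by rw [g.simple_mul_simple_mul]; omega), g.simple_mul_simple_mul]
    simp [this]
  have h1 : s i * v ≠ w := fun e => hv (by rw [← e, g.simple_mul_simple_mul])
  by_cases h2 : len s v < len s (s i * v)
  · have : v ≠ w := fun e => by rw [e] at h2; omega
    rw [gL_of_lt a _ h2]; simp [h1, hv, this]
  · rw [gL_of_le a _ (not_lt.1 h2)]; simp [h1, hv]

theorem wp_gL_single (a : ℂ) {ω : List ι} (hω : Red s ω) :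
    wp (gL s a) ω (Pi.single 1 1) = Pi.single (wp s ω) 1 := by
  induction ω with
  | nil => simp [wp_nil]
  | cons i ω ih =>
    have := h.toGen.len_cons_of_red hω
    rw [wp_cons, End.mul_apply, ih (h.toGen.red_tail hω), h.gL_single_of_lt a (by omega), wp_cons]

omit h in
theorem _root_.CL.Cox.gJ_single (w : W) : gJ W (Pi.single w 1) = Pi.single w⁻¹ 1 := by
  ext v
  simp [gJ_apply, Pi.single_apply, inv_eq_iff_eq_inv]

/-- an operator commuting with all right multiplications is determined by its value at `1` -/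
theorem ext_gR [Finite W] (a : ℂ) {X Y : End ℂ (W → ℂ)} (hX : ∀ j, X * gR s a j = gR s a j * X)
    (hY : ∀ j, Y * gR s a j = gR s a j * Y) (e : X (Pi.single 1 1) = Y (Pi.single 1 1)) : X = Y := by
  have key : ∀ (X : End ℂ (W → ℂ)), (∀ j, X * gR s a j = gR s a j * X) → ∀ ω,
      X * wp (gR s a) ω = wp (gR s a) ω * X := fun X hX ω => by
    induction ω with
    | nil => simp [wp_nil]
    | cons i ω ih => rw [wp_cons, ← mul_assoc, hX, mul_assoc, ih, mul_assoc]
  refine LinearMap.pi_ext' fun w => LinearMap.ext_ring ?_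
  obtain ⟨ω, hω, e'⟩ := h.toGen.exists_red w⁻¹
  have h1 : wp (gR s a) ω (Pi.single 1 1) = Pi.single w 1 := by
    rw [← gJ_wp, End.mul_apply, End.mul_apply, gJ_single, inv_one, h.wp_gL_single a hω, gJ_single, e', inv_inv]
  change X (Pi.single w 1) = Y (Pi.single w 1)
  rw [← h1, ← End.mul_apply, key X hX, ← End.mul_apply, key Y hY, End.mul_apply, End.mul_apply, e]

/-- a reduced word -/
noncomputable def rw (w : W) : List ι := (h.toGen.exists_red w).choose

omit [DecidableEq W] in
theorem red_rw (w : W) : Red s (h.rw w) := (h.toGen.exists_red w).choose_spec.1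

omit [DecidableEq W] in
theorem wp_rw (w : W) : wp s (h.rw w) = w := (h.toGen.exists_red w).choose_spec.2

/-- left multiplication by `T_w` -/
noncomputable def gT (a : ℂ) (w : W) : End ℂ (W → ℂ) := wp (gL s a) (h.rw w)

theorem gT_single (a : ℂ) (w : W) : h.gT a w (Pi.single 1 1) = Pi.single w 1 := by
  rw [gT, h.wp_gL_single a (h.red_rw w), h.wp_rw]

omit [DecidableEq W] in
theorem gT_mul_gR (a : ℂ) (w : W) (j : ι) : h.gT a w * gR s a j = gR s a j * h.gT a w := h.wp_gL_mul_gR a _ j

variable [Fintype W]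

theorem wp_gL_eq (a : ℂ) {ω : List ι} (hω : Red s ω) : wp (gL s a) ω = h.gT a (wp s ω) :=
  h.ext_gR a (h.wp_gL_mul_gR a ω) (h.gT_mul_gR a _) (by rw [h.wp_gL_single a hω, h.gT_single])

theorem gT_one (a : ℂ) : h.gT a 1 = 1 := (h.wp_gL_eq a (red_nil s)).symm

theorem gL_mul_gT_of_lt (a : ℂ) {i : ι} {w : W} (hl : len s w < len s (s i * w)) :
    gL s a i * h.gT a w = h.gT a (s i * w) := by
  refine h.ext_gR a (fun j => ?_) (h.gT_mul_gR a _) ?_
  · rw [mul_assoc, h.gT_mul_gR, ← mul_assoc, h.gL_mul_gR, mul_assoc]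
  · rw [End.mul_apply, h.gT_single, h.gT_single, h.gL_single_of_lt a hl]

theorem gL_mul_gT_of_le (a : ℂ) {i : ι} {w : W} (hl : len s (s i * w) ≤ len s w) :
    gL s a i * h.gT a w = a • h.gT a (s i * w) + (a - 1) • h.gT a w := by
  refine h.ext_gR a (fun j => ?_) (fun j => ?_) ?_
  · rw [mul_assoc, h.gT_mul_gR, ← mul_assoc, h.gL_mul_gR, mul_assoc]
  · simp only [add_mul, mul_add, smul_mul_assoc, mul_smul_comm, h.gT_mul_gR]
  · simp only [End.mul_apply, LinearMap.add_apply, LinearMap.smul_apply, h.gT_single, h.gL_single_of_le a hl]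

/-- the Higman map `x ↦ ∑ a ^ (N - ℓ(w)) T_w x T_{w⁻¹}` -/
noncomputable def higman (a : ℂ) : End ℂ (W → ℂ) :=
  ∑ w, a ^ (univ.sup (len s) - len s w) • (h.gT a w * (gJ W * h.gT a w * gJ W))

omit h in
/-- the map whose kernel is the centre -/
noncomputable def _root_.CL.Cox.cdiff (s : ι → W) (a : ℂ) : (W → ℂ) →ₗ[ℂ] (ι × W → ℂ) :=
  LinearMap.pi fun p => LinearMap.proj p.2 ∘ₗ (gL s a p.1 - gR s a p.1)

omit h [DecidableEq W] [Fintype W] in
theorem _root_.CL.Cox.mem_ker_cdiff {a : ℂ} {f : W → ℂ} :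
    f ∈ LinearMap.ker (cdiff s a) ↔ ∀ i, gL s a i f = gR s a i f := by
  simp only [LinearMap.mem_ker, funext_iff, cdiff, LinearMap.pi_apply, LinearMap.comp_apply, LinearMap.proj_apply,
    LinearMap.sub_apply, Pi.sub_apply, Pi.zero_apply, sub_eq_zero, Prod.forall]

theorem gL_mul_higman (a : ℂ) (i : ι) : gL s a i * h.higman a = gR s a i * h.higman a := by
  have g := h.toGen
  rw [← sub_eq_zero, ← sub_mul, higman, mul_sum]
  set N := univ.sup (len s)
  have hN : ∀ w, len s w ≤ N := fun w => le_sup (mem_univ w)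
  have hR : ∀ w (X : End ℂ (W → ℂ)), gR s a i * (h.gT a w * (gJ W * X * gJ W)) =
      h.gT a w * (gJ W * (gL s a i * X) * gJ W) := fun w X => by
    rw [← mul_assoc, ← h.gT_mul_gR, gR]
    simp only [mul_assoc]
    rw [← mul_assoc (gJ W) (gJ W), gJ_mul_self, one_mul]
  have key : ∀ w, len s w < len s (s i * w) →
      (gL s a i - gR s a i) * a ^ (N - len s w) • (h.gT a w * (gJ W * h.gT a w * gJ W)) +
      (gL s a i - gR s a i) * a ^ (N - len s (s i * w)) •
        (h.gT a (s i * w) * (gJ W * h.gT a (s i * w) * gJ W)) = 0 := fun w hw => by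
    have h1 := h.len_simple_mul i w
    have h2 := hN (s i * w)
    have h3 : N - len s w = N - len s (s i * w) + 1 := by omega
    have h4 := h.gL_mul_gT_of_le a (i := i) (w := s i * w) (by rw [g.simple_mul_simple_mul]; omega)
    rw [g.simple_mul_simple_mul] at h4
    simp only [mul_smul_comm, sub_mul, hR, ← mul_assoc (gL s a i), h.gL_mul_gT_of_lt a hw, h4, h3, add_mul,
      mul_add, smul_mul_assoc]
    module
  refine sum_involution (fun w _ => s i * w) (fun w _ => ?_) (fun w _ _ e => ?_) (fun _ _ => mem_univ _)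
    fun w _ => g.simple_mul_simple_mul i w
  · rcases h.len_simple_mul i w with h1 | h1
    · exact key w (by omega)
    · have := key (s i * w) (by rw [g.simple_mul_simple_mul]; omega)
      rwa [g.simple_mul_simple_mul, add_comm] at this
  · have := h.len_simple_mul i w
    rw [e] at this
    omega

theorem range_higman_le (a : ℂ) : LinearMap.range (h.higman a) ≤ LinearMap.ker (cdiff s a) := by
  rintro _ ⟨f, rfl⟩
  exact mem_ker_cdiff.2 fun i => LinearMap.congr_fun (h.gL_mul_higman a i) f

omit h in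
/-- the invariant bilinear form -/
noncomputable def _root_.CL.Cox.bform (s : ι → W) (a : ℂ) (f f' : W → ℂ) : ℂ := ∑ w, a ^ len s w * (f w * f' w)

omit [DecidableEq W] in
theorem bform_gL (a : ℂ) (i : ι) (f f' : W → ℂ) : bform s a (gL s a i f) f' = bform s a f (gL s a i f') := by
  classical
  have g := h.toGen
  let c : W → ℂ := fun w => a ^ max (len s w) (len s (s i * w))
  let d : W → ℂ := fun w => if len s w < len s (s i * w) then 0 else a ^ len s w * (a - 1)
  have key : ∀ (f : W → ℂ) w, a ^ len s w * gL s a i f w = c w * f (s i * w) + d w * f w := fun f w => by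
    rcases h.len_simple_mul i w with h1 | h1
    · rw [gL_of_lt a _ (by omega)]
      simp only [c, d]
      rw [if_pos (by omega), max_eq_right (by omega), h1]
      ring
    · rw [gL_of_le a _ (by omega)]
      simp only [c, d]
      rw [if_neg (by omega), max_eq_left (by omega)]
      ring
  have e1 : bform s a (gL s a i f) f' = ∑ w, c w * (f (s i * w) * f' w) + ∑ w, d w * (f w * f' w) := by
    rw [bform, ← sum_add_distrib]
    exact sum_congr rfl fun w _ => by rw [← mul_assoc, key]; ring
  have e2 : bform s a f (gL s a i f') = ∑ w, c w * (f w * f' (s i * w)) + ∑ w, d w * (f w * f' w) := by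
    rw [bform, ← sum_add_distrib]
    exact sum_congr rfl fun w _ => by rw [mul_left_comm, key]; ring
  rw [e1, e2, ← Equiv.sum_comp (Equiv.mulLeft (s i))]
  congr 1
  refine sum_congr rfl fun w _ => ?_
  simp only [Equiv.coe_mulLeft, c, g.simple_mul_simple_mul, max_comm]

omit [DecidableEq W] in
theorem bform_wp (a : ℂ) (ω : List ι) (f f' : W → ℂ) :
    bform s a (wp (gL s a) ω f) f' = bform s a f (wp (gL s a) ω.reverse f') := by
  induction ω generalizing f' with
  | nil => simp [wp_nil]
  | cons i ω ih => rw [wp_cons, End.mul_apply, h.bform_gL, ih, List.reverse_cons, wp_concat, End.mul_apply]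

omit h [DecidableEq W] [Fintype W] in
theorem _root_.CL.Cox.wp_gL_star (r : ℝ) (ω : List ι) (f : W → ℂ) :
    wp (gL s r) ω (star f) = star (wp (gL s r) ω f) := by
  induction ω with
  | nil => simp [wp_nil]
  | cons i ω ih =>
    rw [wp_cons, End.mul_apply, End.mul_apply, ih]
    ext w
    by_cases h1 : len s w < len s (s i * w)
    · simp [gL_of_lt _ _ h1]
    · simp [gL_of_le _ _ (not_lt.1 h1)]

omit h [DecidableEq W] in
theorem _root_.CL.Cox.bform_star (r : ℝ) (f : W → ℂ) :
    bform s r f (star f) = ((∑ w, r ^ len s w * Complex.normSq (f w) : ℝ) : ℂ) := by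
  simp [bform, Complex.mul_conj]

omit [DecidableEq W] [Fintype W] in
theorem wp_gR_of_mem {a : ℂ} {z : W → ℂ} (hz : z ∈ LinearMap.ker (cdiff s a)) (ω : List ι) :
    wp (gR s a) ω z = wp (gL s a) ω.reverse z := by
  induction ω with
  | nil => simp [wp_nil]
  | cons i ω ih =>
    rw [wp_cons, End.mul_apply, ih, ← End.mul_apply, ← h.wp_gL_mul_gR, List.reverse_cons, wp_concat,
      End.mul_apply, End.mul_apply, mem_ker_cdiff.1 hz]

theorem eq_zero_of_higman {r : ℝ} (hr : 0 < r) {z : W → ℂ} (hz : z ∈ LinearMap.ker (cdiff s r))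
    (h0 : h.higman r z = 0) : z = 0 := by
  set N := univ.sup (len s)
  let y : W → W → ℂ := fun w => wp (gL s r) (h.rw w).reverse z
  have h1 : bform s r (h.higman r z) (star z) =
      ((∑ w, r ^ (N - len s w) * ∑ v, r ^ len s v * Complex.normSq (y w v) : ℝ) : ℂ) := by
    have : ∀ w, bform s r ((h.gT r w * (gJ W * h.gT r w * gJ W)) z) (star z) =
        ((∑ v, r ^ len s v * Complex.normSq (y w v) : ℝ) : ℂ) := fun w => by
      rw [End.mul_apply, gT, gJ_wp, h.wp_gR_of_mem hz, h.bform_wp, wp_gL_star, bform_star]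
    rw [Complex.ofReal_sum]
    simp only [Complex.ofReal_mul, Complex.ofReal_pow, ← this]
    simp only [bform, higman, LinearMap.sum_apply, Finset.sum_apply, LinearMap.smul_apply, Pi.smul_apply,
      smul_eq_mul, sum_mul, mul_sum]
    rw [sum_comm]
    exact sum_congr rfl fun w _ => sum_congr rfl fun v _ => by ring
  have h2 : bform s r (h.higman r z) (star z) = 0 := by simp [h0, bform]
  rw [h2, eq_comm, Complex.ofReal_eq_zero, sum_eq_zero_iff_of_nonneg fun w _ => mul_nonneg (by positivity)
    (sum_nonneg fun v _ => mul_nonneg (by positivity) (Complex.normSq_nonneg _))] at h1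
  have h3 := (mul_eq_zero.1 (h1 1 (mem_univ _))).resolve_left (by positivity)
  rw [sum_eq_zero_iff_of_nonneg fun v _ => mul_nonneg (by positivity) (Complex.normSq_nonneg _)] at h3
  have h4 : y 1 = z := by
    have := h.wp_gL_eq r (h.toGen.red_reverse (h.red_rw 1))
    rw [h.toGen.wp_reverse, h.wp_rw, inv_one, h.gT_one] at this
    exact (LinearMap.congr_fun this z).trans rfl
  ext v
  have := (mul_eq_zero.1 (h3 v (mem_univ _))).resolve_left (by positivity)
  rw [h4] at this
  exact Complex.normSq_eq_zero.1 this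

theorem range_higman {r : ℝ} (hr : 0 < r) : LinearMap.range (h.higman r) = LinearMap.ker (cdiff s r) := by
  refine le_antisymm (h.range_higman_le r) ?_
  let φ : End ℂ (LinearMap.ker (cdiff s r)) :=
    (h.higman r).restrict fun z _ => h.range_higman_le r ⟨z, rfl⟩
  have h1 : Function.Injective φ := by
    rw [← LinearMap.ker_eq_bot, LinearMap.ker_eq_bot']
    exact fun z hz => Subtype.ext (h.eq_zero_of_higman hr z.2 (congrArg Subtype.val hz))
  intro z hz
  obtain ⟨y, hy⟩ := LinearMap.injective_iff_surjective.1 h1 ⟨z, hz⟩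
  exact ⟨y, congrArg Subtype.val hy⟩

omit h in
theorem _root_.CL.Cox.polyDep_gL (i : ι) : PolyDep fun a => gL s a i := fun f w => by
  by_cases h1 : len s w < len s (s i * w)
  · exact ⟨X * C (f (s i * w)), fun b => by rw [gL_of_lt _ _ h1, eval_mul, eval_X, eval_C]⟩
  · exact ⟨C (f (s i * w)) + (X - 1) * C (f w), fun b => by simp [gL_of_le _ _ (not_lt.1 h1)]⟩

omit h in
theorem _root_.CL.Cox.polyDep_wp (ω : List ι) : PolyDep fun a => wp (gL s a) ω := by
  induction ω with
  | nil => exact PolyDep.const 1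
  | cons i ω ih => exact (polyDep_gL i).mul ih

theorem polyDep_higman : PolyDep h.higman :=
  PolyDep.sum _ fun _ => PolyDep.pow_smul ((polyDep_wp _).mul
    (((PolyDep.const _).mul (polyDep_wp _)).mul (PolyDep.const _))) _

omit h in
theorem _root_.CL.Cox.polyDep_cdiff : PolyDep (cdiff s) := fun f p => by
  obtain ⟨q, hq⟩ := polyDep_gL (s := s) p.1 f p.2
  obtain ⟨q', hq'⟩ := (((PolyDep.const (gJ W)).mul (polyDep_gL (s := s) p.1)).mul (PolyDep.const (gJ W))) f p.2
  exact ⟨q - q', fun b => by rw [eval_sub, ← hq, ← hq']; rfl⟩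

theorem finrank_ker_cdiff_one : finrank ℂ (LinearMap.ker (cdiff s 1)) = Nat.card (ConjClasses W) := by
  have g := h.toGen
  let φ : (ConjClasses W → ℂ) →ₗ[ℂ] (W → ℂ) := LinearMap.funLeft ℂ ℂ ConjClasses.mk
  have h1 : Function.Injective φ := LinearMap.funLeft_injective_of_surjective _ _ _ ConjClasses.mk_surjective
  have hL : ∀ i f w, gL s 1 i f w = f (s i * w) := fun i f w => by
    by_cases h1 : len s w < len s (s i * w)
    · simp [gL_of_lt _ _ h1]
    · simp [gL_of_le _ _ (not_lt.1 h1)]
  have hR : ∀ i f w, gR s 1 i f w = f (w * s i) := fun i f w => by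
    by_cases h1 : len s w < len s (w * s i)
    · simp [g.gR_of_lt _ _ h1]
    · simp [g.gR_of_le _ _ (not_lt.1 h1)]
  have h2 : LinearMap.range φ = LinearMap.ker (cdiff s 1) := by
    ext f
    simp only [mem_ker_cdiff, funext_iff, hL, hR]
    constructor
    · rintro ⟨c, rfl⟩ i w
      refine congrArg c (ConjClasses.mk_eq_mk_iff_isConj.2 (isConj_iff.2 ⟨(s i)⁻¹, by group⟩))
    · intro hf
      have key : ∀ x w, f (x * w * x⁻¹) = f w := fun x => by
        refine g.induction_left (p := fun x => ∀ w, f (x * w * x⁻¹) = f w) (by simp) (fun i x _ ih w => ?_) x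
        rw [mul_inv_rev, g.inv_simple, show s i * x * w * (x⁻¹ * s i) = s i * (x * w * x⁻¹ * s i) by group, hf,
          g.mul_simple_mul_simple, ih]
      refine ⟨Quotient.lift f fun a b hab => ?_, rfl⟩
      obtain ⟨c, rfl⟩ := isConj_iff.1 hab
      exact (key c a).symm
  rw [← h2, LinearMap.finrank_range_of_inj h1]
  have := Fintype.ofFinite (ConjClasses W)
  rw [finrank_fintype_fun_eq_card, Nat.card_eq_fintype_card]

/-- the dimension of the centre of the Hecke algebra is the class number of `W` -/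
theorem finrank_ker_cdiff [Finite ι] {r : ℝ} (hr : 0 < r) :
    finrank ℂ (LinearMap.ker (cdiff s r)) = Nat.card (ConjClasses W) := by
  classical
  have := Fintype.ofFinite ι
  rw [← h.finrank_ker_cdiff_one]
  have h1 := h.range_higman one_pos
  rw [Complex.ofReal_one] at h1
  exact h.polyDep_higman.finrank_ker_eq polyDep_cdiff h.range_higman_le (h.range_higman hr) h1

end Exch

end CL.Cox
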