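/-
CHEV library: the number of irreducible constituents of the permutation character on `G/B`.
-/
import Cfsg.Agent.CHEV.HeckeGen
import Cfsg.Agent.CHEV.BNHecke
import Cfsg.Agent.CHEV.StChev
import Cfsg.Agent.KSG.ClsTools

set_option autoImplicit false
set_option linter.unusedSectionVars false

namespace CL.BN

open Cfsg CL.Cox CL.Char Finset Module Matrix
open scoped ComplexConjugate ComplexOrder

section Perm

variable {G : Type*} [Group G] [Fintype G] (Ω : Type*) [MulAction G Ω] [Fintype Ω] [DecidableEq Ω]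

/-- permutation matrices -/
def pm (g : G) : Matrix Ω Ω ℂ := Matrix.of fun x y => if x = g • y then 1 else 0

/-- the image of the group algebra -/
noncomputable def cm : (G → ℂ) →ₗ[ℂ] Matrix Ω Ω ℂ := Fintype.linearCombination ℂ (pm Ω)

/-- the permutation character -/
noncomputable def pch (G Ω : Type*) [Group G] [MulAction G Ω] : G → ℂ :=
  fun g => (Nat.card (MulAction.fixedBy Ω g) : ℂ)

variable {Ω}

theorem pm_mul_apply (g : G) (A : Matrix Ω Ω ℂ) (x y : Ω) : (pm Ω g * A) x y = A (g⁻¹ • x) y := by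
  simp [pm, Matrix.mul_apply, ← inv_smul_eq_iff]

theorem mul_pm_apply (g : G) (A : Matrix Ω Ω ℂ) (x y : Ω) : (A * pm Ω g) x y = A x (g • y) := by
  simp [pm, Matrix.mul_apply]

theorem pm_mul (g h : G) : pm Ω g * pm Ω h = pm Ω (g * h) := by
  ext x y
  rw [mul_pm_apply]
  simp [pm, mul_smul]

theorem pm_conjTranspose (g : G) : (pm Ω g)ᴴ = pm Ω g⁻¹ := by
  ext x y
  simp [pm, eq_inv_smul_iff, eq_comm]

theorem trace_pm (g : G) : (pm Ω g).trace = pch G Ω g := by
  simp only [Matrix.trace, diag_apply, pm, of_apply, sum_boole, pch, Nat.card_eq_fintype_card,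
    Fintype.card_subtype, MulAction.mem_fixedBy, eq_comm]

theorem cm_apply (f : G → ℂ) : cm Ω f = ∑ g, f g • pm Ω g := rfl

theorem cm_apply_apply (f : G → ℂ) (x y : Ω) : cm Ω f x y = ∑ g, if x = g • y then f g else 0 := by
  simp [cm_apply, Matrix.sum_apply, pm]

theorem trace_cm_mul (f : G → ℂ) (h : G) : (cm Ω f * pm Ω h).trace = ∑ g, f g * pch G Ω (g * h) := by
  simp [cm_apply, Finset.sum_mul, trace_sum, pm_mul, trace_pm]

theorem cm_eq_zero {f : G → ℂ} (h : ∀ h, ∑ g, f g * pch G Ω (g * h) = 0) : cm Ω f = 0 := by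
  rw [← trace_mul_conjTranspose_self_eq_zero_iff]
  conv_lhs => rw [cm_apply, conjTranspose_sum, ← cm_apply]
  simp [Finset.mul_sum, trace_sum, pm_conjTranspose, trace_cm_mul, h]

theorem sum_irr_inv_mul_pch (χ : IrrCharacter G) (h : G) :
    ∑ g, χ.1 g⁻¹ * pch G Ω (g * h) = (classInner (pch G Ω) χ * Nat.card G / χ.1 1) * χ.1 h := by
  have hπ : IsCharacter G (pch G Ω) := isCharacter_perm G Ω
  simp only [hπ.isClassFunction.apply_eq_sum (_ * h), Finset.mul_sum]
  rw [sum_comm, sum_eq_single χ]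
  · have := χ.2.sum_mul_apply_mul χ.2.inv.isClassFunction h
    have h2 := card_mul_classInner χ.1 χ.1
    rw [χ.2.inner_self, mul_one] at h2
    have h3 : ∑ g, χ.1 g⁻¹ * χ.1 g = Nat.card G := by
      rw [h2]; exact sum_congr rfl fun g _ => by rw [χ.2.apply_inv, mul_comm]
    rw [h3] at this
    have h1 := χ.2.one_ne_zero
    simp only [mul_left_comm _ (classInner _ _), ← Finset.mul_sum]
    field_simp
    rw [mul_assoc, mul_comm (∑ _, _), this, mul_assoc]
  · intro ψ _ hne
    have := ψ.2.sum_mul_apply_mul χ.2.inv.isClassFunction h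
    have h2 := card_mul_classInner ψ.1 χ.1
    rw [ψ.2.inner_of_ne χ.2 (fun e => hne (Subtype.ext e)), mul_zero] at h2
    have h3 : ∑ g, χ.1 g⁻¹ * ψ.1 g = 0 := by
      rw [h2]; exact sum_congr rfl fun g _ => by rw [χ.2.apply_inv, mul_comm]
    rw [h3, zero_mul, mul_eq_zero] at this
    simp only [mul_left_comm _ (classInner _ _), ← Finset.mul_sum]
    rw [this.resolve_left ψ.2.one_ne_zero, mul_zero]
  · exact fun h => absurd (mem_univ _) h

variable (G Ω) in
/-- the images of the central idempotents, up to scalars -/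
noncomputable def cv (χ : {χ : IrrCharacter G // classInner (pch G Ω) χ ≠ 0}) : Matrix Ω Ω ℂ :=
  cm Ω fun g => χ.1.1 g⁻¹

theorem linearIndependent_cv : LinearIndependent ℂ (cv G Ω) := by
  let T : Matrix Ω Ω ℂ →ₗ[ℂ] (G → ℂ) := LinearMap.pi fun h =>
    Matrix.traceLinearMap Ω ℂ ℂ ∘ₗ LinearMap.mulRight ℂ (pm Ω h)
  refine LinearIndependent.of_comp T ?_
  have h1 := ((linearIndependent_irr (G := G)).comp _
    (Subtype.val_injective (p := fun χ : IrrCharacter G => classInner (pch G Ω) χ ≠ 0))).units_smul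
    fun χ => Units.mk0 (classInner (pch G Ω) χ.1 * Nat.card G / χ.1.1 1)
      (div_ne_zero (mul_ne_zero χ.2 (card_ne_zero G)) χ.1.2.one_ne_zero)
  convert h1 using 1
  ext χ h
  exact (trace_cm_mul _ h).trans (sum_irr_inv_mul_pch χ.1 h)

theorem cm_mem_span {f : G → ℂ} (hf : IsClassFunction G f) : cm Ω f ∈ Submodule.span ℂ (Set.range (cv G Ω)) := by
  have h1 : IsClassFunction G fun g => f g⁻¹ := fun g h => by
    beta_reduce
    rw [← hf g⁻¹ h]; simp [mul_assoc]
  have h2 : f = ∑ χ : IrrCharacter G, classInner (fun g => f g⁻¹) χ • fun g => χ.1 g⁻¹ := by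
    ext g
    simpa [Finset.sum_apply] using h1.apply_eq_sum g⁻¹
  rw [h2, map_sum]
  refine Submodule.sum_mem _ fun χ _ => ?_
  rw [map_smul]
  refine Submodule.smul_mem _ _ ?_
  by_cases h : classInner (pch G Ω) χ = 0
  · rw [cm_eq_zero fun g => by rw [sum_irr_inv_mul_pch, h]; simp]
    exact zero_mem _
  · exact Submodule.subset_span ⟨⟨χ, h⟩, rfl⟩

theorem cm_smul_smul {f : G → ℂ} (hf : IsClassFunction G f) (k : G) (x y : Ω) :
    cm Ω f (k • x) (k • y) = cm Ω f x y := by
  rw [cm_apply_apply, cm_apply_apply, ← Equiv.sum_comp (MulAut.conj k).toEquiv]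
  refine sum_congr rfl fun g _ => ?_
  simp [mul_smul, hf g k]

end Perm

variable {G : Type*} [Group G] [Fintype G] (P : BNPair G) [Fintype (G ⧸ P.B)] [DecidableEq (G ⧸ P.B)]

theorem exists_smul_of_wdist {x y x' y' : G ⧸ P.B} (h : wdist P x y = wdist P x' y') :
    ∃ g : G, g • x = x' ∧ g • y = y' := by
  induction x using QuotientGroup.induction_on with | _ x => ?_
  induction y using QuotientGroup.induction_on with | _ y => ?_
  induction x' using QuotientGroup.induction_on with | _ x' => ?_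
  induction y' using QuotientGroup.induction_on with | _ y' => ?_
  rw [wdist_mk, wdist_mk, δ_eq_δ_iff] at h
  obtain ⟨b, hb, b', hb', e⟩ := h
  refine ⟨x' * b⁻¹ * x⁻¹, ?_, ?_⟩
  · rw [MulAction.Quotient.smul_mk, QuotientGroup.eq]
    simpa using hb
  · rw [MulAction.Quotient.smul_mk, QuotientGroup.eq, smul_eq_mul, mul_assoc, e]
    simpa [mul_assoc] using hb'

theorem exists_hecke {A : Matrix (G ⧸ P.B) (G ⧸ P.B) ℂ} (h : ∀ (k : G) x y, A (k • x) (k • y) = A x y) :
    ∃ f, hecke P f = A := by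
  choose σ hσ using δ_surjective P
  refine ⟨fun w => A ((1 : G) : G ⧸ P.B) (σ w : G ⧸ P.B), ?_⟩
  ext x y
  obtain ⟨g, h1, h2⟩ := exists_smul_of_wdist P (x := x) (y := y) (x' := ((1 : G) : G ⧸ P.B))
    (y' := (σ (wdist P x y) : G ⧸ P.B)) (by rw [wdist_mk, inv_one, one_mul, hσ])
  rw [hecke_apply, ← h1, ← h2, h]

/-- `hecke` as a linear map -/
noncomputable def heckeLin : (W P → ℂ) →ₗ[ℂ] Matrix (G ⧸ P.B) (G ⧸ P.B) ℂ where
  toFun := hecke P
  map_add' := hecke_add P
  map_smul' := hecke_smul P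

theorem hecke_injective : Function.Injective (hecke P : (W P → ℂ) → _) := fun f f' h => by
  ext w
  obtain ⟨g, rfl⟩ := δ_surjective P w
  have := congrFun (congrFun h ((1 : G) : G ⧸ P.B)) (g : G ⧸ P.B)
  rwa [hecke_apply, hecke_apply, wdist_mk, inv_one, one_mul] at this

theorem hecke_gJ (f : W P → ℂ) : hecke P (gJ (W P) f) = (hecke P f)ᵀ := by
  ext x y
  rw [hecke_apply, transpose_apply, hecke_apply, gJ_apply, wdist_comm P x y]

theorem cm_mul_hecke (f : G → ℂ) (v : W P → ℂ) : cm (G ⧸ P.B) f * hecke P v = hecke P v * cm (G ⧸ P.B) f := by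
  have : ∀ g : G, pm (G ⧸ P.B) g * hecke P v = hecke P v * pm (G ⧸ P.B) g := fun g => by
    ext x y
    rw [pm_mul_apply, mul_pm_apply, hecke_apply, hecke_apply, ← wdist_smul P g, smul_inv_smul]
  simp [cm_apply, Finset.sum_mul, Finset.mul_sum, this]

theorem sum_ite_smul_eq (x x' : G ⧸ P.B) : ∑ g : G, (if x = g • x' then (1 : ℂ) else 0) = Nat.card P.B := by
  induction x using QuotientGroup.induction_on with | _ x => ?_
  induction x' using QuotientGroup.induction_on with | _ x' => ?_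
  rw [← sum_ind_mem, ← Equiv.sum_comp ((Equiv.mulLeft x).trans (Equiv.mulRight x'⁻¹))]
  refine sum_congr rfl fun g _ => ?_
  have e : (x : G ⧸ P.B) = (Equiv.mulLeft x).trans (Equiv.mulRight x'⁻¹) g • (x' : G ⧸ P.B) ↔ g ∈ P.B := by
    rw [MulAction.Quotient.smul_mk, QuotientGroup.eq]
    simp
  by_cases h : g ∈ P.B
  · rw [if_pos (e.2 h), ind_of h]
  · rw [if_neg (mt e.1 h), ind_of_not h]

variable [DecidableEq (W P)]

theorem sum_ite_mul (x x' v : G ⧸ P.B) (F : G ⧸ P.B → ℂ) :
    ∑ g : G, (if x = g • x' then F (g • v) else 0) =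
      ∑ u, (if wdist P x u = wdist P x' v then (Nat.card P.B : ℂ) / cellIdx P (wdist P x' v) * F u else 0) := by
  let N : G ⧸ P.B → ℂ := fun u => ∑ g : G, if x = g • x' ∧ u = g • v then 1 else 0
  have h0 : ∀ u, wdist P x u ≠ wdist P x' v → N u = 0 := fun u hu =>
    sum_eq_zero fun g _ => if_neg (by rintro ⟨rfl, rfl⟩; exact hu (wdist_smul P g _ _))
  have h1 : ∀ u u', wdist P x u = wdist P x u' → N u = N u' := fun u u' h => by
    obtain ⟨k, h1, rfl⟩ := exists_smul_of_wdist P h
    simp only [N]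
    rw [← Equiv.sum_comp (Equiv.mulLeft k⁻¹)]
    refine sum_congr rfl fun g _ => if_congr ?_ rfl rfl
    simp only [Equiv.coe_mulLeft, mul_smul, eq_inv_smul_iff, h1]
  have h2 : ∑ u, N u = Nat.card P.B := by
    rw [← sum_ite_smul_eq P x x', sum_comm]
    refine sum_congr rfl fun g _ => ?_
    by_cases h : x = g • x' <;> simp [h]
  have h3 : ∀ u, wdist P x u = wdist P x' v → N u = (Nat.card P.B : ℂ) / cellIdx P (wdist P x' v) := fun u hu => by
    rw [eq_div_iff (Nat.cast_ne_zero.2 (cellIdx_pos P _).ne'), ← h2, ← card_filter_wdist P x,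
      ← sum_filter_add_sum_filter_not univ fun u => wdist P x u = wdist P x' v,
      sum_eq_zero (s := univ.filter fun u => ¬ wdist P x u = wdist P x' v) fun u hu => h0 u (mem_filter.1 hu).2,
      add_zero, sum_congr rfl fun u' hu' => h1 u' u ((mem_filter.1 hu').2.trans hu.symm), sum_const, nsmul_eq_mul,
      mul_comm]
    congr!
  calc _ = ∑ u, N u * F u := by
        simp only [N, Finset.sum_mul]
        rw [sum_comm]
        refine sum_congr rfl fun g _ => ?_
        by_cases h : x = g • x' <;> simp [h]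
    _ = _ := sum_congr rfl fun u _ => by
        split_ifs with h
        · rw [h3 u h]
        · rw [h0 u h, zero_mul]

variable {q : ℕ} (hq : ∀ s : P.S, cellIdx P (sW P s) = q)
include hq

theorem hecke_gL (s : P.S) (f : W P → ℂ) : hecke P (gL (sW P) q s f) = heckeT P ℂ (sW P s) * hecke P f := by
  rw [heckeT_mul_hecke]
  congr 1
  ext w
  by_cases h : len (sW P) w < len (sW P) (sW P s * w)
  · rw [gL_of_lt _ _ h, heckeL_of_lt P f h, hq]
  · rw [gL_of_le _ _ (not_lt.1 h), heckeL_of_le P f (not_lt.1 h), hq]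

omit hq in
theorem heckeT_eq (w : W P) : heckeT P ℂ w = hecke P (Pi.single w 1) := by
  rw [heckeT]; congr!

theorem hecke_gR (s : P.S) (f : W P → ℂ) : hecke P (gR (sW P) q s f) = hecke P f * heckeT P ℂ (sW P s) := by
  change hecke P (gJ _ (gL (sW P) q s (gJ _ f))) = _
  rw [hecke_gJ, hecke_gL P hq, hecke_gJ, transpose_mul, transpose_transpose, heckeT_eq, ← hecke_gJ, gJ_single,
    (gen P).inv_simple]

theorem hecke_gT (w : W P) (f : W P → ℂ) : hecke P ((exch P).gT q w f) = heckeT P ℂ w * hecke P f := by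
  have key : ∀ (ω : List P.S) f, hecke P (wp (gL (sW P) q) ω f) =
      wp (fun s => heckeT P ℂ (sW P s)) ω * hecke P f := fun ω f => by
    induction ω with
    | nil => simp [wp_nil]
    | cons i ω ih => rw [wp_cons, End.mul_apply, hecke_gL P hq, ih, wp_cons, Matrix.mul_assoc]
  have h1 := key ((exch P).rw w) (Pi.single 1 1)
  rw [← Exch.gT, Exch.gT_single, ← heckeT_eq, ← heckeT_eq, heckeT_one, Matrix.mul_one] at h1
  rw [h1, ← key, Exch.gT]

variable [Fintype (W P)]

theorem exists_hecke_higman (y : W P → ℂ) : ∃ (c : ℂ) (f : G → ℂ), IsClassFunction G f ∧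
    hecke P ((exch P).higman q y) = c • cm (G ⧸ P.B) f := by
  set N := univ.sup (len (sW P))
  have hN : ∀ w, len (sW P) w ≤ N := fun w => le_sup (mem_univ w)
  have hB := card_ne_zero P.B
  refine ⟨q ^ N / Nat.card P.B, fun g => ∑ v, hecke P y (g • v) v, fun g h => ?_, ?_⟩
  · beta_reduce
    rw [← Equiv.sum_comp (MulAction.toPerm h)]
    refine sum_congr rfl fun v _ => ?_
    simp [hecke_apply, mul_smul, wdist_smul]
  have h1 : hecke P ((exch P).higman q y) =
      ∑ w, (q : ℂ) ^ (N - len (sW P) w) • (heckeT P ℂ w * (hecke P y * (heckeT P ℂ w)ᵀ)) := by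
    change heckeLin P _ = _
    rw [Exch.higman, LinearMap.sum_apply, map_sum]
    refine sum_congr rfl fun w _ => ?_
    rw [LinearMap.smul_apply, map_smul]
    congr 1
    change hecke P ((exch P).gT q w (gJ _ ((exch P).gT q w (gJ _ y)))) = _
    rw [hecke_gT P hq, hecke_gJ, hecke_gT P hq, hecke_gJ, transpose_mul, transpose_transpose]
  ext x x'
  have h2 : cm (G ⧸ P.B) (fun g : G => ∑ v, hecke P y (g • v) v) x x' = ∑ v, ∑ u,
      (if wdist P x u = wdist P x' v then (Nat.card P.B : ℂ) / cellIdx P (wdist P x' v) * hecke P y u v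
        else 0) := by
    rw [cm_apply_apply, ← sum_congr rfl fun v _ => sum_ite_mul P x x' v fun u => hecke P y u v, sum_comm]
    refine sum_congr rfl fun g _ => ?_
    split_ifs <;> simp
  rw [h1, Matrix.smul_apply, h2, Matrix.sum_apply]
  simp only [Matrix.smul_apply, Matrix.mul_apply, transpose_apply, heckeT_eq, smul_eq_mul, Finset.mul_sum]
  rw [sum_comm, sum_comm (s := univ) (t := univ) (f := fun v u => _ * ite (wdist P x u = wdist P x' v) _ _)]
  refine sum_congr rfl fun u _ => ?_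
  rw [sum_comm]
  refine sum_congr rfl fun v _ => ?_
  rw [sum_eq_single (wdist P x' v) (fun w _ hw => by simp [hecke_apply, Ne.symm hw])
    fun h => absurd (mem_univ _) h]
  by_cases h : wdist P x u = wdist P x' v
  · have h3 : (cellIdx P (wdist P x' v) : ℂ) ≠ 0 := Nat.cast_ne_zero.2 (cellIdx_pos P _).ne'
    have h4 : (q : ℂ) ^ N = q ^ (N - len (sW P) (wdist P x' v)) * cellIdx P (wdist P x' v) := by
      rw [cellIdx_eq_pow P hq, Nat.cast_pow, ← pow_add, Nat.sub_add_cancel (hN _)]
    simp only [hecke_apply, h, Pi.single_eq_same, if_true, h4]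
    field_simp
  · simp [hecke_apply, h]

theorem map_ker_cdiff (hq0 : 0 < q) : (LinearMap.ker (cdiff (sW P) q)).map (heckeLin P) =
    Submodule.span ℂ (Set.range (cv G (G ⧸ P.B))) := by
  apply le_antisymm
  · have := (exch P).range_higman (r := q) (Nat.cast_pos.2 hq0)
    rw [Complex.ofReal_natCast] at this
    rw [← this]
    rintro _ ⟨_, ⟨y, rfl⟩, rfl⟩
    obtain ⟨c, f, hf, e⟩ := exists_hecke_higman P hq y
    change hecke P _ ∈ _
    rw [e]
    exact Submodule.smul_mem _ _ (cm_mem_span hf)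
  · rw [Submodule.span_le]
    rintro _ ⟨χ, rfl⟩
    obtain ⟨v, hv⟩ := exists_hecke P (cm_smul_smul (Ω := G ⧸ P.B) χ.1.2.inv.isClassFunction)
    refine ⟨v, mem_ker_cdiff.2 fun s => hecke_injective P ?_, hv⟩
    rw [hecke_gL P hq, hecke_gR P hq, hv, heckeT, cm_mul_hecke]

end CL.BN

namespace CL.BN

open Cfsg CL.Cox CL.Char Module

/-- the number of irreducible constituents of the permutation character on `G/B` is the class number of `W` -/
theorem card_constituents {G : Type*} [Group G] [Finite G] (P : BNPair G) {q : ℕ}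
    (hq : ∀ s : P.S, cellIdx P (sW P s) = q) (hq0 : 0 < q) :
    Nat.card {χ : IrrCharacter G // ∃ φ : G → ℂ, IsCharacter G φ ∧ fixedPointCharacter P.B = (χ : G → ℂ) + φ} =
      Nat.card (ConjClasses (W P)) := by
  classical
  have := Fintype.ofFinite G
  have := Fintype.ofFinite (G ⧸ P.B)
  have := finite_W P
  have := Fintype.ofFinite (W P)
  have h1 := (exch P).finrank_ker_cdiff (r := q) (Nat.cast_pos.2 hq0)
  rw [Complex.ofReal_natCast] at h1
  rw [← h1, (Submodule.equivMapOfInjective (heckeLin P) (hecke_injective P) _).finrank_eq,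
    map_ker_cdiff P hq hq0, finrank_span_eq_card linearIndependent_cv, ← Nat.card_eq_fintype_card]
  refine Nat.card_congr (Equiv.subtypeEquivRight fun χ => ?_)
  change _ ↔ classInner (fixedPointCharacter P.B) χ ≠ 0
  constructor
  · rintro ⟨φ, hφ, e⟩
    obtain ⟨n, hn⟩ := hφ.exists_nat_inner χ.2.isCharacter
    rw [e, classInner_add_left, χ.2.inner_self, hn]
    exact_mod_cast (by omega : 1 + n ≠ 0)
  · exact fun h => ⟨_, (isCharacter_fixedPointCharacter P.B).sub_irr χ.2 h, by abel⟩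

end CL.BN

namespace CL.Chev.StData

open Cfsg CL.Cox CL.BN

variable {ι κ : Type*} [Fintype κ] [DecidableEq κ] {R : RootSys ι κ} [Finite ι] {F G : Type*} [Field F] [Group G]
  {S : StData R F G} (hS : S.Good) (htop : S.grp = ⊤)

theorem Good.cellIdx_sW (s : (hS.bnPair htop).S) : cellIdx (hS.bnPair htop) (sW _ s) = Nat.card F := by
  obtain ⟨i, rfl⟩ := hS.idx_surjective htop s
  have hn := S.acts_n_simple i (one_ne_zero (α := F))
  have hb : ∀ t, S.x (R.simple i) t ∈ S.B := fun t => S.U_le_B (S.x_mem_U (R.isPos_simple i) t)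
  refine cellIdx_eq_card _ (fun t => S.x (R.simple i) t * S.n (R.simple i) 1) (fun t => ?_) (fun g hg => ?_)
    fun t t' h => ?_
  · rw [δ_B_mul _ (hb t)]; exact δ_S _ (hS.idx htop i)
  · obtain ⟨b, hb, b', hb', rfl⟩ := (δ_eq_δ_iff _).1 (hg.trans (δ_S _ (hS.idx htop i)).symm)
    obtain ⟨b₁, hb₁, u, hu, e⟩ := hn.inv.exists_normal_B (inv_mem hb)
    rw [R.sp_inv, R.invs_sp] at hu
    obtain ⟨t, rfl⟩ := S.mem_X_iff.1 hu
    refine ⟨-t, ?_⟩
    have e' : b = (S.x (R.simple i) t)⁻¹ * S.n (R.simple i) 1 * b₁⁻¹ * (S.n (R.simple i) 1)⁻¹ := by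
      rw [← inv_inj, ← mul_left_cancel_iff (a := (S.n (R.simple i) 1)⁻¹), e]; group
    have : (S.x (R.simple i) (-t) * S.n (R.simple i) 1)⁻¹ * (b * S.n (R.simple i) 1 * b') = b₁⁻¹ * b' := by
      rw [S.x_neg, e']; group
    exact this ▸ mul_mem (inv_mem hb₁) hb'
  · obtain ⟨c, hc, e⟩ := hn.inv.exists_conj (R.simple i)
    have : (S.x (R.simple i) t * S.n (R.simple i) 1)⁻¹ * (S.x (R.simple i) t' * S.n (R.simple i) 1) =
        S.x ((R.sp i)⁻¹ (R.simple i)) (c * (-t + t')) := by
      rw [← e, S.x_add, S.x_neg]; group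
    rw [this, R.sp_inv, R.sp_apply, R.σ_simple] at h
    have := hS.eq_zero_of_mem_B ((R.not_isPos_neg _).2 (R.isPos_simple i)) h
    exact neg_add_eq_zero.1 ((mul_eq_zero.1 this).resolve_left hc)

include hS htop in
theorem Good.card_constituents [Finite G] [Finite F] :
    Nat.card {χ : IrrCharacter G // ∃ φ : G → ℂ, IsCharacter G φ ∧ fixedPointCharacter S.B = (χ : G → ℂ) + φ} =
      Nat.card (ConjClasses R.W) := by
  have := Fintype.ofFinite G
  exact (BN.card_constituents (hS.bnPair htop) (hS.cellIdx_sW htop) Nat.card_pos).trans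
    (CL.Nil.card_conjClasses_congr (hS.weylEquiv htop))

end CL.Chev.StData
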