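/-
CHEV library: generation of a Chevalley group by `N` and a few fundamental root subgroups.
-/
import Cfsg.Agent.CHEV.CentChk
import Cfsg.Agent.CHEV.AutTypes

set_option autoImplicit false

namespace CL.Chev

open Cfsg.Lie

namespace StData

variable {ι κ : Type*} [Fintype κ] [DecidableEq κ] {R : RootSys ι κ} {F G : Type*} [Field F] [Group G]
  {S : StData R F G} {M : Subgroup G}

theorem x_mem_of_W (hN : S.N ≤ M) {w : Equiv.Perm ι} (hw : w ∈ R.W) {r : ι} (h : ∀ t, S.x r t ∈ M) (t : F) :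
    S.x (w r) t ∈ M := by
  obtain ⟨g, hg, ha⟩ := S.exists_acts hw
  obtain ⟨c, hc, e⟩ := ha.exists_conj r
  rw [← mul_div_cancel₀ t hc, ← e]
  exact mul_mem (mul_mem (hN hg) (h _)) (inv_mem (hN hg))

theorem x_mem_of_refl (hN : S.N ≤ M) {r s : ι} (h : ∀ t, S.x (R.refl r s) t ∈ M) (t : F) : S.x s t ∈ M :=
  R.refl_refl r s ▸ x_mem_of_W hN (R.refl_mem_W r) h t

theorem x_mem_of_bond (hN : S.N ≤ M) {c d : ι} (h1 : R.pair c d = -1) (h2 : R.pair d c = -1) (h : ∀ t, S.x c t ∈ M)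
    (t : F) : S.x d t ∈ M := by
  refine x_mem_of_refl hN (r := c) (fun t => ?_) t
  rw [show R.refl c d = R.refl d c from R.rt_inj (by
    rw [RootSys.rt_refl_of_neg_one h1, RootSys.rt_refl_of_neg_one h2, add_comm])]
  exact x_mem_of_W hN (R.refl_mem_W d) h t

theorem Good.x_mem_of_double [Finite ι] (hS : S.Good) (hN : S.N ≤ M) (h0 : (2 : F) ≠ 0) {c d : ι} (h1 : R.pair c d = -2)
    (h2 : R.pair d c = -1) (h : ∀ t, S.x c t ∈ M) (t : F) : S.x d t ∈ M := by
  obtain ⟨ε, δ, hε, hδ, -, e⟩ := hS.B2_conj (RootSys.b2P_refl h1 h2)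
  refine x_mem_of_refl hN (r := c) (fun t => ?_) t
  have hc : 2 * ε * δ * 1 ≠ 0 := by rcases hε with rfl | rfl <;> rcases hδ with rfl | rfl <;> simpa using h0
  have hm := x_mem_of_W hN (R.refl_mem_W d) h (t / (2 * ε * δ * 1))
  rw [← mul_div_cancel₀ t hc, ← M.mul_mem_cancel_left hm, ← e]
  exact mul_mem (mul_mem (h _) hm) (inv_mem (h _))

theorem grp_le_of_N_simple (hN : S.N ≤ M) (h : ∀ i t, S.x (R.simple i) t ∈ M) : S.grp ≤ M :=
  S.XS_le_iff.2 fun r _ t => by
    obtain ⟨w, hw, i, rfl⟩ := R.exists_W_simple r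
    exact x_mem_of_W hN hw (h i) t

end StData

/-- the nodes reachable from `L` through simple bonds and, if `b`, from short to long through double bonds -/
def Cert.reach (C : Cert) (l : ℕ) (b : Bool) (k : ℕ) (L : List ℕ) : List ℕ :=
  Nat.rec L (fun _ ih => (List.range l).filter fun k => ih.any fun j => Nat.blt j l && (Nat.beq j k ||
    ieq (C.wt k (C.smp j)) (-1) && (ieq (C.wt j (C.smp k)) (-1) || b && ieq (C.wt j (C.smp k)) (-2)))) k

variable {D : ChevalleyDatum} [CL.Chev.Good D] {K G : Type*} [Field K] [Group G] {S : StData (rootSys D) K G}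
  {M : Subgroup G}

theorem grp_le_of_reach (hS : S.Good) (hN : S.N ≤ M) {b : Bool} (hb : b = true → (2 : K) ≠ 0) {L : List ℕ}
    (hL : ∀ i : Fin D.rank, i.val ∈ L → ∀ t, S.x (sm i) t ∈ M)
    (h : allLt D.rank (fun i => lmem i ((Good.C D).reach D.rank b D.rank L)) = true) : S.grp ≤ M := by
  have key : ∀ k, ∀ i : Fin D.rank, i.val ∈ (Good.C D).reach D.rank b k L → ∀ t, S.x (sm i) t ∈ M := by
    intro k
    induction k with
    | zero => exact hL
    | succ k ih =>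
      intro i hi
      obtain ⟨j, hj, e⟩ := List.any_eq_true.1 (List.mem_filter.1 hi).2
      simp only [Bool.and_eq_true, blt_iff, Bool.or_eq_true, Nat.beq_eq, ieq_iff] at e
      have e1 : ∀ a b : Fin D.rank, (rootSys D).pair (sm a) (sm b) = (Good.C D).wt a ((Good.C D).smp b) := fun a b => by
        rw [← rootSys_simple, RootSys.pair_simple, rootSys_wt', sm_val']
      obtain ⟨h1, rfl | ⟨h2, h3 | h3⟩⟩ := e
      · exact ih i hj
      · exact StData.x_mem_of_bond hN ((e1 ⟨j, h1⟩ i).trans h3) ((e1 i ⟨j, h1⟩).trans h2) (ih ⟨j, h1⟩ hj)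
      · exact hS.x_mem_of_double hN (hb h3.1) ((e1 ⟨j, h1⟩ i).trans h3.2) ((e1 i ⟨j, h1⟩).trans h2) (ih ⟨j, h1⟩ hj)
  exact StData.grp_le_of_N_simple hN fun i => key _ i (lmem_iff.1 ((allLt_iff _ _).1 h i i.2))

theorem group_le_of_reach {M : Subgroup (GL D.Idx K)} (hN : D.monomialSubgroup K ≤ M) {b : Bool}
    (hb : b = true → (2 : K) ≠ 0) {L : List ℕ} (hL : ∀ i ∈ L, D.rootSubgroup K (D.simple i) ≤ M)
    (h : allLt D.rank (fun i => lmem i ((Good.C D).reach D.rank b D.rank L)) = true) : D.group K ≤ M :=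
  stData_grp.ge.trans (grp_le_of_reach stData_good (stData_N.le.trans hN) hb
    (fun i hi t => hL i hi ((stData_X (sm i)).le ((stData D K).x_mem_X _ t))) h)

theorem long_le_G2 {M : Subgroup (GL chevG2.Idx K)} (hN : chevG2.monomialSubgroup K ≤ M) (h3 : (3 : K) ≠ 0)
    (h : chevG2.rootSubgroup K 7 ≤ M) : chevG2.rootSubgroup K 6 ≤ M := by
  rw [← stData_N] at hN
  have hs : ∀ (i : Fin chevG2.rank) (r s : Rt chevG2), (Good.C chevG2).rfs i r = s →
      (∀ t, (stData chevG2 K).x r t ∈ M) → ∀ t, (stData chevG2 K).x s t ∈ M := fun i r s e h t => by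
    rw [show s = (rootSys chevG2).sp i r from Fin.ext (e.symm.trans (rf_sm_val' i r).symm)]
    exact StData.x_mem_of_W hN (RootSys.sp_mem_W _ i) h t
  have h7 : ∀ t, (stData chevG2 K).x ⟨7, by decide⟩ t ∈ M := fun t =>
    h ((stData_X (⟨7, by decide⟩ : Rt chevG2)).le ((stData chevG2 K).x_mem_X _ t))
  have h8 := hs (1 : Fin 2) _ ⟨8, by decide⟩ (by decide +kernel) h7
  have h9 := hs (0 : Fin 2) _ ⟨9, by decide⟩ (by decide +kernel) h8
  refine (stData_X (⟨6, by decide⟩ : Rt chevG2)).ge.trans ((stData chevG2 K).XS_le_iff.2 ?_)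
  rintro _ rfl
  refine hs (0 : Fin 2) ⟨10, by decide⟩ _ (by decide +kernel) fun t => ?_
  have e := prod_eq_of_weqM (D := chevG2) (p := 0) Nat.cast_zero [t / 3] (by simp)
    (w₁ := [(9, 1), (7, .var 0), (9, -1), (7, -.var 0)]) (w₂ := [(10, -(3 * .var 0))]) (by decide +kernel)
  simp only [List.map_cons, List.map_nil, List.prod_cons, List.prod_nil, mul_one, PE.ev_neg, PE.ev_mul, PE.ev_ofNat,
    PE.ev_var, List.getD_cons_zero, Nat.cast_ofNat, mul_div_cancel₀ t h3] at e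
  rw [← inv_mem_iff, ← StData.x_neg]
  exact (e ▸ mul_mem (h9 _) (mul_mem (h7 _) (mul_mem (h9 _) (h7 _))) : xN (stData chevG2 K).x 10 (-t) ∈ M)

end CL.Chev
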