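/-
Small Ree groups: stem extensions are trivial.
-/
import Mathlib
import Cfsg.Agent.CHEV.ReeSub
import Cfsg.Agent.CHEV.ReeAut
import Cfsg.Agent.CHEV.SzSchur

set_option autoImplicit false
set_option linter.unusedSectionVars false

namespace CL.Ree

open Subgroup Cfsg CL.SchurC CL.Sz
open scoped commutatorElement

theorem form_eq_one {F Γ : Type*} [Field F] [Group Γ] {γ : F → F → Γ} (h1 : ∀ x x' y, γ (x + x') y = γ x y * γ x' y)
    (h2 : ∀ x y y', γ x (y + y') = γ x y * γ x y') {f : F → F} (hf : ∀ k ≠ 0, f k ≠ 0)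
    (h3 : ∀ k ≠ 0, ∀ x y, γ (k * x) (f k * y) = γ x y) {a : F} (ha : a ≠ 0) (ha' : a + 1 ≠ 0)
    (hc : (f (a + 1))⁻¹ ≠ (f a)⁻¹ + 1) (x y : F) : γ x y = 1 := by
  have g : ∀ k ≠ 0, ∀ y, γ k y = γ 1 ((f k)⁻¹ * y) := fun k hk y => by
    rw [← h3 k hk 1, mul_one, mul_inv_cancel_left₀ (hf k hk)]
  have key : ∀ y, γ 1 (((f (a + 1))⁻¹ - ((f a)⁻¹ + 1)) * y) = 1 := fun y => by
    have e := h1 a 1 y
    rw [g _ ha', g a ha, ← h2] at e
    rw [← mul_eq_left (a := γ 1 ((f a)⁻¹ * y + y)), ← h2, ← e]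
    congr 1; ring
  by_cases hx : x = 0
  · rw [hx, ← mul_eq_left (a := γ 0 y), ← h1, add_zero]
  · rw [g x hx, ← mul_inv_cancel_left₀ (sub_ne_zero.mpr hc) (_ * y), key]

theorem add_zero' {F Γ : Type*} [Field F] [Group Γ] {g : F → Γ} (hg : ∀ a b, g (a + b) = g a * g b) : g 0 = 1 := by
  rw [← mul_eq_left (a := g 0), ← hg, add_zero]

theorem eq_one_of_sq_of_cube {Γ : Type*} [Group Γ] {x : Γ} (h2 : x * x = 1) (h3 : x * x * x = 1) : x = 1 := by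
  rwa [h2, one_mul] at h3

namespace Model

universe u

variable {F : Type*} [Field F] [CharP F 3] {σ : F →+* F} {G : Type u} [Group G] (M : Model σ G) [Finite F]
  {Γ : Type*} [Group Γ]

/-- A bimultiplicative map invariant under the torus. -/
structure Bi (β : G → G → Γ) (A B : Subgroup G) : Prop where
  left : ∀ a ∈ A, ∀ a' ∈ A, ∀ b ∈ B, β (a * a') b = β a b * β a' b
  right : ∀ a ∈ A, ∀ b ∈ B, ∀ b' ∈ B, β a (b * b') = β a b * β a b'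
  conj : ∀ l, ∀ a ∈ A, ∀ b ∈ B, β (M.h l * a * (M.h l)⁻¹) (M.h l * b * (M.h l)⁻¹) = β a b

namespace Bi

variable {M} {β : G → G → Γ} {A B : Subgroup G}

theorem mono (h : M.Bi β A B) {A' B' : Subgroup G} (hA : A' ≤ A) (hB : B' ≤ B) : M.Bi β A' B' :=
  ⟨fun _ ha _ ha' _ hb => h.left _ (hA ha) _ (hA ha') _ (hB hb),
    fun _ ha _ hb _ hb' => h.right _ (hA ha) _ (hB hb) _ (hB hb'), fun l _ ha _ hb => h.conj l _ (hA ha) _ (hB hb)⟩

theorem swap (h : M.Bi β A B) : M.Bi (fun a b => β b a) B A :=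
  ⟨fun _ ha _ ha' _ hb => h.right _ hb _ ha _ ha', fun _ ha _ hb _ hb' => h.left _ hb _ hb' _ ha,
    fun l _ ha _ hb => h.conj l _ hb _ ha⟩

theorem eq_one_of_ε (h : M.Bi β A B) {a b : G} (ha : a ∈ A) (hb : b ∈ B) (h1 : M.ε * a = a * M.ε) (h3 : a ^ 3 = 1)
    (hb' : M.ε * b * M.ε ∈ B) (h2 : β a (M.ε * b * M.ε * b) = 1) : β a b = 1 := by
  have e := h.conj (-1) a ha b hb
  rw [← ε, h1, mul_inv_cancel_right, ε_inv] at e
  rw [h.right _ ha _ hb' _ hb, e] at h2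
  refine eq_one_of_sq_of_cube h2 ?_
  rw [← h.left _ ha _ ha _ hb, ← h.left _ (mul_mem ha ha) _ ha _ hb, ← pow_three', h3, ← mul_eq_left (a := β 1 b),
    ← h.left _ (one_mem _) _ (one_mem _) _ hb, mul_one]

variable (hq : 3 < Nat.card F)
include hq

include M in
theorem exists_a : ∃ a : F, a ≠ 0 ∧ a + 1 ≠ 0 ∧ (a + 1)⁻¹ ≠ a⁻¹ + 1 ∧
    ((a + 1) ^ 2 / σ (a + 1))⁻¹ ≠ (a ^ 2 / σ a)⁻¹ + 1 := by
  obtain ⟨a, ha⟩ := M.exists_σ_ne hq
  have h0 : a ≠ 0 := by rintro rfl; simp at ha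
  have h1 : a + 1 ≠ 0 := fun h => ha (by rw [eq_neg_of_add_eq_zero_left h]; simp)
  have h2 : a ≠ 1 := by rintro rfl; simp at ha
  refine ⟨a, h0, h1, fun h => ?_, fun h => ?_⟩
  · field_simp at h
    grind
  · rw [inv_div, inv_div, map_add, map_one] at h
    field_simp at h
    have h3 : σ a = a ^ 3 := by generalize σ a = s at h; grind
    have h4 := M.tits a
    rw [h3, map_pow, h3] at h4
    grind

theorem ZZ (h : M.Bi β M.Z M.Z) : ∀ a ∈ M.Z, ∀ b ∈ M.Z, β a b = 1 := by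
  obtain ⟨a, h0, h1, h2, -⟩ := exists_a (M := M) hq
  rintro _ ⟨z, rfl⟩ _ ⟨z', rfl⟩
  refine form_eq_one (γ := fun z z' => β (M.u 0 0 z) (M.u 0 0 z')) (f := id) (fun x x' y => ?_) (fun x y y' => ?_)
    (fun _ h => h) (fun k hk x y => ?_) h0 h1 h2 z z'
  · simpa [u_zero_mul] using h.left _ (M.u_mem_Z x) _ (M.u_mem_Z x') _ (M.u_mem_Z y)
  · simpa [u_zero_mul] using h.right _ (M.u_mem_Z x) _ (M.u_mem_Z y) _ (M.u_mem_Z y')
  · have := h.conj (Units.mk0 k hk ^ 2 / Units.map σ (Units.mk0 k hk)) _ (M.u_mem_Z x) _ (M.u_mem_Z y)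
    have h0 := σ_ne_zero (σ := σ) hk
    rw [h_conj_u, h_conj_u] at this
    convert this using 2 <;> simp [M.tits] <;> field_simp

theorem YZ (h : M.Bi β M.Y M.Z) : ∀ a ∈ M.Y, ∀ b ∈ M.Z, β a b = 1 := by
  rintro _ ⟨y, z, rfl⟩ _ ⟨z', rfl⟩
  rw [show M.u 0 y z = M.u 0 0 z * M.u 0 y 0 by simp [u_zero_mul], h.left _ (M.u_mem_Y _ _) _ (M.u_mem_Y _ _) _
    (M.u_mem_Z _), (h.mono M.Z_le_Y le_rfl).ZZ hq _ (M.u_mem_Z _) _ (M.u_mem_Z _), one_mul]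
  refine h.eq_one_of_ε (M.u_mem_Y _ _) (M.u_mem_Z _) (M.ε_mul_u_y _) (M.u_zero_cube _ _) (by simp [ε_conj_u, u_mem_Z]) ?_
  rw [← mul_eq_left (a := β _ 1), ε_conj_u, neg_zero, u_zero_mul, add_zero, neg_add_cancel, u_zero,
    ← h.right _ (M.u_mem_Y _ _) _ (one_mem _) _ (one_mem _), mul_one]

theorem YY (h : M.Bi β M.Y M.Y) : ∀ a ∈ M.Y, ∀ b ∈ M.Y, β a b = 1 := by
  obtain ⟨a, h0, h1, h2, -⟩ := exists_a (M := M) hq
  have e : ∀ y z, M.u 0 y z = M.u 0 0 z * M.u 0 y 0 := by simp [u_zero_mul]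
  have hl := fun x x' y => h.left _ (M.u_mem_Y x 0) _ (M.u_mem_Y x' 0) _ (M.u_mem_Y y 0)
  have hr := fun x y y' => h.right _ (M.u_mem_Y x 0) _ (M.u_mem_Y y 0) _ (M.u_mem_Y y' 0)
  simp only [u_zero_mul, add_zero] at hl hr
  rintro _ ⟨y, z, rfl⟩ _ ⟨y', z', rfl⟩
  rw [e y', h.right _ (M.u_mem_Y _ _) _ (M.u_mem_Y _ _) _ (M.u_mem_Y _ _),
    (h.mono le_rfl M.Z_le_Y).YZ hq _ (M.u_mem_Y _ _) _ (M.u_mem_Z _), e y,
    h.left _ (M.u_mem_Y _ _) _ (M.u_mem_Y _ _) _ (M.u_mem_Y _ _),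
    (h.swap.mono le_rfl M.Z_le_Y).YZ hq _ (M.u_mem_Y _ _) _ (M.u_mem_Z _), one_mul, one_mul]
  refine form_eq_one (γ := fun z z' => β (M.u 0 z 0) (M.u 0 z' 0)) (f := id) hl hr (fun _ h => h)
    (fun k hk x y => ?_) h0 h1 h2 y y'
  have key : ∀ (t : Fˣ) x y, β (M.u 0 (t ^ 2 * x) 0) (M.u 0 (t ^ 2 * y) 0) = β (M.u 0 x 0) (M.u 0 y 0) := by
    intro t x y
    have := h.conj (Units.map σ t / t) _ (M.u_mem_Y x 0) _ (M.u_mem_Y y 0)
    have h0 := σ_ne_zero (σ := σ) t.ne_zero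
    rw [h_conj_u, h_conj_u] at this
    convert this using 2 <;> simp [M.tits] <;> field_simp
  obtain ⟨t, ht | ht⟩ := exists_sq_or M.tits (Units.mk0 k hk) <;> obtain rfl : k = _ := congrArg Units.val ht
  · exact key t x y
  · have e1 := hl (-x) x (-y)
    have e2 := hr x y (-y)
    rw [neg_add_cancel, add_zero' (g := fun x => β (M.u 0 x 0) (M.u 0 (-y) 0)) fun a b => hl a b _] at e1
    rw [add_neg_cancel, add_zero' (g := fun y => β (M.u 0 x 0) (M.u 0 y 0)) (hr x)] at e2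
    simpa using (key t (-x) (-y)).trans (mul_right_cancel (e1.symm.trans e2))

omit hq in
theorem right_u (h : M.Bi β A M.U) (h' : ∀ a ∈ A, ∀ b ∈ M.Y, β a b = 1) {a : G} (ha : a ∈ A) (b y z : F) :
    β a (M.u b y z) = β a (M.u b 0 0) := by
  rw [show M.u b y z = M.u 0 y (z + b * y) * M.u b 0 0 by simp [u_mul],
    h.right _ ha _ (M.u_mem_U _ _ _) _ (M.u_mem_U _ _ _), h' _ ha _ (M.u_mem_Y _ _), one_mul]

omit hq in
theorem right_add (h : M.Bi β A M.U) (h' : ∀ a ∈ A, ∀ b ∈ M.Y, β a b = 1) {a : G} (ha : a ∈ A) (b b' : F) :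
    β a (M.u (b + b') 0 0) = β a (M.u b 0 0) * β a (M.u b' 0 0) := by
  rw [← h.right _ ha _ (M.u_mem_U _ _ _) _ (M.u_mem_U _ _ _), u_mul, h.right_u h' ha (b + b') (0 + 0 - _)]

theorem ZU (h : M.Bi β M.Z M.U) : ∀ a ∈ M.Z, ∀ b ∈ M.U, β a b = 1 := by
  obtain ⟨a, h0, h1, -, h2⟩ := exists_a (M := M) hq
  have h' : ∀ a ∈ M.Z, ∀ b ∈ M.Y, β a b = 1 := fun a ha b hb => (h.swap.mono M.Y_le_U le_rfl).YZ hq b hb a ha
  rintro _ ⟨z, rfl⟩ _ ⟨b, y, z', rfl⟩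
  rw [h.right_u h' (M.u_mem_Z _)]
  refine form_eq_one (γ := fun z b => β (M.u 0 0 z) (M.u b 0 0)) (f := fun k => k ^ 2 / σ k) (fun x x' y => ?_)
    (fun x => h.right_add h' (M.u_mem_Z x)) (fun k hk => div_ne_zero (pow_ne_zero _ hk) (σ_ne_zero hk))
    (fun k hk x y => ?_) h0 h1 h2 z b
  · simpa [u_zero_mul] using h.left _ (M.u_mem_Z x) _ (M.u_mem_Z x') _ (M.u_mem_U y 0 0)
  · have := h.conj (Units.mk0 k hk ^ 2 / Units.map σ (Units.mk0 k hk)) _ (M.u_mem_Z x) _ (M.u_mem_U y 0 0)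
    have h0 := σ_ne_zero (σ := σ) hk
    rw [h_conj_u, h_conj_u] at this
    convert this using 2 <;> simp [M.tits] <;> field_simp

theorem YU (h : M.Bi β M.Y M.U) : ∀ a ∈ M.Y, ∀ b ∈ M.U, β a b = 1 := by
  have h' := (h.mono le_rfl M.Y_le_U).YY hq
  rintro _ ⟨y, z, rfl⟩ _ ⟨b, y', z', rfl⟩
  rw [show M.u 0 y z = M.u 0 0 z * M.u 0 y 0 by simp [u_zero_mul], h.left _ (M.u_mem_Y _ _) _ (M.u_mem_Y _ _) _
    (M.u_mem_U _ _ _), (h.mono M.Z_le_Y le_rfl).ZU hq _ (M.u_mem_Z _) _ (M.u_mem_U _ _ _), one_mul]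
  refine h.eq_one_of_ε (M.u_mem_Y _ _) (M.u_mem_U _ _ _) (M.ε_mul_u_y _) (M.u_zero_cube _ _)
    (by simp [ε_conj_u, u_mem_U]) (h' _ (M.u_mem_Y _ _) _ ?_)
  rw [ε_conj_u, u_mul, u_mem_Y_iff, neg_add_cancel]

theorem UU (h : M.Bi β M.U M.U) : ∀ a ∈ M.U, ∀ b ∈ M.U, β a b = 1 := by
  obtain ⟨a, h0, h1, h2, -⟩ := exists_a (M := M) hq
  have h' : ∀ a ∈ M.U, ∀ b ∈ M.Y, β a b = 1 := fun a ha b hb => (h.swap.mono M.Y_le_U le_rfl).YU hq b hb a ha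
  have h'' : ∀ a ∈ M.U, ∀ b ∈ M.Y, β b a = 1 := fun a ha b hb => (h.mono M.Y_le_U le_rfl).YU hq b hb a ha
  rintro _ ⟨b, y, z, rfl⟩ _ ⟨b', y', z', rfl⟩
  rw [h.right_u h' (M.u_mem_U _ _ _), h.swap.right_u h'' (M.u_mem_U _ _ _)]
  refine form_eq_one (γ := fun b b' => β (M.u b 0 0) (M.u b' 0 0)) (f := id)
    (fun x x' y => h.swap.right_add h'' (M.u_mem_U y 0 0) x x') (fun x => h.right_add h' (M.u_mem_U x 0 0))
    (fun _ h => h) (fun k hk x y => ?_) h0 h1 h2 b b'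
  simpa [h_conj_u] using h.conj (Units.mk0 k hk) _ (M.u_mem_U x 0 0) _ (M.u_mem_U y 0 0)

end Bi

variable {π : Γ →* G} (hπ : IsStemExtension π)

theorem bi_cm {A B : Subgroup G} (h : ∀ a ∈ A, ∀ b ∈ B, a * b = b * a) : M.Bi (cm hπ) A B := by
  have key : ∀ a ∈ A, ∀ b ∈ B, π (cm hπ a b) = 1 := fun a ha b hb => by
    rw [σ_cm, commutatorElement_eq_one_iff_mul_comm, h a ha b hb]
  exact ⟨fun a ha a' ha' b hb => by rw [cm_mul_left, conj_of_ker hπ (key _ ha' _ hb), comm_of_ker hπ (key _ ha _ hb)],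
    fun a ha b hb b' hb' => by rw [cm_mul_right, conj_of_ker hπ (key _ ha _ hb')],
    fun l a ha b hb => by rw [cm_conj, conj_of_ker hπ (key _ ha _ hb)]⟩

theorem commutator_mem_Y {a b : G} (ha : a ∈ M.U) (hb : b ∈ M.U) : ⁅a, b⁆ ∈ M.Y := by
  obtain ⟨a, y, z, rfl⟩ := ha
  obtain ⟨b, v, w, rfl⟩ := hb
  simp [commutatorElement_def, u_inv, u_mul, u_mem_Y_iff]

theorem commutator_mem_Z {a b : G} (ha : a ∈ M.Y) (hb : b ∈ M.U) : ⁅a, b⁆ ∈ M.Z := by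
  obtain ⟨y, z, rfl⟩ := ha
  obtain ⟨b, v, w, rfl⟩ := hb
  rw [commutatorElement_def, mul_assoc, mul_assoc, ← mul_assoc (M.u b v w), u_zero_inv, u_conj_u_zero, u_zero_mul]
  simp [u_mem_Z_iff]

include hπ in
theorem eq_one_of_mem_commutator (hq : 3 < Nat.card F) {z : Γ} (hz : π z = 1)
    (hz' : z ∈ ⁅M.U.comap π, M.U.comap π⁆) : z = 1 := by
  have cY : ∀ a b : Γ, π a ∈ M.Y → π b ∈ M.Y → a * b = b * a := fun a b ha hb => by
    rw [← commutatorElement_eq_one_iff_mul_comm, ← cm_eq hπ]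
    exact (M.bi_cm hπ fun _ ha _ hb => M.Y_comm ha hb).YY hq _ ha _ hb
  have cZ : ∀ a b : Γ, π a ∈ M.Z → π b ∈ M.U → a * b = b * a := fun a b ha hb => by
    rw [← commutatorElement_eq_one_iff_mul_comm, ← cm_eq hπ]
    exact (M.bi_cm hπ fun _ ha _ hb => M.Z_comm_U ha hb).ZU hq _ ha _ hb
  obtain ⟨a, ha⟩ := M.exists_σ_ne hq
  let l₀ := Units.mk0 a (by rintro rfl; simp at ha)
  have h1 : 1 - a * σ a ≠ 0 := fun h => by
    rcases M.eq_of_mul_σ (sub_eq_zero.mp h).symm with rfl | rfl <;> simp at ha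
  have h2 : 1 - a ^ 2 * σ a ≠ 0 := fun h => by
    obtain rfl := M.eq_of_sq_mul_σ (sub_eq_zero.mp h).symm
    simp at ha
  let ψ : G → Γ := fun g => cm hπ (M.u 0 (M.ρ g 3 5 / (1 - a * σ a)) (-M.ρ g 3 6 / (1 - a ^ 2 * σ a))) (M.h l₀)
  have ψu : ∀ y z, ψ (M.u 0 y z) = cm hπ (M.u 0 (y / (1 - a * σ a)) (z / (1 - a ^ 2 * σ a))) (M.h l₀) :=
    fun y z => by simp [ψ, ρ_u, uMat]
  have πψ : ∀ g ∈ M.Y, π (ψ g) = g := by
    rintro _ ⟨y, z, rfl⟩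
    rw [ψu, σ_cm, commutatorElement_def, mul_assoc, mul_assoc, ← mul_assoc (M.h l₀), u_zero_inv, h_conj_u, mul_zero,
      u_zero_mul]
    congr 1 <;> simp only [l₀, Units.val_mk0] <;> field_simp <;> ring
  have ψmul : ∀ g ∈ M.Y, ∀ g' ∈ M.Y, ψ (g * g') = ψ g * ψ g' := by
    rintro _ ⟨y, z, rfl⟩ _ ⟨y', z', rfl⟩
    rw [cY _ _ (by rw [πψ _ (M.u_mem_Y _ _)]; exact M.u_mem_Y _ _) (by rw [πψ _ (M.u_mem_Y _ _)]; exact M.u_mem_Y _ _),
      u_zero_mul, ψu, add_div, add_div, ← u_zero_mul, cm_mul_left, ← ψu, ← ψu,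
      cY (lft hπ _) _ (by rw [σ_lft]; exact M.u_mem_Y _ _) (by rw [πψ _ (M.u_mem_Y _ _)]; exact M.u_mem_Y _ _),
      mul_inv_cancel_right]
  have ψconj : ∀ l, ∀ g ∈ M.Y, ψ (M.h l * g * (M.h l)⁻¹) = lft hπ (M.h l) * ψ g * (lft hπ (M.h l))⁻¹ := by
    rintro l _ ⟨y, z, rfl⟩
    rw [h_conj_u, mul_zero, ψu, ψu, ← cm_conj, h_conj_u, mul_zero, M.h_comm, mul_inv_cancel_right, mul_div_assoc,
      mul_div_assoc]
  let p : Γ → Γ := fun x => x * (ψ (π x))⁻¹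
  have πp : ∀ x, π x ∈ M.Y → π (p x) = 1 := fun x hx => by simp [p, πψ _ hx]
  have pmul : ∀ x y, π x ∈ M.Y → π y ∈ M.Y → p (x * y) = p x * p y := fun x y hx hy => by
    rw [comm_of_ker hπ (πp y hy), ← mul_assoc, ← comm_of_ker hπ (πp y hy)]
    simp only [p, map_mul, ψmul _ hx _ hy, mul_inv_rev, mul_assoc]
  have p1 : p 1 = 1 := by simpa using pmul 1 1 (by simp) (by simp)
  have pinv : ∀ x, π x ∈ M.Y → p x = 1 → p x⁻¹ = 1 := fun x hx h => by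
    have := pmul x x⁻¹ hx (by simpa)
    rwa [mul_inv_cancel, p1, h, one_mul, eq_comm] at this
  have pconj : ∀ l a b, ⁅a, b⁆ ∈ M.Y → p (cm hπ (M.h l * a * (M.h l)⁻¹) (M.h l * b * (M.h l)⁻¹)) = p (cm hπ a b) :=
    fun l a b h => by
      rw [← conj_of_ker hπ (πp (cm hπ a b) (by rwa [σ_cm])) (lft hπ (M.h l)), cm_conj]
      simp only [p, map_mul, map_inv, σ_lft, σ_cm, ψconj _ _ h]
      group
  have hY := fun {a b} ha hb => σ_cm hπ a b ▸ M.commutator_mem_Y ha hb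
  have k1 := Bi.YU hq (β := fun a b => p (cm hπ a b)) ⟨fun a ha a' ha' b hb => by
      rw [cm_mul_left, cY (lft hπ a) _ (by rwa [σ_lft]) (hY (M.Y_le_U ha') hb), mul_inv_cancel_right,
        cY _ _ (hY (M.Y_le_U ha') hb) (hY (M.Y_le_U ha) hb), pmul _ _ (hY (M.Y_le_U ha) hb) (hY (M.Y_le_U ha') hb)],
    fun a ha b hb b' hb' => by
      rw [cm_mul_right, ← cZ _ (lft hπ b) (σ_cm hπ a b' ▸ M.commutator_mem_Z ha hb') (by rwa [σ_lft]), mul_inv_cancel_right,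
        pmul _ _ (hY (M.Y_le_U ha) hb) (hY (M.Y_le_U ha) hb')],
    fun l a ha b hb => pconj l a b (M.commutator_mem_Y (M.Y_le_U ha) hb)⟩
  have pU : ∀ x, π x ∈ M.Y → ∀ g ∈ M.U, π (lft hπ g * x * (lft hπ g)⁻¹) ∈ M.Y ∧
      p (lft hπ g * x * (lft hπ g)⁻¹) = p x := fun x hx g hg => by
    refine ⟨by simpa [σ_lft] using M.conj_mem_Y (M.U_le_B hg) hx, ?_⟩
    have h3 := hY (M.Y_le_U hx) hg
    rw [show lft hπ g * x * (lft hπ g)⁻¹ = (cm hπ (π x) g)⁻¹ * x by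
      conv_rhs => rw [← σ_lft hπ g, cm_eq]
      simp [commutatorElement_def, mul_assoc], pmul _ _ (by simpa using h3) hx, pinv _ h3 (k1 _ hx _ hg), one_mul]
  have k2 := Bi.UU hq (β := fun a b => p (cm hπ a b)) ⟨fun a ha a' ha' b hb => by
      rw [cm_mul_left, pmul _ _ (pU _ (hY ha' hb) _ ha).1 (hY ha hb), (pU _ (hY ha' hb) _ ha).2,
        comm_of_ker hπ (πp _ (hY ha hb))],
    fun a ha b hb b' hb' => by
      rw [cm_mul_right, pmul _ _ (hY ha hb) (pU _ (hY ha hb') _ hb).1, (pU _ (hY ha hb') _ hb).2],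
    fun l a ha b hb => pconj l a b (M.commutator_mem_Y ha hb)⟩
  let W : Subgroup Γ :=
    { carrier := {x | π x ∈ M.Y ∧ p x = 1}
      one_mem' := ⟨by simp, p1⟩
      mul_mem' := fun {x y} hx hy => ⟨by simpa using mul_mem hx.1 hy.1, by rw [pmul _ _ hx.1 hy.1, hx.2, hy.2, one_mul]⟩
      inv_mem' := fun {x} hx => ⟨by simpa using hx.1, pinv _ hx.1 hx.2⟩ }
  have h3 := (commutator_le (H₃ := W)).mpr (fun x hx y hy => cm_eq hπ x y ▸ ⟨hY hx hy, k2 _ hx _ hy⟩) hz'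
  simp only [p, map_one, one_mul, inv_eq_one] at p1
  simpa [p, hz, p1] using h3.2

theorem cm_ε_w : cm hπ M.ε M.w = 1 := by
  have key := fun g (h : M.ε * g = g * M.ε) => conj_of_ker hπ (z := cm hπ M.ε g)
    (by rwa [σ_cm, commutatorElement_eq_one_iff_mul_comm])
  have h1 := cm_conj hπ (M.u 0 1 0) M.ε M.t
  rw [← ε_mul_u_y, u_mul_t, mul_inv_cancel_right, mul_inv_cancel_right, cm_mul_right, key _ M.t_mul_ε.symm,
    key _ M.t_mul_ε.symm] at h1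
  exact mul_eq_right.mp h1

include M hπ in
theorem comm_of_isPGroup_two {P : Subgroup G} (hP : IsPGroup 2 P) {a b : Γ} (ha : π a ∈ P) (hb : π b ∈ P) :
    ⁅a, b⁆ = 1 := by
  rw [← cm_eq hπ]
  by_cases h : π a = 1 ∨ π b = 1 ∨ π a = π b
  · rcases h with h | h | h <;> rw [h]
    · simpa using cm_eq hπ 1 b
    · simpa using cm_eq hπ a 1
    · simp [cm]
  rw [not_or, not_or] at h
  have h2 := fun {g} hg (h1 : g ≠ 1) => orderOf_eq_prime ((sq g).trans (M.sq_eq_one_of_isPGroup hP hg)) h1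
  obtain ⟨M', hV⟩ := M.exists_V_eq (CL.Four.isKleinFour_closure (h2 ha h.1) (h2 hb h.2.1) h.2.2
    (M.comm_of_isPGroup hP ha hb)).card_four
  have h3 : M'.V = (closure {lft hπ M'.ε, lft hπ M'.w}).map π := by
    simp [V, MonoidHom.map_closure, Set.image_pair, σ_lft]
  obtain ⟨x, hx, e⟩ := (h3 ▸ hV).ge (subset_closure (Or.inl rfl))
  obtain ⟨y, hy, e'⟩ := (h3 ▸ hV).ge (subset_closure (Or.inr rfl))
  have h4 := commutatorElement_eq_one_iff_mul_comm.mp (M'.cm_ε_w hπ)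
  rw [← e, ← e', cm_eq, commutatorElement_eq_one_iff_mul_comm]
  exact congrArg Subtype.val ((isMulCommutative_closure (by
    rintro _ (rfl | rfl) _ (rfl | rfl) <;> first | rfl | exact h4 | exact h4.symm)).is_comm.comm ⟨x, hx⟩ ⟨y, hy⟩)

include M in
theorem ker_eq_bot (hq : 3 < Nat.card F) {Γ : Type u} [Group Γ] [Finite Γ] {π : Γ →* G} (hπ : IsStemExtension π) :
    π.ker = ⊥ := by
  have := M.finite_G
  rw [eq_bot_iff]
  intro z hz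
  refine mem_of_forall_prime ⊥ z fun p hp m k hk => ?_
  have hzm : z ^ m ∈ π.ker := pow_mem hz m
  have := Fact.mk hp
  obtain ⟨P⟩ : Nonempty (Sylow p G) := inferInstance
  rcases (show p = 2 ∨ p = 3 ∨ 3 < p by have := hp.two_le; omega) with rfl | rfl | h3
  · refine (commutator_le.mpr fun a ha b hb => M.comm_of_isPGroup_two hπ P.isPGroup' ha hb)
      (mem_of_index hπ hp ((P : Subgroup G).comap π) ?_ hzm hk)
    rw [map_comap_eq_self_of_surjective hπ.1]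
    exact P.not_dvd_index
  · refine M.eq_one_of_mem_commutator hπ hq hzm (mem_of_index hπ hp _ ?_ hzm hk)
    rw [map_comap_eq_self_of_surjective hπ.1]
    exact M.not_three_dvd_index_U
  · have := M.isCyclic_sylow hq h3 P
    obtain ⟨y, -, hy⟩ := pbound_of_isCyclic hp (P : Subgroup G) P.not_dvd_index Γ π hπ
    simpa using hy _ hzm ⟨k, hk⟩

end Model

end CL.Ree
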