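import Cfsg.Agent.CHEV.RankOneQuad

/-! Abstract root subgroups (Timmesfeld, ch. II, section 2): first lemmas. -/

set_option autoImplicit false
open Cfsg CL.RankOne

namespace CL.RootSub

variable {G : Type*} [Group G]

/-- elementwise commuting subgroups -/
def Comm (A B : Subgroup G) : Prop := ∀ a ∈ A, ∀ b ∈ B, a * b = b * a

theorem comm_iff {A B : Subgroup G} : ⁅A, B⁆ = ⊥ ↔ Comm A B := by
  rw [Subgroup.commutator_eq_bot_iff_le_centralizer]
  constructor
  · intro h a ha b hb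
    exact (Subgroup.mem_centralizer_iff.1 (h ha) b hb).symm
  · intro h a ha
    exact Subgroup.mem_centralizer_iff.2 fun b hb => (h a ha b hb).symm

theorem comm_iff_le {A B : Subgroup G} : Comm A B ↔ A ≤ Subgroup.centralizer (B : Set G) := by
  rw [← comm_iff, Subgroup.commutator_eq_bot_iff_le_centralizer]

namespace Comm

variable {A B C : Subgroup G}

theorem symm (h : Comm A B) : Comm B A := fun b hb a ha => (h a ha b hb).symm

theorem mono {A' B' : Subgroup G} (h : Comm A B) (hA : A' ≤ A) (hB : B' ≤ B) : Comm A' B' :=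
  fun a ha b hb => h a (hA ha) b (hB hb)

theorem sup_left (h : Comm A C) (h' : Comm B C) : Comm (A ⊔ B) C :=
  comm_iff_le.2 (sup_le (comm_iff_le.1 h) (comm_iff_le.1 h'))

theorem sup_right (h : Comm A B) (h' : Comm A C) : Comm A (B ⊔ C) := (h.symm.sup_left h'.symm).symm

theorem conj (h : Comm A B) (g : G) : Comm (conjBy A g) (conjBy B g) := by
  rw [← comm_iff, ← conjBy_commutator, comm_iff.2 h, conjBy_bot]

theorem of_conj {g : G} (h : Comm (conjBy A g) (conjBy B g)) : Comm A B := by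
  have := h.conj g⁻¹
  rwa [conjBy_inv_conjBy, conjBy_inv_conjBy] at this

theorem conjBy_eq (h : Comm A B) {b : G} (hb : b ∈ B) : conjBy A b = A := by
  ext x
  rw [mem_conjBy]
  constructor
  · intro hx
    have := h _ hx b hb
    have e : x = b⁻¹ * x * b := by
      calc x = b * (b⁻¹ * x * b) * b⁻¹ := by group
        _ = _ := by rw [← this]; group
    rwa [e]
  · intro hx
    rwa [mul_assoc, h x hx b hb, inv_mul_cancel_left]

theorem not_pair (h : Comm A B) : ¬ IsRankOnePair A B := fun hp => commutator_ne_bot hp (comm_iff.2 h)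

end Comm

theorem conjBy_eq_of_forall_comm {A : Subgroup G} {g : G} (h : ∀ a ∈ A, a * g = g * a) : conjBy A g = A := by
  have : Comm A (Subgroup.zpowers g) := by
    rintro a ha _ ⟨k, rfl⟩
    exact (Commute.zpow_right (h a ha) k).eq
  exact this.conjBy_eq (Subgroup.mem_zpowers g)

theorem cm_mem {A B : Subgroup G} {a b : G} (ha : a ∈ A) (hb : b ∈ B) : a * b * a⁻¹ * b⁻¹ ∈ ⁅A, B⁆ :=
  Subgroup.commutator_mem_commutator ha hb

theorem mem_sup_comm {A B : Subgroup G} (h : Comm A B) {x : G} :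
    x ∈ A ⊔ B ↔ ∃ a ∈ A, ∃ b ∈ B, x = a * b := by
  constructor
  · intro hx
    refine sup_induction hx ⟨1, one_mem _, 1, one_mem _, by simp⟩
      (fun a ha => ⟨a, ha, 1, one_mem _, by simp⟩) (fun b hb => ⟨1, one_mem _, b, hb, by simp⟩) ?_
    rintro _ _ - - ⟨a, ha, b, hb, rfl⟩ ⟨a', ha', b', hb', rfl⟩
    refine ⟨a * a', mul_mem ha ha', b * b', mul_mem hb hb', ?_⟩
    rw [mul_assoc, ← mul_assoc b, ← h a' ha' b hb]; group
  · rintro ⟨a, ha, b, hb, rfl⟩
    exact mul_mem (Subgroup.mem_sup_left ha) (Subgroup.mem_sup_right hb)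

section RCC

variable {S : Set (Subgroup G)} {A B : Subgroup G} (h : RootCommutatorCase S A B)
include h

theorem rcc_comm_left : Comm ⁅A, B⁆ A := fun c hc a ha => h.2.1 c hc a (Subgroup.mem_sup_left ha)

theorem rcc_comm_right : Comm ⁅A, B⁆ B := fun c hc b hb => h.2.1 c hc b (Subgroup.mem_sup_right hb)

theorem rcc_mul_right {a b b' : G} (ha : a ∈ A) (hb : b ∈ B) (hb' : b' ∈ B) :
    a * (b * b') * a⁻¹ * (b * b')⁻¹ = (a * b * a⁻¹ * b⁻¹) * (a * b' * a⁻¹ * b'⁻¹) := by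
  have := rcc_comm_right h _ (cm_mem ha hb') _ (inv_mem hb)
  calc a * (b * b') * a⁻¹ * (b * b')⁻¹ = a * b * a⁻¹ * (a * b' * a⁻¹ * b'⁻¹ * b⁻¹) := by group
    _ = _ := by rw [this]; group

theorem rcc_mul_left {a a' b : G} (ha : a ∈ A) (ha' : a' ∈ A) (hb : b ∈ B) :
    (a * a') * b * (a * a')⁻¹ * b⁻¹ = (a' * b * a'⁻¹ * b⁻¹) * (a * b * a⁻¹ * b⁻¹) := by
  have := rcc_comm_left h _ (cm_mem ha' hb) _ ha
  calc (a * a') * b * (a * a')⁻¹ * b⁻¹ = a * (a' * b * a'⁻¹ * b⁻¹) * (b * a⁻¹ * b⁻¹) := by group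
    _ = _ := by rw [← this]; group

theorem rcc_inv_right {a b : G} (ha : a ∈ A) (hb : b ∈ B) :
    a * b⁻¹ * a⁻¹ * b⁻¹⁻¹ = (a * b * a⁻¹ * b⁻¹)⁻¹ := by
  rw [eq_inv_iff_mul_eq_one, ← rcc_mul_right h ha (inv_mem hb) hb]; group

theorem rcc_inv_left {a b : G} (ha : a ∈ A) (hb : b ∈ B) :
    a⁻¹ * b * a⁻¹⁻¹ * b⁻¹ = (a * b * a⁻¹ * b⁻¹)⁻¹ := by
  rw [eq_inv_iff_mul_eq_one, ← rcc_mul_left h ha (inv_mem ha) hb]; group

theorem rcc_exists_right {a e : G} (ha : a ∈ A) (ha1 : a ≠ 1) (he : e ∈ ⁅A, B⁆) :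
    ∃ b ∈ B, e = a * b * a⁻¹ * b⁻¹ := by
  rw [← h.2.2.1 a ha ha1] at he
  induction he using Subgroup.closure_induction with
  | mem x hx => obtain ⟨b, hb, rfl⟩ := hx; exact ⟨b, hb, rfl⟩
  | one => exact ⟨1, one_mem _, by simp⟩
  | mul x y _ _ hx hy =>
    obtain ⟨b, hb, rfl⟩ := hx; obtain ⟨b', hb', rfl⟩ := hy
    exact ⟨b * b', mul_mem hb hb', (rcc_mul_right h ha hb hb').symm⟩
  | inv x _ hx =>
    obtain ⟨b, hb, rfl⟩ := hx
    exact ⟨b⁻¹, inv_mem hb, (rcc_inv_right h ha hb).symm⟩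

theorem rcc_symm : RootCommutatorCase S B A := by
  refine ⟨by rw [Subgroup.commutator_comm]; exact h.1, ?_, ?_, ?_⟩
  · rw [Subgroup.commutator_comm, sup_comm]; exact h.2.1
  · intro b hb hb1
    rw [Subgroup.commutator_comm, ← h.2.2.2 b hb hb1, ← Subgroup.closure_inv]
    congr 1
    ext x
    simp only [Set.mem_inv, Set.mem_image]
    constructor
    · rintro ⟨a, ha, e⟩; exact ⟨a, ha, by rw [← inv_inv x, ← e]; group⟩
    · rintro ⟨a, ha, rfl⟩; exact ⟨a, ha, by group⟩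
  · intro a ha ha1
    rw [Subgroup.commutator_comm, ← h.2.2.1 a ha ha1, ← Subgroup.closure_inv]
    congr 1
    ext x
    simp only [Set.mem_inv, Set.mem_image]
    constructor
    · rintro ⟨a, ha, e⟩; exact ⟨a, ha, by rw [← inv_inv x, ← e]; group⟩
    · rintro ⟨a, ha, rfl⟩; exact ⟨a, ha, by group⟩

theorem rcc_exists_left {b e : G} (hb : b ∈ B) (hb1 : b ≠ 1) (he : e ∈ ⁅A, B⁆) :
    ∃ a ∈ A, e = a * b * a⁻¹ * b⁻¹ := by
  obtain ⟨a, ha, e'⟩ := rcc_exists_right (rcc_symm h) hb hb1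
    (by rw [Subgroup.commutator_comm]; exact inv_mem he)
  exact ⟨a, ha, by rw [← inv_inv e, e']; group⟩

/-- `a e` is a `B`-conjugate of `a` -/
theorem rcc_mul_eq_conj {a e : G} (ha : a ∈ A) (ha1 : a ≠ 1) (he : e ∈ ⁅A, B⁆) :
    ∃ b ∈ B, a * e = b * a * b⁻¹ := by
  obtain ⟨b, hb, e'⟩ := rcc_exists_right h ha ha1 (inv_mem he)
  refine ⟨b, hb, ?_⟩
  rw [← rcc_comm_left h e he a ha, ← inv_inv e, e']; group

theorem rcc_conj_eq {a b : G} (ha : a ∈ A) (hb : b ∈ B) : b * a * b⁻¹ = a * (a * b * a⁻¹ * b⁻¹)⁻¹ := by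
  rw [← rcc_comm_left h _ (inv_mem (cm_mem ha hb)) a ha]; group

theorem rcc_conjBy_le {b : G} (hb : b ∈ B) : conjBy A b ≤ A ⊔ ⁅A, B⁆ := by
  rintro _ ⟨a, ha, rfl⟩
  simp only [MulEquiv.coe_toMonoidHom, MulAut.conj_apply]
  rw [rcc_conj_eq h ha hb]
  exact mul_mem (Subgroup.mem_sup_left ha) (Subgroup.mem_sup_right (inv_mem (cm_mem ha hb)))

theorem rcc_sup_conjBy {b : G} (hb : b ∈ B) (hb1 : b ≠ 1) : A ⊔ conjBy A b = A ⊔ ⁅A, B⁆ := by
  refine le_antisymm (sup_le le_sup_left (rcc_conjBy_le h hb)) (sup_le le_sup_left fun e he => ?_)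
  obtain ⟨a, ha, rfl⟩ := rcc_exists_left h hb hb1 he
  have := mul_mem (Subgroup.mem_sup_left (T := conjBy A b) ha)
    (Subgroup.mem_sup_right (conj_mem_conjBy (inv_mem ha) b))
  simpa only [mul_assoc] using this

theorem rcc_conjBy_line {b : G} (hb : b ∈ B) : conjBy (A ⊔ ⁅A, B⁆) b = A ⊔ ⁅A, B⁆ := by
  have key : ∀ b ∈ B, conjBy (A ⊔ ⁅A, B⁆) b ≤ A ⊔ ⁅A, B⁆ := fun b hb => by
    rw [conjBy_sup, (rcc_comm_right h).conjBy_eq hb]
    exact sup_le (rcc_conjBy_le h hb) le_sup_right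
  refine le_antisymm (key b hb) ?_
  have := conjBy_mono (key _ (inv_mem hb)) b
  rwa [conjBy_conjBy_inv] at this

end RCC

variable {S : Set (Subgroup G)} (hS : IsRootSubgroupSet S)
include hS

theorem self_comm {A : Subgroup G} (hA : A ∈ S) : Comm A A :=
  fun _ ha _ hb => comm_of_isMulCommutative (hS.commutative A hA) ha hb

theorem exists_ne_one {A : Subgroup G} (hA : A ∈ S) : ∃ a ∈ A, a ≠ 1 :=
  (Subgroup.bot_or_exists_ne_one A).resolve_left (hS.ne_bot A hA)

theorem trichotomy {A B : Subgroup G} (hA : A ∈ S) (hB : B ∈ S) :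
    Comm A B ∨ IsRankOnePair A B ∨ RootCommutatorCase S A B := by
  rw [← comm_iff]; exact hS.pair A hA B hB

theorem rcc_not_comm {A B : Subgroup G} (h : RootCommutatorCase S A B) : ¬ Comm A B :=
  fun hc => hS.ne_bot _ h.1 (comm_iff.2 hc)

theorem rcc_comm_conjBy {A B : Subgroup G} (hA : A ∈ S) (h : RootCommutatorCase S A B) {b : G}
    (hb : b ∈ B) : Comm A (conjBy A b) :=
  ((self_comm hS hA).sup_right (rcc_comm_left h).symm).mono le_rfl (rcc_conjBy_le h hb)

theorem comm_conjBy_of_not_pair {A C : Subgroup G} (hA : A ∈ S) (hC : C ∈ S)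
    (h : ¬ IsRankOnePair A C) {c : G} (hc : c ∈ C) : Comm A (conjBy A c) := by
  rcases trichotomy hS hA hC with h' | h' | h'
  · rw [h'.conjBy_eq hc]; exact self_comm hS hA
  · exact absurd h' h
  · exact rcc_comm_conjBy hS hA h' hc

theorem pair_of_not_comm {A C : Subgroup G} (hA : A ∈ S) (hC : C ∈ S) {c : G} (hc : c ∈ C)
    (h : ¬ Comm A (conjBy A c)) : IsRankOnePair A C := by
  by_contra h'
  exact h (comm_conjBy_of_not_pair hS hA hC h' hc)

theorem rcc_not_pair {A B : Subgroup G} (hA : A ∈ S) (h : RootCommutatorCase S A B) :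
    ¬ IsRankOnePair A B := by
  intro hp
  obtain ⟨b, hb, hb1⟩ := exists_ne_one_right hp
  have hs := RankOnePair_symm hp
  refine (rcc_comm_conjBy hS hA h hb).not_pair (pair_of_mem_unipotent hp (left_mem_unipotent A B)
    (conjBy_mem_unipotent (left_mem_unipotent A B) (Subgroup.mem_sup_right hb)) ?_)
  exact fun e => hb1 (eq_one_of_conjBy_eq hs hb e.symm)

omit hS in
theorem pair_conjBy_self {A B : Subgroup G} (hp : IsRankOnePair A B) {b : G} (hb : b ∈ B) (hb1 : b ≠ 1) :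
    IsRankOnePair A (conjBy A b) :=
  pair_of_mem_unipotent hp (left_mem_unipotent A B)
    (conjBy_mem_unipotent (left_mem_unipotent A B) (Subgroup.mem_sup_right hb))
    fun e => hb1 (eq_one_of_conjBy_eq (RankOnePair_symm hp) hb e.symm)

omit hS in
theorem sup_conjBy_self {A B : Subgroup G} (hp : IsRankOnePair A B) {b : G} (hb : b ∈ B) (hb1 : b ≠ 1) :
    A ⊔ conjBy A b = A ⊔ B :=
  sup_eq_of_mem_unipotent hp (left_mem_unipotent A B)
    (conjBy_mem_unipotent (left_mem_unipotent A B) (Subgroup.mem_sup_right hb))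
    (pair_conjBy_self hp hb hb1).ne

/-- If an element `c` of a member `C` conjugates `B` as a nontrivial element of an opposite `A` does,
then `C` is a unipotent subgroup of `⟨A, B⟩` other than `B`. -/
theorem mem_unipotent_of_conj_eq {A B C : Subgroup G} (hB : B ∈ S) (hC : C ∈ S)
    (hp : IsRankOnePair B A) {a c : G} (ha : a ∈ A) (ha1 : a ≠ 1) (hc : c ∈ C)
    (e : conjBy B c = conjBy B a) : IsRankOnePair B C ∧ C ∈ unipotentSubgroups B A := by
  have h1 := pair_conjBy_self hp ha ha1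
  have hBC : IsRankOnePair B C := pair_of_not_comm hS hB hC hc (by rw [e]; exact Comm.not_pair.mt (not_not.2 h1))
  refine ⟨hBC, ?_⟩
  have hc1 : c ≠ 1 := by rintro rfl; rw [conjBy_one] at e; exact h1.ne e
  have e2 : B ⊔ C = B ⊔ A := by rw [← sup_conjBy_self hBC hc hc1, e, sup_conjBy_self hp ha ha1]
  obtain ⟨x, hx, e3⟩ := right_mem_unipotent hBC
  exact ⟨x, e2 ▸ hx, e3⟩

/-- the commutator case is recognised by `⁅A, B⁆ ∈ S` -/
theorem rcc_of_mem {A B : Subgroup G} (hA : A ∈ S) (hB : B ∈ S) (hE : ⁅A, B⁆ ∈ S) :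
    RootCommutatorCase S A B := by
  rcases trichotomy hS hA hB with h | h | h
  · exact absurd (comm_iff.2 h) (hS.ne_bot _ hE)
  · exfalso
    obtain ⟨a, ha, ha1⟩ := exists_ne_one_left h
    obtain ⟨b, hb, hb1⟩ := exists_ne_one_right h
    have hc : b * a * b⁻¹ * a⁻¹ ∈ ⁅A, B⁆ := by rw [Subgroup.commutator_comm]; exact cm_mem hb ha
    -- `A` normalizes `⁅A, B⁆`
    have hn : conjBy ⁅A, B⁆ a = ⁅A, B⁆ :=
      conjBy_eq_self_iff.2 (Subgroup.normalizer_commutator_ge_left A B ha)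
    have hnp : ¬ IsRankOnePair A ⁅A, B⁆ := fun hp => ha1 (eq_one_of_conjBy_eq hp ha hn)
    have h1 := comm_conjBy_of_not_pair hS hA hE hnp hc
    rw [← conjBy_conjBy, conjBy_of_mem (inv_mem ha)] at h1
    have hp := pair_conjBy_self h hb hb1
    have := pair_conjBy_self hp (conj_mem_conjBy ha b) (by simpa using ha1)
    exact h1.not_pair this
  · exact h

theorem rcc_conj {A B : Subgroup G} (hA : A ∈ S) (hB : B ∈ S) (h : RootCommutatorCase S A B) (g : G) :
    RootCommutatorCase S (conjBy A g) (conjBy B g) :=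
  rcc_of_mem hS (hS.conj_mem A hA g) (hS.conj_mem B hB g)
    (by rw [← conjBy_commutator]; exact hS.conj_mem _ h.1 g)

/-- (2.2): no central translate of a root element of `A` is a root element. -/
theorem eq_one_of_mul_mem {A B C : Subgroup G} (hB : B ∈ S) (hp : IsRankOnePair A B)
    {z a : G} (hzA : ∀ a ∈ A, a * z = z * a) (hzB : ∀ b ∈ B, b * z = z * b) (ha : a ∈ A) (ha1 : a ≠ 1)
    (hC : C ∈ S) (hza : a * z ∈ C) : z = 1 := by
  have hs := RankOnePair_symm hp
  have e : conjBy B (a * z) = conjBy B a := by rw [← conjBy_conjBy, conjBy_eq_of_forall_comm hzB]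
  obtain ⟨h1, h2⟩ := mem_unipotent_of_conj_eq hS hB hC hs ha ha1 hza e
  have e' : conjBy A (a * z) = A := by
    rw [← conjBy_conjBy, conjBy_eq_of_forall_comm hzA, conjBy_of_mem ha]
  by_cases hCA : C = A
  · rw [hCA] at hza
    have hz : z ∈ A := by simpa using mul_mem (inv_mem ha) hza
    exact eq_one_of_commute hp hz fun b hb => (hzB b hb).symm
  · exfalso
    have := eq_one_of_mem_of_conjBy_eq hs h2 (right_mem_unipotent hs) hCA hza e'
    rw [this, conjBy_one] at e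
    exact ha1 (eq_one_of_conjBy_eq hp ha e.symm)

/-- `A` has an opposite member -/
def HasOpp (S : Set (Subgroup G)) (A : Subgroup G) : Prop := ∃ B ∈ S, IsRankOnePair A B

omit hS in
theorem hasOpp_iff {A : Subgroup G} (hA : A ∈ S) : ¬ IsIsolatedIn (FAdj S) S A ↔ HasOpp S A := by
  constructor
  · intro h
    by_contra hno
    exact h ⟨hA, fun C => ⟨fun h => hno ⟨C, h.2.1, h.2.2⟩, fun h => hno ⟨C, h.1, RankOnePair_symm h.2.2⟩⟩⟩
  · rintro ⟨B, hB, hp⟩ h
    exact (h.2 B).1 ⟨hA, hB, hp⟩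

theorem HasOpp.conj {A : Subgroup G} (h : HasOpp S A) (g : G) : HasOpp S (conjBy A g) := by
  obtain ⟨B, hB, hp⟩ := h
  exact ⟨_, hS.conj_mem B hB g, conjBy_pair hp g⟩

/-- trivial intersection property -/
theorem ti {A C : Subgroup G} (h : HasOpp S A) (hC : C ∈ S) {a : G} (ha : a ∈ A) (hc : a ∈ C)
    (ha1 : a ≠ 1) : A = C := by
  obtain ⟨B, hB, hp⟩ := h
  have hs := RankOnePair_symm hp
  obtain ⟨-, h2⟩ := mem_unipotent_of_conj_eq hS hB hC hs ha ha1 hc rfl
  exact eq_of_mem_of_mem_unipotent hs (right_mem_unipotent hs) h2 ha hc ha1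

/-- (2.1): a member inside a rank one group is a unipotent subgroup or centralizes it. -/
theorem mem_unipotent_or_comm {C D E : Subgroup G} (hC : C ∈ S) (hp : IsRankOnePair C D) (hE : E ∈ S)
    (hle : E ≤ C ⊔ D) : E ∈ unipotentSubgroups C D ∨ Comm E (C ⊔ D) := by
  by_cases h : ∃ C' ∈ unipotentSubgroups C D, IsRankOnePair C' E
  · left
    obtain ⟨C', hC', hp'⟩ := h
    obtain ⟨x, hx, rfl⟩ := right_mem_unipotent hp'
    exact conjBy_mem_unipotent hC' (sup_le (le_sup_of_mem_unipotent hC') hle hx)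
  · right
    push Not at h
    have hn : ∀ C' ∈ unipotentSubgroups C D, ∀ e ∈ E, conjBy C' e = C' := by
      intro C' hC' e he
      have hC'S : C' ∈ S := by obtain ⟨x, -, rfl⟩ := hC'; exact hS.conj_mem C hC x
      by_contra hne
      exact (comm_conjBy_of_not_pair hS hC'S hE (h C' hC') he).not_pair
        (pair_of_mem_unipotent hp hC' (conjBy_mem_unipotent hC' (hle he)) (Ne.symm hne))
    have key : ∀ {C' D' : Subgroup G}, C' ∈ unipotentSubgroups C D → D' ∈ unipotentSubgroups C D →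
        C' ≠ D' → Comm E C' := by
      intro C' D' hC' hD' hne e he c hc
      have h1 : e * c * e⁻¹ * c⁻¹ ∈ C' := by
        refine mul_mem ?_ (inv_mem hc)
        rw [← hn C' hC' e he]; exact conj_mem_conjBy hc e
      have h2 : conjBy D' (e * c * e⁻¹ * c⁻¹) = D' := by
        rw [← conjBy_conjBy, ← conjBy_conjBy,
          hn _ (conjBy_mem_unipotent hD' (inv_mem (le_sup_of_mem_unipotent hC' hc))) _ (inv_mem he),
          ← conjBy_conjBy, conjBy_conjBy_inv, hn D' hD' e he]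
      have h3 := eq_one_of_mem_of_conjBy_eq hp hC' hD' hne h1 h2
      calc e * c = (e * c * e⁻¹ * c⁻¹) * (c * e) := by group
        _ = c * e := by rw [h3, one_mul]
    exact (key (left_mem_unipotent C D) (right_mem_unipotent hp) hp.ne).sup_right
      (key (right_mem_unipotent hp) (left_mem_unipotent C D) hp.ne.symm)

end CL.RootSub
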