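import Mathlib
import Cfsg.Agent.CHEV.QuadPair4
import Cfsg.Agent.CHEV.RootSub

/-!
# Examples of root subgroups: one-parameter groups `1 + c α` with `α² = 0`
-/

set_option autoImplicit false

namespace CL.RootEx

open Cfsg CL.Quad CL.RankOne
open scoped commutatorElement MatrixGroups

variable {k F A G : Type*} [Field k] [Field F] [Ring A] [Algebra F A] [Group G]

/-- the one-parameter group of `α` -/
def rg (ψ : k →+* F) (j : G →* A) (α : A) : Subgroup G :=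
  Subgroup.closure {g | ∃ c : k, j g = 1 + ψ c • α}

/-- opposite elements -/
def Opp (ψ : k →+* F) (α β : A) : Prop :=
  ∃ l : k, l ≠ 0 ∧ α * β * α = ψ l • α ∧ β * α * β = ψ l • β

/-- the axioms -/
structure Sys (ψ : k →+* F) (j : G →* A) (𝒜 : Set A) : Prop where
  inj : Function.Injective j
  sq : ∀ α ∈ 𝒜, α * α = 0
  ne : ∀ α ∈ 𝒜, α ≠ 0
  ex : ∀ α ∈ 𝒜, ∀ c : k, ∃ g, j g = 1 + ψ c • α
  conj : ∀ α ∈ 𝒜, ∀ g, j g * α * j g⁻¹ ∈ 𝒜
  tri : ∀ α ∈ 𝒜, ∀ β ∈ 𝒜, α * β = β * α ∨ Opp ψ α β ∨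
    (α * β * α = 0 ∧ β * α * β = 0 ∧ α * β - β * α ∈ 𝒜)

variable {ψ : k →+* F} {j : G →* A} {𝒜 : Set A}

theorem Opp.symm {α β : A} (h : Opp ψ α β) : Opp ψ β α := by
  obtain ⟨l, h1, h2, h3⟩ := h
  exact ⟨l, h1, h3, h2⟩

theorem j_inv {α : A} (hα : α * α = 0) {g : G} {c : F} (h : j g = 1 + c • α) :
    j g⁻¹ = 1 + (-c) • α := by
  have h1 : j g * (1 + (-c) • α) = 1 := by
    rw [h]; simp [add_mul, mul_add, hα]
  calc j g⁻¹ = j g⁻¹ * (j g * (1 + (-c) • α)) := by rw [h1, mul_one]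
    _ = _ := by rw [← mul_assoc, ← map_mul, inv_mul_cancel, map_one, one_mul]

theorem mem_rg {α : A} (hα : α * α = 0) {g : G} : g ∈ rg ψ j α ↔ ∃ c : k, j g = 1 + ψ c • α := by
  refine ⟨fun hg => ?_, fun h => Subgroup.subset_closure h⟩
  induction hg using Subgroup.closure_induction with
  | mem g hg => exact hg
  | one => exact ⟨0, by simp⟩
  | mul g h _ _ hg hh =>
    obtain ⟨c, hc⟩ := hg
    obtain ⟨d, hd⟩ := hh
    refine ⟨c + d, ?_⟩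
    rw [map_mul, hc, hd]; simp [add_mul, mul_add, hα, add_smul, add_assoc]
  | inv g _ hg =>
    obtain ⟨c, hc⟩ := hg
    exact ⟨-c, by rw [j_inv hα hc, map_neg]⟩

theorem rg_smul (α : A) {c : k} (hc : c ≠ 0) : rg ψ j (ψ c • α) = rg ψ j α := by
  unfold rg
  congr 1
  ext g
  constructor
  · rintro ⟨d, hd⟩
    exact ⟨d * c, by rw [hd, smul_smul, map_mul]⟩
  · rintro ⟨d, hd⟩
    exact ⟨d * c⁻¹, by rw [hd, smul_smul, ← map_mul, inv_mul_cancel_right₀ hc]⟩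

theorem conjBy_rg {α : A} (hα : α * α = 0) (g : G) :
    conjBy (rg ψ j α) g = rg ψ j (j g * α * j g⁻¹) := by
  have e1 : j g⁻¹ * j g = 1 := by rw [← map_mul, inv_mul_cancel, map_one]
  have e2 : j g * j g⁻¹ = 1 := by rw [← map_mul, mul_inv_cancel, map_one]
  have h2 : j g * α * j g⁻¹ * (j g * α * j g⁻¹) = 0 := by
    calc _ = j g * α * (j g⁻¹ * j g) * α * j g⁻¹ := by simp only [mul_assoc]
      _ = 0 := by rw [e1, mul_one, mul_assoc _ α α, hα]; simp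
  ext x
  rw [CL.RankOne.mem_conjBy, mem_rg hα, mem_rg h2]
  refine exists_congr fun c => ⟨fun h => ?_, fun h => ?_⟩
  · calc j x = j g * j (g⁻¹ * x * g) * j g⁻¹ := by rw [← map_mul, ← map_mul]; congr 1; group
      _ = _ := by rw [h]; simp [mul_add, add_mul, e2]
  · rw [map_mul, map_mul, h]
    simp only [mul_add, add_mul, mul_one, e1, mul_smul_comm, smul_mul_assoc]
    congr 2
    calc _ = (j g⁻¹ * j g) * α * (j g⁻¹ * j g) := by simp only [mul_assoc]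
      _ = α := by rw [e1, one_mul, mul_one]

theorem rg_subgroupOf {α : A} (hα : α * α = 0) (H : Subgroup G) :
    (rg ψ j α).subgroupOf H = rg ψ (j.comp H.subtype) α := by
  ext x
  rw [Subgroup.mem_subgroupOf, mem_rg hα, mem_rg hα]
  rfl

namespace Sys

variable (h : Sys ψ j 𝒜)
include h

theorem comm {α β : A} (hα : α ∈ 𝒜) (hβ : β ∈ 𝒜) (hc : α * β = β * α) :
    CL.RootSub.Comm (rg ψ j α) (rg ψ j β) := by
  intro a ha b hb
  obtain ⟨c, hc'⟩ := (mem_rg (h.sq α hα)).1 ha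
  obtain ⟨d, hd⟩ := (mem_rg (h.sq β hβ)).1 hb
  apply h.inj
  rw [map_mul, map_mul, hc', hd]
  simp only [add_mul, mul_add, one_mul, mul_one, smul_mul_smul_comm, hc, mul_comm (ψ c)]
  abel

theorem eq_one_iff {α : A} (hα : α ∈ 𝒜) {g : G} {c : k} (hg : j g = 1 + ψ c • α) :
    g = 1 ↔ c = 0 := by
  rw [← h.inj.eq_iff, hg, map_one]
  simp [h.ne α hα]

theorem ne_bot {α : A} (hα : α ∈ 𝒜) : rg ψ j α ≠ ⊥ := by
  obtain ⟨g, hg⟩ := h.ex α hα 1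
  exact (Subgroup.ne_bot_iff_exists_ne_one).2
    ⟨⟨g, (mem_rg (h.sq α hα)).2 ⟨1, hg⟩⟩, fun e =>
      one_ne_zero ((h.eq_one_iff hα hg).1 (congrArg Subtype.val e))⟩

theorem psl2 {α β : A} (hα : α ∈ 𝒜) (hβ : β ∈ 𝒜) (ho : Opp ψ α β) :
    IsPSL2PairOver k (rg ψ j α) (rg ψ j β) ∧ IsRankOnePair (rg ψ j α) (rg ψ j β) := by
  obtain ⟨l, hl, h1, h2⟩ := ho
  have hl' : ψ l ≠ 0 := (map_ne_zero ψ).2 hl
  let θ : k →+ A := ((algebraMap F A).comp ψ).toAddMonoidHom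
  have hθ : ∀ c x, θ c * x = ψ c • x := fun c x => (Algebra.smul_def _ _).symm
  have hd : SLData θ α (ψ l⁻¹ • β) := by
    refine ⟨h.sq α hα, by simp [h.sq β hβ], ?_, ?_, fun x y => map_mul ((algebraMap F A).comp ψ) x y,
      by simp [hθ], by simp [hθ], fun x => (Algebra.commutes _ _).symm,
      fun x => (Algebra.commutes _ _).symm⟩
    · rw [mul_smul_comm, smul_mul_assoc, h1, smul_smul, map_inv₀, inv_mul_cancel₀ hl', one_smul]
    · rw [mul_smul_comm, smul_mul_assoc, smul_mul_assoc, h2, smul_smul (ψ l⁻¹) (ψ l), map_inv₀,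
        inv_mul_cancel₀ hl', one_smul]
  have hinj := hd.injective fun x hx => by
    rw [hθ] at hx
    simpa [h.ne α hα] using hx
  have hj' : Function.Injective j.toHomUnits := fun x y e => h.inj (congrArg Units.val e)
  have hr : hd.hom.range ≤ j.toHomUnits.range := by
    refine range_le_of_elem _ (fun r => ?_) (fun r => ?_)
    · obtain ⟨g, hg⟩ := h.ex α hα r
      exact ⟨g, Units.ext (by rw [hd.hom_E12, hθ]; exact hg)⟩
    · obtain ⟨g, hg⟩ := h.ex β hβ (r * l⁻¹)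
      exact ⟨g, Units.ext (by rw [hd.hom_E21, hθ, smul_smul, ← map_mul]; exact hg)⟩
  let φ : SL(2, k) →* G := (MonoidHom.ofInjective hj').symm.toMonoidHom.comp
    (hd.hom.codRestrict _ fun g => hr ⟨g, rfl⟩)
  have hφ : ∀ g, j (φ g) = hd.hom g := fun g =>
    congrArg Units.val (MonoidHom.apply_ofInjective_symm hj' ⟨hd.hom g, hr ⟨g, rfl⟩⟩)
  have hφi : Function.Injective φ := fun x y e => hinj (Units.ext (by rw [← hφ, ← hφ, e]))
  have e1 : (upperUnipotentSL2 k).map φ = rg ψ j α := by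
    ext g
    rw [mem_rg (h.sq α hα)]
    constructor
    · rintro ⟨x, hx, rfl⟩
      obtain ⟨t, rfl⟩ := mem_upperUnipotent.1 hx
      exact ⟨t, by rw [hφ, show CL.SL2Hom.upper t = E12 t from rfl, hd.hom_E12, hθ]⟩
    · rintro ⟨c, hc⟩
      exact ⟨E12 c, mem_upperUnipotent.2 ⟨c, rfl⟩, h.inj (by rw [hφ, hd.hom_E12, hθ, hc])⟩
  have e2 : (lowerUnipotentSL2 k).map φ = rg ψ j β := by
    rw [← rg_smul β (inv_ne_zero hl)]
    ext g
    rw [mem_rg hd.bb]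
    constructor
    · rintro ⟨x, hx, rfl⟩
      obtain ⟨t, rfl⟩ := mem_lowerUnipotent.1 hx
      exact ⟨t, by rw [hφ, show CL.SL2Hom.lower t = E21 t from rfl, hd.hom_E21, hθ]⟩
    · rintro ⟨c, hc⟩
      exact ⟨E21 c, mem_lowerUnipotent.2 ⟨c, rfl⟩, h.inj (by rw [hφ, hd.hom_E21, hθ, hc])⟩
  refine ⟨⟨φ, ?_, ?_, e1, e2⟩, ?_⟩
  · rw [← e1, ← e2, ← Subgroup.map_sup, upper_sup_lower, MonoidHom.range_eq_map]
  · rw [(MonoidHom.ker_eq_bot_iff φ).2 hφi]; exact bot_le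
  · rw [← e1, ← e2]
    exact map_pair special_sl2.1.1 φ fun e => special_sl2.1.1.ne (Subgroup.map_injective hφi e)

theorem rcc {α β : A} (hα : α ∈ 𝒜) (hβ : β ∈ 𝒜) (h1 : α * β * α = 0) (h2 : β * α * β = 0)
    (h3 : α * β - β * α ∈ 𝒜) : RootCommutatorCase (rg ψ j '' 𝒜) (rg ψ j α) (rg ψ j β) := by
  have aa := h.sq α hα
  have bb := h.sq β hβ
  have key : ∀ {a b : G} {c d : k}, j a = 1 + ψ c • α → j b = 1 + ψ d • β →
      j (a * b * a⁻¹ * b⁻¹) = 1 + ψ (c * d) • (α * β - β * α) := by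
    intro a b c d ha hb
    have aa' : ∀ x, α * (α * x) = 0 := fun x => by rw [← mul_assoc, aa, zero_mul]
    have bb' : ∀ x, β * (β * x) = 0 := fun x => by rw [← mul_assoc, bb, zero_mul]
    have h1' : α * (β * α) = 0 := by rw [← mul_assoc, h1]
    have h2' : β * (α * β) = 0 := by rw [← mul_assoc, h2]
    rw [map_mul, map_mul, map_mul, j_inv aa ha, j_inv bb hb, ha, hb, map_mul]
    simp only [add_mul, mul_add, one_mul, mul_one, smul_mul_assoc, mul_smul_comm, mul_assoc, aa, bb,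
      aa', bb', h1', h2', mul_zero, smul_zero, add_zero]
    module
  have hle : ⁅rg ψ j α, rg ψ j β⁆ ≤ rg ψ j (α * β - β * α) := by
    rw [Subgroup.commutator_le]
    intro a ha b hb
    obtain ⟨c, hc⟩ := (mem_rg aa).1 ha
    obtain ⟨d, hd⟩ := (mem_rg bb).1 hb
    exact (mem_rg (h.sq _ h3)).2 ⟨_, key hc hd⟩
  have hA : ∀ a ∈ rg ψ j α, a ≠ 1 → rg ψ j (α * β - β * α) ≤
      Subgroup.closure ((fun b : G => a * b * a⁻¹ * b⁻¹) '' (rg ψ j β : Set G)) := by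
    intro a ha ha1 g hg
    obtain ⟨c, hc⟩ := (mem_rg aa).1 ha
    obtain ⟨e, he⟩ := (mem_rg (h.sq _ h3)).1 hg
    have hc0 : c ≠ 0 := fun e => ha1 ((h.eq_one_iff hα hc).2 e)
    obtain ⟨b, hb⟩ := h.ex β hβ (c⁻¹ * e)
    refine Subgroup.subset_closure ⟨b, (mem_rg bb).2 ⟨_, hb⟩, h.inj ?_⟩
    rw [key hc hb, he, mul_inv_cancel_left₀ hc0]
  have hB : ∀ b ∈ rg ψ j β, b ≠ 1 → rg ψ j (α * β - β * α) ≤
      Subgroup.closure ((fun a : G => a * b * a⁻¹ * b⁻¹) '' (rg ψ j α : Set G)) := by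
    intro b hb hb1 g hg
    obtain ⟨c, hc⟩ := (mem_rg bb).1 hb
    obtain ⟨e, he⟩ := (mem_rg (h.sq _ h3)).1 hg
    have hc0 : c ≠ 0 := fun e => hb1 ((h.eq_one_iff hβ hc).2 e)
    obtain ⟨a, ha⟩ := h.ex α hα (e * c⁻¹)
    refine Subgroup.subset_closure ⟨a, (mem_rg aa).2 ⟨_, ha⟩, h.inj ?_⟩
    rw [key ha hc, he, inv_mul_cancel_right₀ hc0]
  have hA' : ∀ a ∈ rg ψ j α, Subgroup.closure ((fun b : G => a * b * a⁻¹ * b⁻¹) ''
      (rg ψ j β : Set G)) ≤ ⁅rg ψ j α, rg ψ j β⁆ := fun a ha =>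
    (Subgroup.closure_le _).2 (by rintro _ ⟨b, hb, rfl⟩; exact Subgroup.commutator_mem_commutator ha hb)
  have hB' : ∀ b ∈ rg ψ j β, Subgroup.closure ((fun a : G => a * b * a⁻¹ * b⁻¹) ''
      (rg ψ j α : Set G)) ≤ ⁅rg ψ j α, rg ψ j β⁆ := fun b hb =>
    (Subgroup.closure_le _).2 (by rintro _ ⟨a, ha, rfl⟩; exact Subgroup.commutator_mem_commutator ha hb)
  have heq : ⁅rg ψ j α, rg ψ j β⁆ = rg ψ j (α * β - β * α) := by
    obtain ⟨a, ha, ha1⟩ := (Subgroup.bot_or_exists_ne_one _).resolve_left (h.ne_bot hα)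
    exact le_antisymm hle ((hA a ha ha1).trans (hA' a ha))
  refine ⟨⟨_, h3, heq.symm⟩, ?_, fun a ha ha1 => le_antisymm (hA' a ha) (hle.trans (hA a ha ha1)),
    fun b hb hb1 => le_antisymm (hB' b hb) (hle.trans (hB b hb hb1))⟩
  rw [heq]
  refine (h.comm h3 hα ?_).sup_right (h.comm h3 hβ ?_)
  · rw [sub_mul, mul_sub, h1, mul_assoc β, aa, ← mul_assoc, ← mul_assoc, aa, h1]; simp
  · rw [sub_mul, mul_sub, h2, mul_assoc α, bb, ← mul_assoc, ← mul_assoc, bb, h2]; simp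

theorem isRootSubgroupSet (hgen : ⨆ α ∈ 𝒜, rg ψ j α = ⊤) : IsRootSubgroupSet (rg ψ j '' 𝒜) where
  commutative := by
    rintro _ ⟨α, hα, rfl⟩
    exact ⟨⟨fun a b => Subtype.ext (h.comm hα hα rfl a a.2 b b.2)⟩⟩
  ne_bot := by rintro _ ⟨α, hα, rfl⟩; exact h.ne_bot hα
  generates := by rwa [iSup_image]
  conj_mem := by
    rintro _ ⟨α, hα, rfl⟩ g
    exact ⟨_, h.conj α hα g, (conjBy_rg (h.sq α hα) g).symm⟩
  pair := by
    rintro _ ⟨α, hα, rfl⟩ _ ⟨β, hβ, rfl⟩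
    rcases h.tri α hα β hβ with h1 | h1 | h1
    · exact Or.inl (CL.RootSub.comm_iff.2 (h.comm hα hβ h1))
    · exact Or.inr (Or.inl (h.psl2 hα hβ h1).2)
    · exact Or.inr (Or.inr (h.rcc hα hβ h1.1 h1.2.1 h1.2.2))

theorem isKRootSubgroupSet (hgen : ⨆ α ∈ 𝒜, rg ψ j α = ⊤) : IsKRootSubgroupSet k (rg ψ j '' 𝒜) := by
  refine ⟨h.isRootSubgroupSet hgen, ?_⟩
  rintro _ ⟨α, hα, rfl⟩ _ ⟨β, hβ, rfl⟩ hp
  rcases h.tri α hα β hβ with h1 | h1 | h1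
  · exact absurd hp (h.comm hα hβ h1).not_pair
  · exact (h.psl2 hα hβ h1).1
  · exact absurd hp (CL.RootSub.rcc_not_pair (h.isRootSubgroupSet hgen) ⟨α, hα, rfl⟩
      (h.rcc hα hβ h1.1 h1.2.1 h1.2.2))

theorem degenerate (hgen : ⨆ α ∈ 𝒜, rg ψ j α = ⊤)
    (h2 : ∀ α ∈ 𝒜, ∀ β ∈ 𝒜, α * β = β * α ∨ Opp ψ α β) : IsDegenerateRootSet (rg ψ j '' 𝒜) := by
  rintro _ ⟨α, hα, rfl⟩ _ ⟨β, hβ, rfl⟩ hp
  rcases h2 α hα β hβ with h1 | h1
  · exact CL.RootSub.rcc_not_comm (h.isRootSubgroupSet hgen) hp (h.comm hα hβ h1)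
  · exact CL.RootSub.rcc_not_pair (h.isRootSubgroupSet hgen) ⟨α, hα, rfl⟩ hp (h.psl2 hα hβ h1).2

theorem connected (hc : ∀ α ∈ 𝒜, ∀ β ∈ 𝒜,
    Relation.ReflTransGen (fun α β => α ∈ 𝒜 ∧ β ∈ 𝒜 ∧ Opp ψ α β) α β) :
    IsConnectedFamily (FAdj (rg ψ j '' 𝒜)) (rg ψ j '' 𝒜) := by
  rintro _ ⟨α, hα, rfl⟩ _ ⟨β, hβ, rfl⟩
  have := hc α hα β hβ
  clear hβ
  induction this with
  | refl => exact .refl
  | tail _ h1 ih => exact ih.tail ⟨⟨_, h1.1, rfl⟩, ⟨_, h1.2.1, rfl⟩, (h.psl2 h1.1 h1.2.1 h1.2.2).2⟩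

theorem sub (H : Subgroup G) (hH : ∀ α ∈ 𝒜, rg ψ j α ≤ H) : Sys ψ (j.comp H.subtype) 𝒜 where
  inj := h.inj.comp H.subtype_injective
  sq := h.sq
  ne := h.ne
  ex α hα c := by
    obtain ⟨g, hg⟩ := h.ex α hα c
    exact ⟨⟨g, hH α hα ((mem_rg (h.sq α hα)).2 ⟨c, hg⟩)⟩, hg⟩
  conj α hα g := h.conj α hα g
  tri := h.tri

theorem image_sub (H : Subgroup G) :
    (fun B : Subgroup G => B.subgroupOf H) '' (rg ψ j '' 𝒜) = rg ψ (j.comp H.subtype) '' 𝒜 := by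
  rw [Set.image_image]
  exact Set.image_congr fun α hα => rg_subgroupOf (h.sq α hα) H

theorem sub_gen : ⨆ α ∈ 𝒜, rg ψ (j.comp (⨆ B ∈ rg ψ j '' 𝒜, B).subtype) α = ⊤ := by
  set H := ⨆ B ∈ rg ψ j '' 𝒜, B with hH
  have hle : ∀ α ∈ 𝒜, rg ψ j α ≤ H := fun α hα =>
    le_iSup₂ (f := fun B (_ : B ∈ rg ψ j '' 𝒜) => B) _ ⟨α, hα, rfl⟩
  apply Subgroup.map_injective H.subtype_injective
  rw [← MonoidHom.range_eq_map, Subgroup.range_subtype]
  simp only [Subgroup.map_iSup]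
  conv_rhs => rw [hH, iSup_image]
  refine iSup_congr fun α => iSup_congr fun hα => ?_
  rw [← rg_subgroupOf (h.sq α hα), Subgroup.subgroupOf_map_subtype, inf_eq_left.2 (hle α hα)]

theorem sub' : Sys ψ (j.comp (⨆ B ∈ rg ψ j '' 𝒜, B).subtype) 𝒜 :=
  h.sub _ fun α hα => le_iSup₂ (f := fun B (_ : B ∈ rg ψ j '' 𝒜) => B) _ ⟨α, hα, rfl⟩

end Sys

theorem isConjClass_of_connected {S : Set (Subgroup G)} (hne : S.Nonempty)
    (hc : IsConnectedFamily (FAdj S) S) : IsConjClassOfSubgroups S := by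
  refine ⟨hne, fun B hB C hC => ?_⟩
  have := hc B hB C hC
  clear hC
  induction this with
  | refl => exact ⟨1, (conjBy_one _).symm⟩
  | tail _ h1 ih =>
    obtain ⟨g, rfl⟩ := ih
    obtain ⟨x, -, hx, -⟩ := exists_swap h1.2.2
    exact ⟨x * g, by rw [← hx, conjBy_conjBy]⟩

end CL.RootEx
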