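import Mathlib
import Cfsg.Agent.CHEV.RootEx
import Cfsg.Agent.INV.InvCalc
import Cfsg.Agent.CLAS.SLBasic

/-!
# Examples of root subgroups: root involutions, transvections of the special linear group
-/

set_option autoImplicit false

namespace CL.RootEx

open Cfsg CL.Quad CL.RankOne CL.SL2Hom
open scoped commutatorElement MatrixGroups

section Inv

variable {k F A G : Type*} [Field k] [Field F] [Ring A] [Algebra F A] [Group G]
variable {ψ : k →+* F} {j : G →* A} {𝒜 : Set A}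

theorem odd_upper_lower [Finite k] [CharP k 2] {c d : k} (hc : c ≠ 0) (hd : d ≠ 0) :
    Odd (orderOf (upper c * lower d : SL(2, k))) := by
  have h2 : (2 : k) = 0 := CharTwo.two_eq_zero
  have hu : (upper c * upper c : SL(2, k)) = 1 := by
    ext i j; fin_cases i <;> fin_cases j <;> simp [coe_upper, ← two_mul, h2]
  have hl : (lower d * lower d : SL(2, k)) = 1 := by
    ext i j; fin_cases i <;> fin_cases j <;> simp [coe_lower, ← two_mul, h2]
  rcases Nat.even_or_odd (orderOf (upper c * lower d : SL(2, k))) with ⟨m, hm⟩ | h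
  swap
  · exact h
  have h0 : m ≠ 0 := by
    rintro rfl
    exact (orderOf_pos _).ne' hm
  obtain ⟨h1, h3, h4⟩ := CL.Inv.central_involution_of_even hu hl (by rw [hm, two_mul]) h0
  generalize (upper c * lower d : SL(2, k)) ^ m = z at h1 h3 h4
  exfalso
  refine CL.Inv.ne_one_of_orderOf_two h1 ?_
  have e1 := congrArg (fun g : SL(2, k) => g.1 0 0) h3.eq
  have e2 := congrArg (fun g : SL(2, k) => g.1 0 1) h3.eq
  have e3 := congrArg (fun g : SL(2, k) => g.1 0 0) h4.eq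
  have e4 := z.2
  simp [coe_upper, coe_lower, Matrix.mul_apply, Fin.sum_univ_two, hc, hd] at e1 e2 e3
  rw [Matrix.det_fin_two, e1, e3] at e4
  have e5 : z.1 1 1 = z.1 0 0 := mul_left_cancel₀ hc (by linear_combination e2)
  have e6 : z.1 0 0 = 1 := by
    have : (z.1 0 0 - 1) ^ 2 = 0 := by
      rw [e5] at e4; linear_combination e4 + (1 - z.1 0 0) * h2
    exact sub_eq_zero.1 (pow_eq_zero_iff two_ne_zero |>.1 this)
  ext i j; fin_cases i <;> fin_cases j <;> simp [e1, e3, e5, e6]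

/-- the non-identity elements -/
def inv (ψ : k →+* F) (j : G →* A) (𝒜 : Set A) : Set G := {g | g ≠ 1 ∧ ∃ α ∈ 𝒜, g ∈ rg ψ j α}

namespace Sys

variable (h : Sys ψ j 𝒜)
include h

theorem mul_self [CharP k 2] {α : A} (hα : α ∈ 𝒜) {g : G} (hg : g ∈ rg ψ j α) : g * g = 1 := by
  obtain ⟨c, hc⟩ := (mem_rg (h.sq α hα)).1 hg
  apply h.inj
  rw [map_mul, hc, map_one]
  have : ψ c + ψ c = 0 := by rw [← map_add, CharTwo.add_self_eq_zero, map_zero]
  simp [add_mul, mul_add, h.sq α hα, add_assoc, ← add_smul, this]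

theorem exists_of_opp {α β : A} (hα : α ∈ 𝒜) (hβ : β ∈ 𝒜) (ho : Opp ψ α β) {a b : G}
    (ha : a ∈ rg ψ j α) (hb : b ∈ rg ψ j β) (ha1 : a ≠ 1) (hb1 : b ≠ 1) :
    ∃ c d : k, c ≠ 0 ∧ d ≠ 0 ∧ orderOf (a * b) ∣ orderOf (upper c * lower d : SL(2, k)) := by
  obtain ⟨φ, -, -, h1, h2⟩ := (h.psl2 hα hβ ho).1
  rw [← h1] at ha
  rw [← h2] at hb
  obtain ⟨x, hx, rfl⟩ := ha
  obtain ⟨y, hy, rfl⟩ := hb
  obtain ⟨c, rfl⟩ := mem_upperUnipotent.1 hx
  obtain ⟨d, rfl⟩ := mem_lowerUnipotent.1 hy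
  refine ⟨c, d, ?_, ?_, by rw [← map_mul]; exact orderOf_map_dvd _ _⟩
  · rintro rfl
    refine ha1 ?_
    rw [← map_one φ]; congr 1
    ext i j; fin_cases i <;> fin_cases j <;> simp [coe_upper]
  · rintro rfl
    refine hb1 ?_
    rw [← map_one φ]; congr 1
    ext i j; fin_cases i <;> fin_cases j <;> simp [coe_lower]

theorem four_of_rcc [CharP k 2] {α β : A} (hα : α ∈ 𝒜) (hβ : β ∈ 𝒜) (h1 : α * β * α = 0)
    (h2 : β * α * β = 0) (h3 : α * β - β * α ∈ 𝒜) {a b : G}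
    (ha : a ∈ rg ψ j α) (hb : b ∈ rg ψ j β) (ha1 : a ≠ 1) (hb1 : b ≠ 1) :
    orderOf (a * b) = 4 ∧ (a * b) ^ 2 ∈ inv ψ j 𝒜 := by
  have aa := h.sq α hα
  have bb := h.sq β hβ
  obtain ⟨c, hc⟩ := (mem_rg aa).1 ha
  obtain ⟨d, hd⟩ := (mem_rg bb).1 hb
  have hc0 : c ≠ 0 := fun e => ha1 ((h.eq_one_iff hα hc).2 e)
  have hd0 : d ≠ 0 := fun e => hb1 ((h.eq_one_iff hβ hd).2 e)
  have key : j (a * b * a⁻¹ * b⁻¹) = 1 + ψ (c * d) • (α * β - β * α) := by
    have h1' : α * (β * α) = 0 := by rw [← mul_assoc, h1]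
    have h2' : β * (α * β) = 0 := by rw [← mul_assoc, h2]
    rw [map_mul, map_mul, map_mul, j_inv aa hc, j_inv bb hd, hc, hd, map_mul]
    simp only [add_mul, mul_add, one_mul, mul_one, smul_mul_assoc, mul_smul_comm, mul_assoc, aa, bb,
      h1', h2', mul_zero, smul_zero, add_zero]
    module
  rw [inv_eq_of_mul_eq_one_right (h.mul_self hα ha), inv_eq_of_mul_eq_one_right (h.mul_self hβ hb),
    show a * b * a * b = (a * b) ^ 2 by rw [pow_two, mul_assoc (a * b)]] at key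
  have hm : (a * b) ^ 2 ∈ rg ψ j (α * β - β * α) := (mem_rg (h.sq _ h3)).2 ⟨_, key⟩
  have hne : (a * b) ^ 2 ≠ 1 := fun e => mul_ne_zero hc0 hd0 ((h.eq_one_iff h3 key).1 e)
  refine ⟨?_, hne, _, h3, hm⟩
  have := h.mul_self h3 hm
  rw [← pow_add] at this
  exact orderOf_eq_prime_pow (p := 2) (n := 1) (by simpa using hne) this

theorem isRootInvolutionSet [Finite k] [CharP k 2] (hgen : ⨆ α ∈ 𝒜, rg ψ j α = ⊤) :
    IsRootInvolutionSet (inv ψ j 𝒜) where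
  orderOf_eq := by
    rintro d ⟨h1, α, hα, hd⟩
    exact CL.Inv.orderOf_eq_two_of (h.mul_self hα hd) h1
  generates := by
    rw [eq_top_iff, ← hgen]
    refine iSup₂_le fun α hα g hg => ?_
    by_cases h1 : g = 1
    · rw [h1]; exact one_mem _
    · exact Subgroup.subset_closure ⟨h1, α, hα, hg⟩
  conj_mem := by
    rintro d ⟨h1, α, hα, hd⟩ g
    refine ⟨by simpa using h1, _, h.conj α hα g, ?_⟩
    rw [← conjBy_rg (h.sq α hα), CL.RankOne.mem_conjBy]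
    simpa [mul_assoc] using hd
  pair := by
    rintro a ⟨ha1, α, hα, ha⟩ b ⟨hb1, β, hβ, hb⟩
    rcases h.tri α hα β hβ with h1 | h1 | h1
    · exact Or.inl (h.comm hα hβ h1 a ha b hb)
    · obtain ⟨c, d, hc, hd, h2⟩ := h.exists_of_opp hα hβ h1 ha hb ha1 hb1
      exact Or.inr (Or.inl ((odd_upper_lower hc hd).of_dvd_nat h2))
    · exact Or.inr (Or.inr (h.four_of_rcc hα hβ h1.1 h1.2.1 h1.2.2 ha hb ha1 hb1))

theorem inv_conj [Finite k] [CharP k 2]
    (hc : ∀ α ∈ 𝒜, ∀ β ∈ 𝒜, ∃ γ ∈ 𝒜, Opp ψ α γ ∧ Opp ψ β γ) {a b : G} (ha : a ∈ inv ψ j 𝒜)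
    (hb : b ∈ inv ψ j 𝒜) : ∃ g, b = g * a * g⁻¹ := by
  obtain ⟨ha1, α, hα, ha⟩ := ha
  obtain ⟨hb1, β, hβ, hb⟩ := hb
  obtain ⟨γ, hγ, h1, h2⟩ := hc α hα β hβ
  obtain ⟨x, hx, hx1⟩ := (Subgroup.bot_or_exists_ne_one _).resolve_left (h.ne_bot hγ)
  obtain ⟨c, d, hc, hd, h3⟩ := h.exists_of_opp hα hγ h1 ha hx ha1 hx1
  obtain ⟨c', d', hc', hd', h4⟩ := h.exists_of_opp hβ hγ h2 hb hx hb1 hx1
  have e1 := CL.Inv.isConj_of_odd (h.mul_self hα ha) (h.mul_self hγ hx)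
    ((odd_upper_lower hc hd).of_dvd_nat h3)
  have e2 := CL.Inv.isConj_of_odd (h.mul_self hβ hb) (h.mul_self hγ hx)
    ((odd_upper_lower hc' hd').of_dvd_nat h4)
  obtain ⟨g, hg⟩ := isConj_iff.1 (e1.trans e2.symm)
  exact ⟨g, hg.symm⟩

theorem threeFour [Fintype k] [CharP k 2] (hk : Fintype.card k = 2)
    (hgen : ⨆ α ∈ 𝒜, rg ψ j α = ⊤) : IsThreeFourPlusTranspositionSet (inv ψ j 𝒜) := by
  refine ⟨h.isRootInvolutionSet hgen, ?_⟩
  rintro a ⟨ha1, α, hα, ha⟩ b ⟨hb1, β, hβ, hb⟩ ho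
  rcases h.tri α hα β hβ with h1 | h1 | h1
  · left
    have h2 : (a * b) ^ 2 = 1 := by
      rw [Commute.mul_pow (h.comm hα hβ h1 a ha b hb), pow_two, pow_two, h.mul_self hα ha,
        h.mul_self hβ hb, one_mul]
    rcases (Nat.dvd_prime Nat.prime_two).1 (orderOf_dvd_of_pow_eq_one h2) with h3 | h3
    · exact h3
    · rw [h3] at ho; exact absurd ho (by decide)
  · obtain ⟨c, d, hc, hd, h2⟩ := h.exists_of_opp hα hβ h1 ha hb ha1 hb1
    have h3 : ∀ x : k, x ≠ 0 → x = 1 := fun x hx => by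
      have := FiniteField.pow_card_sub_one_eq_one x hx
      rwa [hk, pow_one] at this
    rw [h3 c hc, h3 d hd] at h2
    have h2' : (2 : k) = 0 := CharTwo.two_eq_zero
    have h4 : (upper 1 * lower 1 : SL(2, k)) ^ 3 = 1 := by
      ext i j
      fin_cases i <;> fin_cases j <;>
        simp [pow_succ, coe_upper, coe_lower, Matrix.mul_apply, Fin.sum_univ_two,
          CharTwo.add_self_eq_zero]
    exact (Nat.dvd_prime Nat.prime_three).1 (h2.trans (orderOf_dvd_of_pow_eq_one h4))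
  · rw [(h.four_of_rcc hα hβ h1.1 h1.2.1 h1.2.2 ha hb ha1 hb1).1] at ho
    exact absurd ho (by decide)

end Sys

end Inv

section R1

variable {F V : Type*} [Field F] [AddCommGroup V] [Module F V]

/-- a rank one endomorphism -/
def r1 (x : V) (φ : V →ₗ[F] F) : Module.End F V := φ.smulRight x

@[simp] theorem r1_apply (x : V) (φ : V →ₗ[F] F) (v : V) : r1 x φ v = φ v • x := rfl

theorem r1_mul (x y : V) (φ χ : V →ₗ[F] F) : r1 x φ * r1 y χ = φ y • r1 x χ := by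
  ext v; simp [smul_smul, mul_comm]

theorem smul_r1 (c : F) (x : V) (φ : V →ₗ[F] F) : c • r1 x φ = r1 (c • x) φ := by
  ext v; simp [smul_smul, mul_comm]

theorem r1_ne_zero {x : V} {φ : V →ₗ[F] F} (hx : x ≠ 0) (hφ : φ ≠ 0) : r1 x φ ≠ 0 := by
  obtain ⟨v, hv⟩ := DFunLike.ne_iff.1 hφ
  exact fun e => smul_ne_zero hv hx (LinearMap.congr_fun e v)

theorem conj_r1 (a b : Module.End F V) (x : V) (φ : V →ₗ[F] F) :
    a * r1 x φ * b = r1 (a x) (φ ∘ₗ b) := by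
  ext v; simp

theorem r1_mul_mul (x y : V) (φ χ : V →ₗ[F] F) :
    r1 x φ * r1 y χ * r1 x φ = (φ y * χ x) • r1 x φ := by
  rw [r1_mul, smul_mul_assoc, r1_mul, smul_smul]

/-- transvection data -/
def tvs (F V : Type*) [Field F] [AddCommGroup V] [Module F V] : Set (Module.End F V) :=
  {α | ∃ x φ, x ≠ 0 ∧ φ ≠ 0 ∧ φ x = 0 ∧ α = r1 x φ}

theorem opp_r1 {x y : V} {φ χ : V →ₗ[F] F} (h1 : φ y ≠ 0) (h2 : χ x ≠ 0) :
    Opp (RingHom.id F) (r1 x φ) (r1 y χ) :=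
  ⟨φ y * χ x, mul_ne_zero h1 h2, r1_mul_mul _ _ _ _, by rw [r1_mul_mul, mul_comm]; rfl⟩

theorem j_mul_inv {G A : Type*} [Group G] [Monoid A] (j : G →* A) (g : G) : j g * j g⁻¹ = 1 := by
  rw [← map_mul, mul_inv_cancel, map_one]

theorem j_inv_mul {G A : Type*} [Group G] [Monoid A] (j : G →* A) (g : G) : j g⁻¹ * j g = 1 := by
  rw [← map_mul, inv_mul_cancel, map_one]

theorem j_inv_apply {G : Type*} [Group G] (j : G →* Module.End F V) (g : G) (v : V) :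
    j g⁻¹ (j g v) = v := LinearMap.congr_fun (j_inv_mul j g) v

theorem j_apply_inv {G : Type*} [Group G] (j : G →* Module.End F V) (g : G) (v : V) :
    j g (j g⁻¹ v) = v := LinearMap.congr_fun (j_mul_inv j g) v

theorem j_ne_zero {G : Type*} [Group G] (j : G →* Module.End F V) (g : G) {v : V} (hv : v ≠ 0) :
    j g v ≠ 0 := fun e => hv (by rw [← j_inv_apply j g v, e, map_zero])

theorem sys_tvs {G : Type*} [Group G] {j : G →* Module.End F V} (hj : Function.Injective j)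
    (hex : ∀ x (φ : V →ₗ[F] F), φ x = 0 → ∃ g, j g = 1 + r1 x φ) :
    Sys (RingHom.id F) j (tvs F V) where
  inj := hj
  sq := by
    rintro _ ⟨x, φ, -, -, h, rfl⟩
    rw [r1_mul, h, zero_smul]
  ne := by
    rintro _ ⟨x, φ, h1, h2, -, rfl⟩
    exact r1_ne_zero h1 h2
  ex := by
    rintro _ ⟨x, φ, -, -, h, rfl⟩ c
    rw [smul_r1]
    exact hex _ _ (by simp [h])
  conj := by
    rintro _ ⟨x, φ, h1, h2, h, rfl⟩ g
    refine ⟨_, _, j_ne_zero j g h1, fun e => h2 ?_, ?_, conj_r1 _ _ _ _⟩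
    · ext v
      simpa [j_inv_apply] using LinearMap.congr_fun e (j g v)
    · simp [h]
  tri := by
    rintro _ ⟨x, φ, h1, h2, h, rfl⟩ _ ⟨y, χ, h3, h4, h', rfl⟩
    by_cases e1 : φ y = 0 <;> by_cases e2 : χ x = 0
    · left; rw [r1_mul, r1_mul, e1, e2, zero_smul, zero_smul]
    · refine Or.inr (Or.inr ⟨by simp [r1_mul_mul, e1], by simp [r1_mul_mul, e1], ?_⟩)
      refine ⟨-χ x • y, φ, smul_ne_zero (neg_ne_zero.2 e2) h3, h2, by simp [e1], ?_⟩
      rw [r1_mul, r1_mul, e1, zero_smul, zero_sub, ← neg_smul, smul_r1]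
    · refine Or.inr (Or.inr ⟨by simp [r1_mul_mul, e2], by simp [r1_mul_mul, e2], ?_⟩)
      refine ⟨φ y • x, χ, smul_ne_zero e1 h1, h4, by simp [e2], ?_⟩
      rw [r1_mul, r1_mul, e2, zero_smul, sub_zero, smul_r1]
    · exact Or.inr (Or.inl (opp_r1 e1 e2))

theorem exists_two_ne {M : Type*} [AddCommGroup M] {φ χ : M →+ F} (h1 : ∃ x, φ x ≠ 0)
    (h2 : ∃ x, χ x ≠ 0) : ∃ x, φ x ≠ 0 ∧ χ x ≠ 0 := by
  obtain ⟨x, hx⟩ := h1
  obtain ⟨y, hy⟩ := h2
  by_cases e1 : χ x = 0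
  · by_cases e2 : φ y = 0
    · exact ⟨x + y, by simp [e2, hx], by simp [e1, hy]⟩
    · exact ⟨y, e2, hy⟩
  · exact ⟨x, hx, e1⟩

theorem exists_dual_ne {x y z : V} (hx : x ∉ F ∙ z) (hy : y ∉ F ∙ z) :
    ∃ θ : V →ₗ[F] F, θ z = 0 ∧ θ x ≠ 0 ∧ θ y ≠ 0 := by
  have key : ∀ {x : V}, x ∉ F ∙ z → ∃ θ : (F ∙ z).dualAnnihilator, θ.1 x ≠ 0 := fun {x} hx => by
    obtain ⟨θ, h1, h2⟩ := Submodule.exists_dual_map_eq_bot_of_notMem hx inferInstance
    refine ⟨⟨θ, (Submodule.mem_dualAnnihilator _).2 fun w hw => ?_⟩, h1⟩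
    exact (Submodule.mem_bot F).1 (h2 ▸ Submodule.mem_map_of_mem hw)
  let ev : V → ((F ∙ z).dualAnnihilator →+ F) := fun v =>
    ((Module.Dual.eval F V v).comp (F ∙ z).dualAnnihilator.subtype).toAddMonoidHom
  obtain ⟨θ, h1, h2⟩ := exists_two_ne (φ := ev x) (χ := ev y) (key hx) (key hy)
  exact ⟨θ.1, (Submodule.mem_dualAnnihilator _).1 θ.2 z (Submodule.mem_span_singleton_self z), h1, h2⟩

theorem tvs_common {α β : Module.End F V} (hα : α ∈ tvs F V) (hβ : β ∈ tvs F V) :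
    ∃ γ ∈ tvs F V, Opp (RingHom.id F) α γ ∧ Opp (RingHom.id F) β γ := by
  obtain ⟨x, φ, h1, h2, h, rfl⟩ := hα
  obtain ⟨y, χ, h3, h4, h', rfl⟩ := hβ
  obtain ⟨z, hz1, hz2⟩ := exists_two_ne (φ := φ.toAddMonoidHom) (χ := χ.toAddMonoidHom)
    (DFunLike.ne_iff.1 h2) (DFunLike.ne_iff.1 h4)
  have key : ∀ {x : V} {φ : V →ₗ[F] F}, x ≠ 0 → φ x = 0 → φ z ≠ 0 → x ∉ F ∙ z := by
    intro x φ h1 h2 h3 h4
    obtain ⟨c, rfl⟩ := Submodule.mem_span_singleton.1 h4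
    rw [map_smul, smul_eq_mul, mul_eq_zero] at h2
    rcases h2 with rfl | h2
    · exact h1 (zero_smul _ _)
    · exact h3 h2
  obtain ⟨θ, e1, e2, e3⟩ := exists_dual_ne (key h1 h hz1) (key h3 h' hz2)
  refine ⟨r1 z θ, ⟨z, θ, ?_, ?_, e1, rfl⟩, opp_r1 hz1 e2, opp_r1 hz2 e3⟩
  · rintro rfl; exact hz1 (map_zero _)
  · rintro rfl; exact e2 rfl

end R1

theorem path_of_common {k F A : Type*} [Field k] [Field F] [Ring A] [Algebra F A] {ψ : k →+* F}
    {𝒜 : Set A} (hc : ∀ α ∈ 𝒜, ∀ β ∈ 𝒜, ∃ γ ∈ 𝒜, Opp ψ α γ ∧ Opp ψ β γ) :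
    ∀ α ∈ 𝒜, ∀ β ∈ 𝒜, Relation.ReflTransGen (fun α β => α ∈ 𝒜 ∧ β ∈ 𝒜 ∧ Opp ψ α β) α β := by
  intro α hα β hβ
  obtain ⟨γ, hγ, h1, h2⟩ := hc α hα β hβ
  exact (Relation.ReflTransGen.single ⟨hα, hγ, h1⟩).tail ⟨hγ, hβ, h2.symm⟩

section SL

open Matrix

variable {ι F : Type*} [Fintype ι] [DecidableEq ι] [Field F]

/-- the natural representation of the special linear group -/
def jSL (ι F : Type*) [Fintype ι] [DecidableEq ι] [Field F] :
    SpecialLinearGroup ι F →* Module.End F (ι → F) :=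
  (Matrix.toLinAlgEquiv' (R := F) (n := ι)).toMonoidHom.comp SpecialLinearGroup.coeMonoidHom

theorem jSL_apply (g : SpecialLinearGroup ι F) (v : ι → F) : jSL ι F g v = g.1 *ᵥ v := rfl

theorem sysSL : Sys (RingHom.id F) (jSL ι F) (tvs F (ι → F)) := by
  refine sys_tvs (fun g h e => Subtype.ext (Matrix.toLinAlgEquiv'.injective e)) fun x φ h => ?_
  refine ⟨⟨LinearMap.toMatrix' (LinearMap.transvection φ x), ?_⟩, ?_⟩
  · rw [LinearMap.det_toMatrix', LinearMap.transvection.det, h, add_zero]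
  · exact LinearMap.ext fun v => LinearMap.toMatrix'_mulVec _ _

theorem mem_rg_single {i j : ι} {g : SpecialLinearGroup ι F} {c : F} :
    jSL ι F g = 1 + c • r1 (Pi.single i 1) (LinearMap.proj j) ↔ g.1 = Matrix.transvection i j c := by
  have key : ∀ v : ι → F, Matrix.transvection i j c *ᵥ v =
      (1 + c • r1 (Pi.single i 1) (LinearMap.proj j) : Module.End F (ι → F)) v := fun v => by
    rw [Matrix.transvection, add_mulVec, one_mulVec, single_mulVec]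
    ext l
    by_cases hl : l = i <;> simp [hl]
  refine ⟨fun h => Matrix.ext_of_mulVec_single fun l => ?_, fun h => LinearMap.ext fun v => ?_⟩
  · rw [key, ← h, jSL_apply]
  · rw [jSL_apply, h, key]

omit [Fintype ι] in
theorem single_mem {i j : ι} (hij : i ≠ j) :
    r1 (Pi.single i 1) (LinearMap.proj j) ∈ tvs F (ι → F) :=
  ⟨_, _, by simp, fun e => by simpa using LinearMap.congr_fun e (Pi.single j 1), by simp [hij.symm],
    rfl⟩

theorem genSL : ⨆ α ∈ tvs F (ι → F), rg (RingHom.id F) (jSL ι F) α = ⊤ := by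
  refine CL.SL.eq_top_of_transvection_mem _ fun i j hij c => ?_
  have hle : rg (RingHom.id F) (jSL ι F) (r1 (Pi.single i 1) (LinearMap.proj j)) ≤
      ⨆ α ∈ tvs F (ι → F), rg (RingHom.id F) (jSL ι F) α :=
    le_iSup₂ (f := fun α (_ : α ∈ tvs F (ι → F)) => rg (RingHom.id F) (jSL ι F) α) _ (single_mem hij)
  exact hle (Subgroup.subset_closure ⟨c, mem_rg_single.2 rfl⟩)

theorem closure_eq_rg (i j : ι) :
    Subgroup.closure {t : SpecialLinearGroup ι F | ∃ c : F, t.1 = Matrix.transvection i j c} =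
      rg (RingHom.id F) (jSL ι F) (r1 (Pi.single i 1) (LinearMap.proj j)) := by
  unfold rg
  congr 1
  ext g
  exact exists_congr fun c => mem_rg_single.symm

theorem set_eqSL {i j : ι} (hij : i ≠ j) :
    {A : Subgroup (SpecialLinearGroup ι F) | ∃ g : SpecialLinearGroup ι F,
      A = conjBy (Subgroup.closure {t : SpecialLinearGroup ι F |
        ∃ c : F, t.1 = Matrix.transvection i j c}) g} =
      rg (RingHom.id F) (jSL ι F) '' tvs F (ι → F) := by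
  rw [closure_eq_rg]
  ext A
  constructor
  · rintro ⟨g, rfl⟩
    exact (sysSL.isRootSubgroupSet genSL).conj_mem _ ⟨_, single_mem hij, rfl⟩ g
  · intro hA
    exact (isConjClass_of_connected ⟨A, hA⟩
      (sysSL.connected (path_of_common fun _ h1 _ h2 => tvs_common h1 h2))).2 _
      ⟨_, single_mem hij, rfl⟩ A hA

theorem inv_eqSL [Finite F] [CharP F 2] {i j : ι} (hij : i ≠ j) :
    {t : SpecialLinearGroup ι F | ∃ c : F, c ≠ 0 ∧ ∃ g : SpecialLinearGroup ι F,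
      (g⁻¹ * t * g).1 = Matrix.transvection i j c} =
      inv (RingHom.id F) (jSL ι F) (tvs F (ι → F)) := by
  have hs := single_mem (F := F) hij
  ext t
  constructor
  · rintro ⟨c, hc, g, hg⟩
    have h1 := mem_rg_single.2 hg
    have := (sysSL.isRootInvolutionSet genSL).conj_mem _ ⟨fun e => hc ((sysSL.eq_one_iff hs h1).1 e),
      _, hs, Subgroup.subset_closure ⟨c, h1⟩⟩ g
    simpa [mul_assoc] using this
  · intro ht
    obtain ⟨x, hx⟩ := sysSL.ex _ hs 1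
    obtain ⟨g, hg⟩ := sysSL.inv_conj (fun _ h1 _ h2 => tvs_common h1 h2) ht
      ⟨fun e => one_ne_zero ((sysSL.eq_one_iff hs hx).1 e), _, hs, Subgroup.subset_closure ⟨1, hx⟩⟩
    exact ⟨1, one_ne_zero, g⁻¹, by rw [inv_inv, ← hg]; exact mem_rg_single.1 hx⟩

end SL

end CL.RootEx
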