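import Mathlib
import Cfsg.Agent.CHEV.RootEx2
import Cfsg.Agent.CLAS.FormGL

/-!
# Examples of root subgroups: symplectic and unitary transvections, Siegel transformations
-/

set_option autoImplicit false

namespace CL.RootEx

open Cfsg CL.Witt CL.Witt.Form Module

variable {k F V G : Type*} [Field k] [Field F] [AddCommGroup V] [Module F V] [Group G]

section FT

variable {T : FormType F}

/-- isotropic transvection data -/
def ftv (f : Form T V) (a0 : F) : Set (Module.End F V) :=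
  {α | ∃ p, p ≠ 0 ∧ f.q p = 0 ∧ α = r1 p (a0 • f.B p)}

variable {f : Form T V} {a0 : F} {ψ : k →+* F}

theorem opp_ftv (ha0 : a0 ≠ 0) (hψ : ∀ x y, ∃ l, ψ l = a0 * f.B x y * (a0 * f.B y x)) {p r : V}
    (h : f.B p r ≠ 0) : Opp ψ (r1 p (a0 • f.B p)) (r1 r (a0 • f.B r)) := by
  obtain ⟨l, hl⟩ := hψ p r
  refine ⟨l, ?_, by rw [r1_mul_mul, hl]; rfl, by rw [r1_mul_mul, hl, mul_comm]; rfl⟩
  rintro rfl
  exact mul_ne_zero (mul_ne_zero ha0 h) (mul_ne_zero ha0 fun e => h (f.B_eq_zero_symm e))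
    (hl.symm.trans (map_zero ψ))

theorem ftv_two (ha0 : a0 ≠ 0) (hψ : ∀ x y, ∃ l, ψ l = a0 * f.B x y * (a0 * f.B y x)) :
    ∀ α ∈ ftv f a0, ∀ β ∈ ftv f a0, α * β = β * α ∨ Opp ψ α β := by
  rintro _ ⟨p, -, -, rfl⟩ _ ⟨r, -, -, rfl⟩
  by_cases h : f.B p r = 0
  · left; simp [r1_mul, h, f.B_eq_zero_symm h]
  · exact Or.inr (opp_ftv ha0 hψ h)

theorem B_j_inv {j : G →* Module.End F V} (hB : ∀ g x y, f.B (j g x) (j g y) = f.B x y) (g : G)
    (p : V) : f.B p ∘ₗ j g⁻¹ = f.B (j g p) := by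
  ext v
  rw [LinearMap.comp_apply, ← hB g, j_apply_inv]

theorem sys_ftv (hf : f.Nondeg) (ha0 : a0 ≠ 0)
    (hψ : ∀ x y, ∃ l, ψ l = a0 * f.B x y * (a0 * f.B y x)) {j : G →* Module.End F V}
    (hj : Function.Injective j) (hB : ∀ g x y, f.B (j g x) (j g y) = f.B x y)
    (hq : ∀ g x, f.q (j g x) = f.q x)
    (hex : ∀ p, f.q p = 0 → ∀ c, ∃ g, j g = 1 + ψ c • r1 p (a0 • f.B p)) :
    Sys ψ j (ftv f a0) where
  inj := hj
  sq := by
    rintro _ ⟨p, -, h, rfl⟩
    simp [r1_mul, f.B_self_eq_zero h]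
  ne := by
    rintro _ ⟨p, h, -, rfl⟩
    exact r1_ne_zero h (smul_ne_zero ha0 fun e => h (hf p fun y => LinearMap.congr_fun e y))
  ex := by
    rintro _ ⟨p, -, h, rfl⟩
    exact hex p h
  conj := by
    rintro _ ⟨p, h1, h, rfl⟩ g
    exact ⟨j g p, j_ne_zero j g h1, by rw [hq, h], by
      rw [conj_r1, LinearMap.smul_comp, B_j_inv hB]⟩
  tri α hα β hβ := (ftv_two ha0 hψ α hα β hβ).imp_right Or.inl

theorem ftv_common [FiniteDimensional F V] (hf : f.Nondeg) (ha0 : a0 ≠ 0) (hb : f.Big 0)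
    (hψ : ∀ x y, ∃ l, ψ l = a0 * f.B x y * (a0 * f.B y x)) :
    ∀ α ∈ ftv f a0, ∀ β ∈ ftv f a0, ∃ γ ∈ ftv f a0, Opp ψ α γ ∧ Opp ψ β γ := by
  rintro _ ⟨p, h1, h2, rfl⟩ _ ⟨r, h3, h4, rfl⟩
  obtain ⟨w, hw, e1, e2⟩ := hf.exists_common_partner' hb h2 h1 h4 h3
  exact ⟨_, ⟨w, by rintro rfl; exact e1 (map_zero _), hw, rfl⟩, opp_ftv ha0 hψ e1,
    opp_ftv ha0 hψ e2⟩

end FT

section Siegel

variable {f : Form (FormType.quad F) V}

/-- Siegel data -/
def sg (f : Form (FormType.quad F) V) (p r : V) : Module.End F V := r1 r (f.B p) - r1 p (f.B r)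

theorem sg_apply (p r v : V) : sg f p r v = f.B p v • r - f.B r v • p := rfl

/-- singular lines -/
structure SLine (f : Form (FormType.quad F) V) (p r : V) : Prop where
  li : LinearIndependent F ![p, r]
  qp : f.q p = 0
  qr : f.q r = 0
  pr : f.B p r = 0

/-- the Siegel family -/
def sgs (f : Form (FormType.quad F) V) : Set (Module.End F V) :=
  {α | ∃ p r, SLine f p r ∧ α = sg f p r}

theorem SLine.pp {p r : V} (h : SLine f p r) : f.B p p = 0 := f.B_self_eq_zero h.qp
theorem SLine.rr {p r : V} (h : SLine f p r) : f.B r r = 0 := f.B_self_eq_zero h.qr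
theorem SLine.rp {p r : V} (h : SLine f p r) : f.B r p = 0 := f.B_eq_zero_symm h.pr

theorem SLine.symm {p r : V} (h : SLine f p r) : SLine f r p :=
  ⟨LinearIndependent.pair_symm_iff.1 h.li, h.qr, h.qp, h.rp⟩

theorem SLine.eq_zero {p r : V} (h : SLine f p r) {a b : F} (e : a • p + b • r = 0) :
    a = 0 ∧ b = 0 := LinearIndependent.pair_iff.1 h.li a b e

theorem SLine.p_ne {p r : V} (h : SLine f p r) : p ≠ 0 := by
  rintro rfl
  exact one_ne_zero (h.eq_zero (a := 1) (b := 0) (by simp)).1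

theorem B_smul' (c : F) (x y : V) : f.B (c • x) y = c * f.B x y := f.B_smul_left c x y

theorem sg_swap (p r : V) : sg f r p = -sg f p r := by simp [sg]

theorem sg_smul (c : F) (p r : V) : sg f p (c • r) = c • sg f p r := by
  ext v
  simp only [sg_apply, B_smul', LinearMap.smul_apply]
  module

theorem sg_add_smul (c : F) (p r : V) : sg f p (r + c • p) = sg f p r := by
  ext v
  simp only [sg_apply, B_smul', f.B_add_left]
  module

theorem sg_eq_zero {s t : V} (h : ¬ LinearIndependent F ![s, t]) : sg f s t = 0 := by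
  by_cases hs : s = 0
  · ext v; simp [sg_apply, hs]
  rw [LinearIndependent.pair_iff' hs] at h
  push Not at h
  obtain ⟨a, rfl⟩ := h
  rw [sg_smul]; simp [sg]

theorem SLine.sss {p r p' r' : V} :
    sg f p r * sg f p' r' * sg f p r =
      (-(f.B p p' * f.B r r' - f.B p r' * f.B r p')) • sg f p r := by
  ext v
  simp only [Module.End.mul_apply, sg_apply, map_sub, map_smul, LinearMap.smul_apply,
    f.quad_symm p p', f.quad_symm p r', f.quad_symm r p', f.quad_symm r r']
  module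

theorem opp_sg {p r p' r' : V} (h : f.B p p' * f.B r r' - f.B p r' * f.B r p' ≠ 0) :
    Opp (RingHom.id F) (sg f p r) (sg f p' r') := by
  refine ⟨_, neg_ne_zero.2 h, SLine.sss, ?_⟩
  rw [SLine.sss, f.quad_symm p p', f.quad_symm p r', f.quad_symm r p', f.quad_symm r r']
  congr 1
  simp only [RingHom.id_apply]; ring

theorem exists_factor {a b c d : F} (h : a * d - b * c = 0) :
    ∃ u1 u2 w1 w2 : F, a = u1 * w1 ∧ b = u1 * w2 ∧ c = u2 * w1 ∧ d = u2 * w2 := by
  by_cases ha : a = 0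
  · by_cases hb : b = 0
    · exact ⟨0, 1, c, d, by simp [ha], by simp [hb], by simp, by simp⟩
    · have hc : c = 0 := by
        rw [ha, zero_mul, zero_sub, neg_eq_zero] at h
        exact (mul_eq_zero.1 h).resolve_left hb
      exact ⟨b, d, 0, 1, by simp [ha], by simp, by simp [hc], by simp⟩
  · refine ⟨1, c / a, a, b, by simp, by simp, by field_simp, ?_⟩
    field_simp
    linear_combination h

theorem SLine.q_comb {p r : V} (h : SLine f p r) (a b : F) : f.q (a • r - b • p) = 0 := by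
  rw [sub_eq_add_neg, ← neg_smul, f.quad_q_add, f.quad_q_smul, f.quad_q_smul, B_smul',
    f.B_smul_right, h.qp, h.qr, h.rp]
  simp

theorem sgs_tri : ∀ α ∈ sgs f, ∀ β ∈ sgs f, α * β = β * α ∨ Opp (RingHom.id F) α β ∨
    (α * β * α = 0 ∧ β * α * β = 0 ∧ α * β - β * α ∈ sgs f) := by
  rintro _ ⟨p, r, h, rfl⟩ _ ⟨p', r', h', rfl⟩
  by_cases hd : f.B p p' * f.B r r' - f.B p r' * f.B r p' = 0
  swap
  · exact Or.inr (Or.inl (opp_sg hd))
  obtain ⟨u1, u2, w1, w2, e1, e2, e3, e4⟩ := exists_factor hd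
  have key : sg f p r * sg f p' r' - sg f p' r' * sg f p r =
      sg f (u1 • r - u2 • p) (w1 • r' - w2 • p') := by
    ext v
    simp only [Module.End.mul_apply, sg_apply, map_sub, map_smul, smul_eq_mul, LinearMap.sub_apply,
      f.quad_symm p p', f.quad_symm p r', f.quad_symm r p', f.quad_symm r r', e1, e2, e3, e4,
      map_smulₛₗ, LinearMap.smul_apply, FormType.quad_σ]
    module
  by_cases hl : LinearIndependent F ![u1 • r - u2 • p, w1 • r' - w2 • p']
  · refine Or.inr (Or.inr ⟨by rw [SLine.sss, hd]; simp, ?_, _, _, ⟨hl, h.q_comb _ _, h'.q_comb _ _, ?_⟩,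
      key⟩)
    · rw [SLine.sss, f.quad_symm p p', f.quad_symm p r', f.quad_symm r p', f.quad_symm r r',
        mul_comm (f.B r p'), hd]
      simp
    · simp only [f.B_sub_left, f.B_sub_right, B_smul', f.B_smul_right, e1, e2, e3, e4]; ring
  · exact Or.inl (sub_eq_zero.1 (key.trans (sg_eq_zero hl)))

variable [FiniteDimensional F V]

theorem SLine.exists_dual (hf : f.Nondeg) {p r : V} (h : SLine f p r) (a b : F) :
    ∃ x, f.B p x = a ∧ f.B r x = b := by
  obtain ⟨x, hx⟩ := hf.exists_B_eq_family' h.li ![a, b]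
  exact ⟨x, hx 0, hx 1⟩

theorem sys_sgs (hf : f.Nondeg) {j : G →* Module.End F V}
    (hj : Function.Injective j) (hB : ∀ g x y, f.B (j g x) (j g y) = f.B x y)
    (hq : ∀ g x, f.q (j g x) = f.q x) (hex : ∀ e ∈ f.O, ∃ g, ∀ v, j g v = e v) :
    Sys (RingHom.id F) j (sgs f) where
  inj := hj
  sq := by
    rintro _ ⟨p, r, h, rfl⟩
    ext v
    simp [sg_apply, h.pp, h.pr, h.rp, h.rr]
  ne := by
    rintro _ ⟨p, r, h, rfl⟩ e
    obtain ⟨x, h1, h2⟩ := h.exists_dual hf 1 0
    have := LinearMap.congr_fun e x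
    rw [sg_apply, h1, h2] at this
    exact h.symm.p_ne (by simpa using this)
  ex := by
    rintro _ ⟨p, r, h, rfl⟩ c
    obtain ⟨g, hg⟩ := hex _ (f.ei_mem_O p (c • r) 0)
    have hok : f.EichOK p (c • r) 0 :=
      ⟨h.qp, by simp [h.pr], by rw [map_zero, f.q_smul_eq_zero h.qr]⟩
    refine ⟨g, LinearMap.ext fun v => ?_⟩
    rw [hg, hok.ei_apply, B_smul']
    simp only [FormType.quad_ε, LinearMap.add_apply, Module.End.one_apply, LinearMap.smul_apply,
      sg_apply, RingHom.id_apply]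
    module
  conj := by
    rintro _ ⟨p, r, h, rfl⟩ g
    refine ⟨j g p, j g r, ⟨?_, by rw [hq, h.qp], by rw [hq, h.qr], by rw [hB, h.pr]⟩, ?_⟩
    · refine LinearIndependent.pair_iff.2 fun a b e => h.eq_zero ?_
      rw [← j_inv_apply j g (a • p + b • r), map_add, map_smul, map_smul, e, map_zero]
    · rw [sg, mul_sub, sub_mul, conj_r1, conj_r1, B_j_inv hB, B_j_inv hB, sg]
  tri := sgs_tri

theorem SLine.eq_of_fix (hf : f.Nondeg) {p r : V} (h : SLine f p r) {g : Module.End F V}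
    (hB : ∀ x y, f.B (g x) (g y) = f.B x y) (hq : ∀ x, f.q (g x) = f.q x)
    (hg : ∀ v, f.B p v = 0 → f.B r v = 0 → g v = v) : ∃ c : F, g = 1 + c • sg f p r := by
  have key : ∀ x, ∃ a b : F, g x = x + (a • p + b • r) := fun x => by
    have : g x - x ∈ f.perp (f.perp (Submodule.span F {p, r})) := fun w hw => by
      obtain ⟨h1, h2⟩ := f.mem_perp_span_pair.1 hw
      rw [f.B_sub_right, ← hB w x, hg w h1 h2, sub_self]
    rw [hf.perp_perp] at this
    obtain ⟨a, b, e⟩ := Submodule.mem_span_pair.1 this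
    exact ⟨a, b, by rw [e]; abel⟩
  obtain ⟨x, x1, x2⟩ := h.exists_dual hf 1 0
  obtain ⟨y, y1, y2⟩ := h.exists_dual hf 0 1
  obtain ⟨a, b, ex⟩ := key x
  obtain ⟨c, d, ey⟩ := key y
  have hq0 : ∀ a b : F, f.q (a • p + b • r) = 0 := fun a b => by
    rw [← h.q_comb b (-a)]; congr 1; module
  have ha : a = 0 := by
    have := hq x
    rw [ex, f.quad_q_add, hq0, f.quad_symm, f.B_add_left, B_smul', B_smul', x1, x2] at this
    linear_combination this
  have hd : d = 0 := by
    have := hq y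
    rw [ey, f.quad_q_add, hq0, f.quad_symm, f.B_add_left, B_smul', B_smul', y1, y2] at this
    linear_combination this
  have hc : c = -b := by
    have := hB x y
    rw [ex, ey, ha, hd] at this
    simp only [f.B_add_left, f.B_add_right, B_smul', f.B_smul_right, f.quad_symm p x,
      f.quad_symm r x, x1, x2, y1, y2, h.rp, h.pp, h.pr, h.rr] at this
    linear_combination this
  refine ⟨b, LinearMap.ext fun v => ?_⟩
  have := hg (v - f.B p v • x - f.B r v • y) (by simp [x1, y1]) (by simp [x2, y2])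
  rw [map_sub, map_sub, map_smul, map_smul, ex, ey, ha, hd, hc] at this
  simp only [LinearMap.add_apply, Module.End.one_apply, LinearMap.smul_apply, sg_apply]
  linear_combination (norm := module) this

theorem sg_share (hf : f.Nondeg) (h4 : finrank F V ≠ 4) {p r s : V} (h : SLine f p r)
    (h' : SLine f p s) : ∃ γ ∈ sgs f, Opp (RingHom.id F) (sg f p r) γ ∧
      Opp (RingHom.id F) (sg f p s) γ := by
  obtain ⟨u, hu, hpu⟩ := hf.exists_partner' h.qp h.p_ne
  set W := f.perp (Submodule.span F {p, u}) with hW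
  have hf' : (f.restrict W).Nondeg := hf.restrict_perp (f.restrict_nondeg_pair h.qp hu hpu)
  have hup : f.B u p = 1 := by rw [f.quad_symm, hpu]
  have hb : (f.restrict W).Big 0 := Or.inr (by
    have := hf.finrank_add_finrank_perp (Submodule.span F {p, u})
    rw [f.finrank_span_pair h.qp hu hpu, ← hW] at this
    omega)
  have key : ∀ {r : V}, SLine f p r → ∃ r' : W, r'.1 = r + (-f.B u r) • p ∧ r' ≠ 0 ∧
      (f.restrict W).q r' = 0 := fun {r} h => by
    refine ⟨⟨r + (-f.B u r) • p, f.mem_perp_span_pair.2 ⟨by simp [h.pr, h.pp], by simp [hup]⟩⟩, rfl,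
      fun e => ?_, ?_⟩
    · have := congrArg (fun z : W => z.1) e
      exact one_ne_zero (h.eq_zero (a := -f.B u r) (b := 1) (by simpa [add_comm] using this)).2
    · refine Eq.trans ?_ (h.q_comb 1 (f.B u r))
      rw [restrict_q]; congr 1; simp [sub_eq_add_neg]
  obtain ⟨r', er, r0, rq⟩ := key h
  obtain ⟨s', es, s0, sq⟩ := key h'
  obtain ⟨w, hw, e1, e2⟩ := hf'.exists_common_partner' hb rq r0 sq s0
  obtain ⟨w1, w2⟩ := f.mem_perp_span_pair.1 w.2
  rw [restrict_B, er] at e1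
  rw [restrict_B, es] at e2
  have hl : SLine f u w := by
    refine ⟨LinearIndependent.pair_iff.2 fun a b e => ?_, hu, hw, w2⟩
    have ha : a = 0 := by simpa [hpu, w1] using congrArg (f.B p) e
    refine ⟨ha, ?_⟩
    rw [ha, zero_smul, zero_add, smul_eq_zero] at e
    refine e.resolve_right fun e => e1 ?_
    rw [e, map_zero]
  refine ⟨_, ⟨u, w, hl, rfl⟩, ?_, ?_⟩
  · rw [← sg_add_smul (-f.B u r)]
    exact opp_sg (by rwa [hpu, w1, one_mul, zero_mul, sub_zero])
  · rw [← sg_add_smul (-f.B u s)]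
    exact opp_sg (by rwa [hpu, w1, one_mul, zero_mul, sub_zero])

omit [FiniteDimensional F V] in
theorem Opp.neg_left {α β : Module.End F V} (h : Opp (RingHom.id F) α β) :
    Opp (RingHom.id F) (-α) β := by
  obtain ⟨l, h0, h1, h2⟩ := h
  exact ⟨-l, neg_ne_zero.2 h0, by simp [h1], by simp [h2]⟩

theorem sgs_path (hf : f.Nondeg) (h4 : finrank F V ≠ 4) : ∀ α ∈ sgs f, ∀ β ∈ sgs f,
    Relation.ReflTransGen (fun α β => α ∈ sgs f ∧ β ∈ sgs f ∧ Opp (RingHom.id F) α β) α β := by
  set R := fun α β => α ∈ sgs f ∧ β ∈ sgs f ∧ Opp (RingHom.id F) α β with hR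
  have s1 : ∀ {p r s : V}, SLine f p r → SLine f p s →
      Relation.ReflTransGen R (sg f p r) (sg f p s) := fun {p r s} h h' => by
    obtain ⟨γ, hγ, h1, h2⟩ := sg_share hf h4 h h'
    exact (Relation.ReflTransGen.single ⟨⟨p, r, h, rfl⟩, hγ, h1⟩).tail
      ⟨hγ, ⟨p, s, h', rfl⟩, h2.symm⟩
  have s2 : ∀ {p r : V}, SLine f p r →
      Relation.ReflTransGen R (sg f p r) (sg f r p) := fun {p r} h => by
    obtain ⟨γ, hγ, h1, -⟩ := sg_share hf h4 h h
    exact (Relation.ReflTransGen.single ⟨⟨p, r, h, rfl⟩, hγ, h1⟩).tail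
      ⟨hγ, ⟨r, p, h.symm, rfl⟩, by rw [sg_swap]; exact h1.neg_left.symm⟩
  rintro _ ⟨p, r, h, rfl⟩ _ ⟨p', r', h', rfl⟩
  by_cases e : f.B p p' = 0
  · by_cases hl : LinearIndependent F ![p, p']
    · have h1 : SLine f p p' := ⟨hl, h.qp, h'.qp, e⟩
      exact ((s1 h h1).trans (s2 h1)).trans (s1 h1.symm h')
    · rw [LinearIndependent.pair_iff' h.p_ne] at hl
      push Not at hl
      obtain ⟨a, rfl⟩ := hl
      have ha : a ≠ 0 := by rintro rfl; exact h'.p_ne (zero_smul _ _)
      have h1 : SLine f p (a • r') := by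
        refine ⟨LinearIndependent.pair_iff.2 fun x y e => ?_, h.qp, f.q_smul_eq_zero h'.qr a, ?_⟩
        · obtain ⟨e1, e2⟩ := h'.eq_zero (a := x / a) (b := y * a) (by
            rw [← e, smul_smul, smul_smul, div_mul_cancel₀ _ ha])
          exact ⟨by simpa [ha] using e1, by simpa [ha] using e2⟩
        · have := h'.pr
          rw [B_smul'] at this
          rw [f.B_smul_right, this]
      rw [sg_swap r', sg_smul, ← smul_neg, ← sg_swap, ← sg_smul]
      exact s1 h h1
  · have e' : f.B p' p ≠ 0 := by rwa [f.quad_symm]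
    set s := r + (-(f.B p' r / f.B p' p)) • p with hs
    have hq : f.q s = 0 := by
      rw [← h.q_comb 1 (f.B p' r / f.B p' p)]; congr 1; simp [hs, sub_eq_add_neg]
    have h1 : SLine f p s := by
      refine ⟨LinearIndependent.pair_iff.2 fun x y e => ?_, h.qp, hq, by simp [hs, h.pp, h.pr]⟩
      obtain ⟨e1, e2⟩ := h.eq_zero (a := x - y * (f.B p' r / f.B p' p)) (b := y) (by
        rw [← e, hs]; module)
      exact ⟨by simpa [e2] using e1, e2⟩
    have h2 : SLine f s p' := by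
      refine ⟨LinearIndependent.pair_iff.2 fun x y e0 => ?_, hq, h'.qp, ?_⟩
      · have hy : y = 0 := by simpa [h1.pr, e] using congrArg (f.B p) e0
        refine ⟨?_, hy⟩
        rw [hy, zero_smul, add_zero, smul_eq_zero] at e0
        exact e0.resolve_right h1.symm.p_ne
      · rw [f.quad_symm, hs, f.B_add_right, f.B_smul_right]; field_simp; ring
    exact ((((s1 h h1).trans (s2 h1)).trans (s1 h1.symm h2)).trans (s2 h2)).trans (s1 h2.symm h')

end Siegel

end CL.RootEx
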