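import Cfsg.Agent.CHEV.RootSubLine

/-! Abstract root subgroups: the graphs, generation, speciality from lines. -/

set_option autoImplicit false
open Cfsg CL.RankOne

namespace CL.RootSub

variable {G : Type*} [Group G] {S : Set (Subgroup G)}

theorem fadj_symm {A B : Subgroup G} (h : FAdj S A B) : FAdj S B A := ⟨h.2.1, h.1, RankOnePair_symm h.2.2⟩

theorem reach_symm {A B : Subgroup G} (h : Relation.ReflTransGen (FAdj S) A B) :
    Relation.ReflTransGen (FAdj S) B A := by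
  induction h with
  | refl => exact .refl
  | tail _ h2 ih => exact .head (fadj_symm h2) ih

theorem reach_conj {A B : Subgroup G} (h : Relation.ReflTransGen (FAdj S) A B) : ∃ g, B = conjBy A g := by
  induction h with
  | refl => exact ⟨1, (conjBy_one _).symm⟩
  | tail _ h2 ih =>
    obtain ⟨g, rfl⟩ := ih
    obtain ⟨x, -, e⟩ := right_mem_unipotent h2.2.2
    exact ⟨x * g, by rw [← conjBy_conjBy]; exact e⟩

theorem hasOpp_of_reach {A B : Subgroup G} (h : Relation.ReflTransGen (FAdj S) A B) (hne : B ≠ A) :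
    HasOpp S A := by
  rcases h.cases_head with rfl | ⟨C, hC, -⟩
  · exact absurd rfl hne
  · exact ⟨C, hC.2.1, hC.2.2⟩

variable (hS : IsRootSubgroupSet S)
include hS

theorem induction_on {p : G → Prop} (one : p 1) (mem : ∀ A ∈ S, ∀ a ∈ A, p a)
    (mul : ∀ x y, p x → p y → p (x * y)) (g : G) : p g := by
  have hg : g ∈ ⨆ A ∈ S, A := by rw [hS.generates]; trivial
  rw [iSup_subtype'] at hg
  exact Subgroup.iSup_induction (fun A : S => (A : Subgroup G)) (C := p) hg
    (fun A x hx => mem A A.2 x hx) one mul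

theorem eq_top_of_forall_le {H : Subgroup G} (h : ∀ A ∈ S, A ≤ H) : H = ⊤ := by
  rw [eq_top_iff, ← hS.generates]
  exact iSup₂_le h

theorem fadj_conj {A B : Subgroup G} (h : FAdj S A B) (g : G) : FAdj S (conjBy A g) (conjBy B g) :=
  ⟨hS.conj_mem A h.1 g, hS.conj_mem B h.2.1 g, conjBy_pair h.2.2 g⟩

theorem reach_conjBy {A B : Subgroup G} (h : Relation.ReflTransGen (FAdj S) A B) (g : G) :
    Relation.ReflTransGen (FAdj S) (conjBy A g) (conjBy B g) := by
  induction h with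
  | refl => exact .refl
  | tail _ h2 ih => exact ih.tail (fadj_conj hS h2 g)

/-- a line has a third member -/
theorem line_third {A C : Subgroup G} (hA : A ∈ S) (hO : HasOpp S A) (hC : C ∈ linePartners S A) :
    ∃ F ∈ S, F ≤ A ⊔ C ∧ F ≠ A ∧ F ≠ C := by
  obtain ⟨a, ha, ha1⟩ := exists_ne_one hS hA
  obtain ⟨c, hc, hc1⟩ := exists_ne_one hS hC.1.1
  have hcA : c ∉ A := fun h => hC.1.2.1 (ti hS hO hC.1.1 h hc hc1).symm
  have haC : a ∉ C := fun h => hC.1.2.1 (ti hS hO hC.1.1 ha h ha1).symm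
  obtain ⟨F, hF, hle, hf⟩ := line_exists hC (mul_mem (Subgroup.mem_sup_left ha) (Subgroup.mem_sup_right hc))
    (fun e => hcA (by rw [eq_inv_of_mul_eq_one_right e]; exact inv_mem ha))
  refine ⟨F, hF, hle, ?_, ?_⟩
  · rintro rfl; exact hcA (by simpa using mul_mem (inv_mem ha) hf)
  · rintro rfl; exact haC (by simpa using mul_mem hf (inv_mem hc))

/-- all members of a line but one are opposite to a given opposite of a member -/
theorem line_members_pair {A B C : Subgroup G} (hA : A ∈ S) (hB : B ∈ S) (hp : IsRankOnePair A B)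
    (hC : C ∈ linePartners S A) (hCB : ¬ IsRankOnePair C B) {F : Subgroup G} (hF : F ∈ S)
    (hle : F ≤ A ⊔ C) (hne : F ≠ C) : IsRankOnePair F B := by
  obtain ⟨F', -, h1, h2, h3, -, h5⟩ := line_normal_form hS hA hB hp hC
  obtain rfl := h5.resolve_right hCB
  obtain ⟨d, hd, rfl⟩ := (rcc_members hS hA ⟨B, hB, hp⟩ h2 hF (h3.symm ▸ hle)).resolve_left (h3.symm ▸ hne)
  have := conjBy_pair hp d
  rwa [(rcc_comm_left h1).symm.conjBy_eq hd] at this

theorem reach_of_line {A C : Subgroup G} (hA : A ∈ S) (hOA : HasOpp S A) (hOC : HasOpp S C)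
    (hC : C ∈ linePartners S A) : Relation.ReflTransGen (FAdj S) A C := by
  have hCS : C ∈ S := hC.1.1
  obtain ⟨B, hB, hp⟩ := id hOA
  obtain ⟨D, hD, hq⟩ := id hOC
  by_cases h1 : IsRankOnePair C B
  · exact (Relation.ReflTransGen.single ⟨hA, hB, hp⟩).tail ⟨hB, hCS, RankOnePair_symm h1⟩
  by_cases h2 : IsRankOnePair A D
  · exact (Relation.ReflTransGen.single ⟨hA, hD, h2⟩).tail ⟨hD, hCS, RankOnePair_symm hq⟩
  obtain ⟨F, hF, hle, hFA, hFC⟩ := line_third hS hA hOA hC
  have h3 := line_members_pair hS hA hB hp hC h1 hF hle hFC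
  have h4 := line_members_pair hS hCS hD hq (line_symm hA hC) h2 hF (sup_comm A C ▸ hle) hFA
  exact (((Relation.ReflTransGen.single ⟨hA, hB, hp⟩).tail ⟨hB, hF, RankOnePair_symm h3⟩).tail
    ⟨hF, hD, h4⟩).tail ⟨hD, hCS, RankOnePair_symm hq⟩

theorem rcc_conjBy_line_partner {A B : Subgroup G} (hA : A ∈ S) (hO : HasOpp S A)
    (h : RootCommutatorCase S A B) {b : G} (hb : b ∈ B) (hb1 : b ≠ 1) :
    conjBy A b ∈ linePartners S A :=
  line_of_eq hS (rcc_line hS hA hO h) hA (hS.conj_mem A hA b) (rcc_conjBy_ne hS hO h hb hb1)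
    (rcc_sup_conjBy h hb hb1)

/-- the components of the graph of rank one pairs are invariant under conjugation -/
theorem reach_conjBy_self {A : Subgroup G} (hA : A ∈ S) (hO : HasOpp S A) (g : G) :
    Relation.ReflTransGen (FAdj S) A (conjBy A g) := by
  induction g using induction_on hS with
  | one => rw [conjBy_one]
  | mem D hD d hd =>
    by_cases hd1 : d = 1
    · rw [hd1, conjBy_one]
    rcases trichotomy hS hA hD with h | h | h
    · rw [h.conjBy_eq hd]
    · exact .single ⟨hA, hS.conj_mem A hA d, pair_conjBy_self h hd hd1⟩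
    · exact reach_of_line hS hA hO (hO.conj hS d) (rcc_conjBy_line_partner hS hA hO h hd hd1)
  | mul x y hx hy =>
    rw [← conjBy_conjBy]
    exact hx.trans (reach_conjBy hS hy x)

theorem hasOpp_of_class (hc : IsConjClassOfSubgroups S) {A : Subgroup G} (hA : A ∈ S)
    (hO : HasOpp S A) {B : Subgroup G} (hB : B ∈ S) : HasOpp S B := by
  obtain ⟨g, rfl⟩ := hc.2 A hA B hB
  exact hO.conj hS g

theorem connected_of_class (hc : IsConjClassOfSubgroups S) {A : Subgroup G} (hA : A ∈ S)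
    (hO : HasOpp S A) : IsConnectedFamily (FAdj S) S := by
  intro B hB C hC
  obtain ⟨g, rfl⟩ := hc.2 B hB C hC
  exact reach_conjBy_self hS hB (hasOpp_of_class hS hc hA hO hB) g

omit hS in
/-- two commuting members with a common opposite: relation between the partners -/
theorem pt_eq_of_comm {A C B : Subgroup G} (hp : IsRankOnePair A B) (hq : IsRankOnePair C B)
    (hAC : Comm A C) {a c : G} (ha : a ∈ A) (ha1 : a ≠ 1) (hc : c ∈ C) (hc1 : c ≠ 1)
    (h : Comm (conjBy B a⁻¹) (conjBy B c⁻¹)) : pt A B a = pt C B c := by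
  by_contra hne
  rw [← pt_conj hp ha ha1, ← pt_conj hq hc hc1] at h
  have h1 := h.conj (pt C B c)
  rw [conjBy_conjBy_inv, conjBy_conjBy] at h1
  have hb : pt C B c * (pt A B a)⁻¹ ∈ B := mul_mem (pt_mem _ _ _) (inv_mem (pt_mem _ _ _))
  obtain ⟨a', ha', -, e⟩ := conjBy_right_eq (RankOnePair_symm hp) hb
    (fun e => hne (mul_inv_eq_one.1 e).symm)
  have h2 := conjBy_pair hq a'
  rw [hAC.symm.conjBy_eq ha', ← e] at h2
  exact h1.symm.not_pair h2

omit hS in
theorem comm_of_pt_eq {A C B : Subgroup G} (hp : IsRankOnePair A B) (hq : IsRankOnePair C B)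
    (hAC : Comm A C) {a c : G} (ha : a ∈ A) (ha1 : a ≠ 1) (hc : c ∈ C) (hc1 : c ≠ 1)
    (h : pt A B a = pt C B c) : Comm (conjBy B a⁻¹) (conjBy B c⁻¹) := by
  rw [← pt_conj hp ha ha1, ← pt_conj hq hc hc1, h]
  exact hAC.conj _

omit hS in
theorem pt_inv_eq {A C B : Subgroup G} (hp : IsRankOnePair A B) (hq : IsRankOnePair C B)
    (hAC : Comm A C) {a c : G} (ha : a ∈ A) (ha1 : a ≠ 1) (hc : c ∈ C) (hc1 : c ≠ 1)
    (h : pt A B a = pt C B c) : pt A B a⁻¹ = pt C B c⁻¹ := by
  refine pt_eq_of_comm hp hq hAC (inv_mem ha) (inv_ne_one.2 ha1) (inv_mem hc) (inv_ne_one.2 hc1) ?_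
  have := (comm_of_pt_eq hp hq hAC ha ha1 hc hc1 h).conj (a * c)
  rw [conjBy_conjBy, conjBy_conjBy, mul_inv_cancel_right, hAC a ha c hc, mul_inv_cancel_right] at this
  simpa only [inv_inv] using this.symm

omit hS in
/-- commuting members with a common opposite are interchanged by some element -/
theorem exists_swap_of_comm {A C B : Subgroup G} (hp : IsRankOnePair A B) (hq : IsRankOnePair C B)
    (hAC : Comm A C) : ∃ g : G, conjBy A g = C ∧ conjBy C g = A := by
  obtain ⟨b, hb, hb1⟩ := exists_ne_one_right hp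
  have hs := RankOnePair_symm hp
  have ht := RankOnePair_symm hq
  have ha := pt_mem B A b
  have hc := pt_mem B C b
  have ha1 := pt_ne_one hs hb hb1
  have hc1 := pt_ne_one ht hb hb1
  have ea := pt_conj hs hb hb1
  have ec := pt_conj ht hb hb1
  have e1 := pt_inv_eq hp hq hAC ha ha1 hc hc1 (by rw [pt_pt hs hb hb1, pt_pt ht hb hb1])
  set a := pt B A b
  set c := pt B C b
  have ea' := pt_conj hp (inv_mem ha) (inv_ne_one.2 ha1)
  have ec' := pt_conj hq (inv_mem hc) (inv_ne_one.2 hc1)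
  rw [← e1, inv_inv] at ec'
  rw [inv_inv] at ea'
  refine ⟨pt A B a⁻¹ * (c * a) * b⁻¹, ?_, ?_⟩
  · rw [← conjBy_conjBy, ← ea, conjBy_conjBy, mul_assoc, mul_inv_cancel_right, ← conjBy_conjBy, ← ec',
      conjBy_conjBy_inv]
  · rw [← conjBy_conjBy, ← ec, conjBy_conjBy, ← hAC a ha c hc, mul_assoc, mul_inv_cancel_right,
      ← conjBy_conjBy, ← ea', conjBy_conjBy_inv]

omit hS in
/-- speciality from a quadratic action on an abelian subgroup -/
theorem special_of_conj {A B N : Subgroup G} (hp : IsRankOnePair A B) (hN : Comm N N)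
    (hA : ∀ a ∈ A, ∀ n ∈ N, a * n * a⁻¹ ∈ N) (hB : ∀ b ∈ B, ∀ n ∈ N, b * n * b⁻¹ ∈ N)
    (hq : ∀ a ∈ A, ∀ a' ∈ A, ∀ n ∈ N, a' * (a * n * a⁻¹ * n⁻¹) = (a * n * a⁻¹ * n⁻¹) * a')
    (hX : ∃ x ∈ A ⊔ B, ∃ y ∈ A ⊔ B, ∃ n ∈ N, y * (x * n * x⁻¹ * n⁻¹) ≠ (x * n * x⁻¹ * n⁻¹) * y) :
    IsSpecialRankOnePair A B := by
  have hn : ∀ x ∈ A ⊔ B, ∀ n ∈ N, x * n * x⁻¹ ∈ N := by
    intro x hx
    refine sup_induction hx (by simp) hA hB ?_
    intro x y _ _ h1 h2 n hn
    simpa only [mul_inv_rev, mul_assoc] using h1 _ (h2 n hn)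
  let _ : CommGroup N := { mul_comm := fun a b => Subtype.ext (hN a a.2 b b.2) }
  let _ : DistribMulAction (A ⊔ B : Subgroup G) (Additive N) :=
    { smul := fun x n => Additive.ofMul ⟨x * (n.toMul : G) * (x : G)⁻¹, hn x x.2 _ n.toMul.2⟩
      one_smul := fun n => by
        show Additive.ofMul _ = Additive.ofMul n.toMul
        congr 1; apply Subtype.ext; simp
      mul_smul := fun x y n => by
        show Additive.ofMul _ = Additive.ofMul _
        congr 1; apply Subtype.ext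
        show ((x * y : (A ⊔ B : Subgroup G)) : G) * _ * _ = x * (y * _ * _) * _
        simp [mul_assoc]
      smul_zero := fun x => by
        show Additive.ofMul _ = Additive.ofMul 1
        congr 1; apply Subtype.ext; simp
      smul_add := fun x m n => by
        show Additive.ofMul _ = Additive.ofMul (_ * _)
        congr 1; apply Subtype.ext
        show (x : G) * _ * _ = (x * (m.toMul : G) * (x : G)⁻¹) * (x * (n.toMul : G) * (x : G)⁻¹)
        simp [mul_assoc] }
  have hval : ∀ (x y : (A ⊔ B : Subgroup G)) (n : Additive N), y • (x • n - n) = x • n - n ↔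
      (y : G) * (x * (n.toMul : G) * (x : G)⁻¹ * (n.toMul : G)⁻¹) =
        (x * (n.toMul : G) * (x : G)⁻¹ * (n.toMul : G)⁻¹) * y := by
    intro x y n
    have e : (((x • n - n).toMul : N) : G) = x * (n.toMul : G) * (x : G)⁻¹ * (n.toMul : G)⁻¹ := by
      rw [sub_eq_add_neg]; rfl
    rw [← e, ← mul_inv_eq_iff_eq_mul]
    exact ⟨fun h => congrArg (fun m : Additive N => ((m.toMul : N) : G)) h,
      fun h => congrArg Additive.ofMul (Subtype.ext h)⟩
  have h1 := special_of_quadratic (N := Additive N) (subgroupOf_rankOneGroup hp)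
    (fun a ha a' ha' n => (hval a a' n).2 (hq a ha a' ha' _ n.toMul.2))
    (by
      obtain ⟨x, hx, y, hy, n, hn, hne⟩ := hX
      exact ⟨⟨x, hx⟩, ⟨y, hy⟩, Additive.ofMul ⟨n, hn⟩, fun e => hne ((hval _ _ _).1 e)⟩)
  refine ⟨hp, fun a ha ha1 b hb hb1 e => ?_⟩
  have := h1.2 ⟨a, Subgroup.mem_sup_left ha⟩ ha (fun e => ha1 (congrArg Subtype.val e))
    ⟨b, Subgroup.mem_sup_right hb⟩ hb (fun e => hb1 (congrArg Subtype.val e)) (by
      apply Subgroup.map_injective (A ⊔ B).subtype_injective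
      rw [map_conjBy, map_conjBy, Subgroup.subgroupOf_map_subtype, Subgroup.subgroupOf_map_subtype,
        inf_eq_left.2 le_sup_left, inf_eq_left.2 le_sup_right]
      exact e)
  exact congrArg Subtype.val this

/-- a rank one pair `A, B` with `A` on a line is special -/
theorem special_of_line {A B C : Subgroup G} (hA : A ∈ S) (hB : B ∈ S) (hp : IsRankOnePair A B)
    (hC : C ∈ linePartners S A) : IsSpecialRankOnePair A B := by
  obtain ⟨F, hF, h1, h2, h3, -, -⟩ := line_normal_form hS hA hB hp hC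
  have hFD : Comm F ⁅B, F⁆ := (rcc_comm_right h1).symm
  have hAF : Comm A F := h3 ▸ (rcc_comm_left h2).symm
  have l1 := fun b (hb : b ∈ B) => rcc_conjBy_line (rcc_symm h1) hb
  have l2 := fun a (ha : a ∈ A) => rcc_conjBy_line (rcc_symm h2) ha
  rw [Subgroup.commutator_comm F B] at l1
  rw [Subgroup.commutator_comm _ A, h3, sup_comm] at l2
  have hcm := fun n (hn : n ∈ ⁅B, F⁆ ⊔ ⁅⁅B, F⁆, A⁆) a (ha : a ∈ A) => rcc_cm_line_mem (rcc_symm h2) hn ha
  rw [Subgroup.commutator_comm _ A, h3, sup_comm] at hcm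
  refine special_of_conj (N := F ⊔ ⁅B, F⁆) hp (((self_comm hS hF).sup_right hFD).sup_left
    (hFD.symm.sup_right (self_comm hS h1.1))) (fun a ha n hn => ?_) (fun b hb n hn => ?_)
    (fun a ha a' ha' n hn => ?_) ?_
  · rw [← l2 a ha]; exact conj_mem_conjBy hn a
  · rw [← l1 b hb]; exact conj_mem_conjBy hn b
  · refine hAF a' ha' _ ?_
    have := inv_mem (hcm n hn a ha)
    convert this using 1; group
  · obtain ⟨a, ha, ha1⟩ := exists_ne_one hS hA
    obtain ⟨b, hb, hb1⟩ := exists_ne_one hS hB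
    obtain ⟨f, hf, hf1⟩ := exists_ne_one hS hF
    obtain ⟨d, hd, rfl⟩ := rcc_exists_right h2 ha ha1 (h3.symm ▸ hf)
    refine ⟨a, Subgroup.mem_sup_left ha, b, Subgroup.mem_sup_right hb, d, Subgroup.mem_sup_right hd,
      fun e => hf1 ?_⟩
    exact rcc_inj_right hS hB ⟨A, hA, RankOnePair_symm hp⟩ h1 hb hb1 hf e

section Nondeg

variable (hc : IsConjClassOfSubgroups S) (hnd : IsNondegenerateRootSet S)
include hc hnd

theorem nondeg_hasOpp {A : Subgroup G} (hA : A ∈ S) : HasOpp S A := by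
  obtain ⟨A0, hA0, B0, hB0, hp⟩ := hnd.2.1
  exact hasOpp_of_class hS hc hA0 ⟨B0, hB0, hp⟩ hA

theorem nondeg_exists_rcc {A : Subgroup G} (hA : A ∈ S) : ∃ D ∈ S, RootCommutatorCase S A D := by
  obtain ⟨A0, hA0, B0, hB0, h⟩ := hnd.2.2
  obtain ⟨g, rfl⟩ := hc.2 A0 hA0 A hA
  exact ⟨_, hS.conj_mem B0 hB0 g, rcc_conj hS hA0 hB0 h g⟩

theorem nondeg_exists_line {A : Subgroup G} (hA : A ∈ S) : ∃ C, C ∈ linePartners S A := by
  obtain ⟨D, -, h⟩ := nondeg_exists_rcc hS hc hnd hA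
  exact ⟨_, rcc_line hS hA (nondeg_hasOpp hS hc hnd hA) h⟩

theorem nondeg_exists_config {A B : Subgroup G} (hA : A ∈ S) (hB : B ∈ S) (hp : IsRankOnePair A B) :
    ∃ F ∈ linePartners S A, RootCommutatorCase S B F ∧ RootCommutatorCase S A ⁅B, F⁆ ∧
      ⁅A, ⁅B, F⁆⁆ = F := by
  obtain ⟨C, hC⟩ := nondeg_exists_line hS hc hnd hA
  obtain ⟨F, -, h1, h2, h3, -, -⟩ := line_normal_form hS hA hB hp hC
  exact ⟨F, h3 ▸ rcc_line hS hA ⟨B, hB, hp⟩ h2, h1, h2, h3⟩

theorem nondeg_econnected : IsConnectedFamily (EAdj S S) S := by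
  intro A hA B hB
  have h := connected_of_class hS hc hA (nondeg_hasOpp hS hc hnd hA) A hA B hB
  clear hB
  induction h with
  | refl => exact .refl
  | @tail B C _ h2 ih =>
    obtain ⟨F, hF, h3, -, -⟩ := nondeg_exists_config hS hc hnd h2.1 h2.2.1 h2.2.2
    have hFS : F ∈ S := hF.1.1
    have l1 := rcc_line hS hFS (nondeg_hasOpp hS hc hnd hFS) (rcc_symm h3)
    rw [Subgroup.commutator_comm] at l1
    have l2 := rcc_line hS h2.2.1 (nondeg_hasOpp hS hc hnd h2.2.1) h3
    exact ((ih.tail ⟨h2.1, hFS, hF⟩).tail ⟨hFS, h3.1, l1⟩).tail ⟨h3.1, h2.2.1, line_symm h2.2.1 l2⟩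

theorem nondeg_generate {A B : Subgroup G} (hA : A ∈ S) (hB : B ∈ S) (hp : IsRankOnePair A B) :
    (⨆ C ∈ linePartners S A, C) ⊔ B = ⊤ := by
  set Y := (⨆ C ∈ linePartners S A, C) ⊔ B with hY
  have hO := fun {A : Subgroup G} (hA : A ∈ S) => nondeg_hasOpp hS hc hnd hA
  have hL : ∀ C ∈ linePartners S A, C ≤ Y := fun C hC =>
    (le_iSup₂_of_le (f := fun C (_ : C ∈ linePartners S A) => C) C hC le_rfl).trans le_sup_left
  -- every line partner of `A` is conjugate to `A` in `Y`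
  have key : ∀ C ∈ linePartners S A, ∃ y ∈ Y, C = conjBy A y := by
    intro C hC
    obtain ⟨F, hF, h1, h2, h3, h4, -⟩ := line_normal_form hS hA hB hp hC
    have hFL : F ∈ linePartners S A := h3 ▸ rcc_line hS hA (hO hA) h2
    have hD : ⁅B, F⁆ ≤ Y := (Subgroup.commutator_le_sup _ _).trans (sup_le le_sup_right (hL F hFL))
    rcases rcc_members hS hA (hO hA) h2 hC.1.1 (by rw [h3, ← h4]; exact le_sup_right) with e | ⟨d, hd, e⟩
    · rw [h3] at e
      subst e
      obtain ⟨D', hD', -, h5, h6⟩ := exists_opp_line hS h1.1 hA (hO hA) (rcc_symm h2) (by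
        rw [Subgroup.commutator_comm, h3]; exact hO hF)
      rw [Subgroup.commutator_comm ⁅B, C⁆, h3] at h6
      have h7 : RootCommutatorCase S D' C := rcc_of_mem hS hD' hF (h6.symm ▸ hA)
      have h8 : D' ∈ linePartners S A := line_symm hD' (h6 ▸ rcc_line hS hD' (hO hD') h7)
      obtain ⟨d', hd', hd1⟩ := exists_ne_one hS hD'
      have h9 := rcc_conjBy_le (rcc_symm h7) hd'
      rw [Subgroup.commutator_comm, h6, sup_comm] at h9
      obtain ⟨d, hd, e⟩ := (rcc_members hS hA (hO hA) h2 (hS.conj_mem C hF d') (h3.symm ▸ h9)).resolve_left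
        (h3.symm ▸ rcc_conjBy_ne hS (hO hF) (rcc_symm h7) hd' hd1)
      exact ⟨d'⁻¹ * d, mul_mem (inv_mem (hL D' h8 hd')) (hD hd), by
        rw [← conjBy_conjBy, ← e, conjBy_inv_conjBy]⟩
    · exact ⟨d, hD hd, e⟩
  have hconj : ∀ {C D : Subgroup G} (g : G), D ∈ linePartners S C →
      conjBy D g ∈ linePartners S (conjBy C g) := by
    intro C D g h
    refine ⟨⟨hS.conj_mem D h.1.1 g, fun e => h.1.2.1 (conjBy_inj.1 e),
      comm_iff.2 ((line_comm h).conj g)⟩, fun E hE => hE.2, ?_, ?_⟩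
    · intro x hx hx1
      rw [← conjBy_sup] at hx ⊢
      obtain ⟨F, hF, hle, hxF⟩ := line_exists h (mem_conjBy.1 hx) (by
        intro e; apply hx1
        calc x = g * (g⁻¹ * x * g) * g⁻¹ := by group
          _ = 1 := by rw [e]; simp)
      exact ⟨conjBy F g, ⟨hS.conj_mem F hF g, conjBy_mono hle g⟩, mem_conjBy.2 hxF⟩
    · intro E hE E' hE' hne
      rw [eq_bot_iff]
      rintro x ⟨h1, h2⟩
      by_contra hx1
      exact hne (ti hS (hO hE.1) hE'.1 h1 h2 hx1)
  have hall : ∀ C ∈ S, ∃ y ∈ Y, C = conjBy A y := by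
    intro C hC
    have h := nondeg_econnected hS hc hnd A hA C hC
    clear hC
    induction h with
    | refl => exact ⟨1, one_mem _, (conjBy_one _).symm⟩
    | tail _ h2 ih =>
      obtain ⟨y, hy, rfl⟩ := ih
      have := hconj y⁻¹ h2.2.2
      rw [conjBy_inv_conjBy] at this
      obtain ⟨z, hz, e⟩ := key _ this
      exact ⟨y * z, mul_mem hy hz, by rw [← conjBy_conjBy, ← e, conjBy_conjBy_inv]⟩
  obtain ⟨C, hC⟩ := nondeg_exists_line hS hc hnd hA
  have hAY : A ≤ Y := by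
    obtain ⟨y, hy, e⟩ := key C hC
    have := conjBy_le_of_mem (hL C hC) (inv_mem hy)
    rwa [e, conjBy_inv_conjBy] at this
  refine eq_top_of_forall_le hS fun D hD => ?_
  obtain ⟨y, hy, rfl⟩ := hall D hD
  exact conjBy_le_of_mem hAY hy

end Nondeg

end CL.RootSub
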