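import Cfsg.Agent.CHEV.RootSub

/-! Abstract root subgroups: lines, (2.8)-(2.11). -/

set_option autoImplicit false
open Cfsg CL.RankOne

namespace CL.RootSub

variable {G : Type*} [Group G] {S : Set (Subgroup G)} (hS : IsRootSubgroupSet S)
include hS

omit hS in
theorem comm_of_cm_eq_one {a b : G} (h : a * b * a⁻¹ * b⁻¹ = 1) : a * b = b * a :=
  commutatorElement_eq_one_iff_mul_comm.1 h

omit hS in
theorem cm_eq_one_of_comm {a b : G} (h : a * b = b * a) : a * b * a⁻¹ * b⁻¹ = 1 :=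
  commutatorElement_eq_one_iff_mul_comm.2 h

section RCC

variable {A B : Subgroup G}

omit hS in
theorem rcc_cm_line_mem (h : RootCommutatorCase S A B) {n b : G} (hn : n ∈ A ⊔ ⁅A, B⁆) (hb : b ∈ B) :
    n * b * n⁻¹ * b⁻¹ ∈ ⁅A, B⁆ := by
  obtain ⟨a, ha, c, hc, rfl⟩ := (mem_sup_comm (rcc_comm_left h).symm).1 hn
  have : a * c * b * (a * c)⁻¹ * b⁻¹ = a * b * a⁻¹ * b⁻¹ := by
    rw [mul_assoc a, rcc_comm_right h c hc b hb]; group
  rw [this]; exact cm_mem ha hb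

theorem rcc_ne (h : RootCommutatorCase S A B) : A ≠ ⁅A, B⁆ := by
  intro e
  exact rcc_not_comm hS h (e ▸ rcc_comm_right h)

theorem rcc_inf (hO : HasOpp S A) (h : RootCommutatorCase S A B) {e : G} (ha : e ∈ A) (he : e ∈ ⁅A, B⁆) :
    e = 1 := by
  by_contra h1
  exact rcc_ne hS h (ti hS hO h.1 ha he h1)

theorem rcc_conjBy_ne (hO : HasOpp S A) (h : RootCommutatorCase S A B) {b : G} (hb : b ∈ B)
    (hb1 : b ≠ 1) : conjBy A b ≠ A := by
  intro e
  have h1 := rcc_sup_conjBy h hb hb1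
  rw [e, sup_idem] at h1
  obtain ⟨x, hx, hx1⟩ := exists_ne_one hS h.1
  exact hx1 (rcc_inf hS hO h (by rw [h1]; exact Subgroup.mem_sup_right hx) hx)

theorem rcc_inj_right (hA : A ∈ S) (hO : HasOpp S A) (h : RootCommutatorCase S A B) {a b : G}
    (ha : a ∈ A) (ha1 : a ≠ 1) (hb : b ∈ B) (e : a * b = b * a) : b = 1 := by
  by_contra hb1
  refine rcc_conjBy_ne hS hO h hb hb1 (ti hS hO (hS.conj_mem A hA b) ha ?_ ha1).symm
  rw [mem_conjBy, mul_assoc, e, inv_mul_cancel_left]; exact ha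

/-- the members of `S` inside the line `A ⁅A, B⁆` -/
theorem rcc_members (hA : A ∈ S) (hO : HasOpp S A) (h : RootCommutatorCase S A B) {F : Subgroup G}
    (hF : F ∈ S) (hle : F ≤ A ⊔ ⁅A, B⁆) : F = ⁅A, B⁆ ∨ ∃ b ∈ B, F = conjBy A b := by
  by_cases hFE : F ≤ ⁅A, B⁆
  · left
    obtain ⟨D, hD, hp⟩ := id hO
    obtain ⟨a, ha, ha1⟩ := exists_ne_one hS hA
    have hnc : ∀ e ∈ ⁅A, B⁆, (∀ d ∈ D, d * e = e * d) → e = 1 := by
      intro e he hc
      obtain ⟨b, hb, e1⟩ := rcc_mul_eq_conj h ha ha1 he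
      exact eq_one_of_mul_mem hS hD hp (fun a ha => (rcc_comm_left h e he a ha).symm) hc ha ha1
        (hS.conj_mem A hA b) (e1 ▸ conj_mem_conjBy ha b)
    obtain ⟨f, hf, hf1⟩ := exists_ne_one hS hF
    have hOD : HasOpp S D := ⟨A, hA, RankOnePair_symm hp⟩
    rcases trichotomy hS hD hF with h1 | h1 | h1
    · exact absurd (hnc f (hFE hf) fun d hd => h1 d hd f hf) hf1
    · exact ti hS ⟨D, hD, RankOnePair_symm h1⟩ h.1 hf (hFE hf) hf1
    rcases trichotomy hS hD h.1 with h2 | h2 | h2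
    · exact absurd (hnc f (hFE hf) fun d hd => h2 d hd f (hFE hf)) hf1
    · exact (ti hS ⟨D, hD, RankOnePair_symm h2⟩ hF (hFE hf) hf hf1).symm
    refine le_antisymm hFE fun c hc => ?_
    obtain ⟨d, hd, hd1⟩ := exists_ne_one hS hD
    obtain ⟨d', hd', e1⟩ := rcc_exists_left h2 (hFE hf) hf1 (cm_mem hd hc)
    obtain ⟨f', hf', e2⟩ := rcc_exists_right h1 hd hd1 (cm_mem hd' hf)
    have h3 : f'⁻¹ * c = 1 := by
      refine rcc_inj_right hS hD hOD h2 hd hd1 (mul_mem (inv_mem (hFE hf')) hc) ?_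
      have e3 := e1.trans e2
      apply comm_of_cm_eq_one
      rw [rcc_mul_right h2 hd (inv_mem (hFE hf')) hc, rcc_inv_right h2 hd (hFE hf'), e3, inv_mul_cancel]
    rw [inv_mul_eq_one] at h3
    exact h3 ▸ hf'
  · right
    obtain ⟨f, hf, hfE⟩ := SetLike.not_le_iff_exists.1 hFE
    obtain ⟨a, ha, e, he, rfl⟩ := (mem_sup_comm (rcc_comm_left h).symm).1 (hle hf)
    have ha1 : a ≠ 1 := by rintro rfl; exact hfE (by simpa using he)
    obtain ⟨b, hb, e1⟩ := rcc_mul_eq_conj h ha ha1 he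
    refine ⟨b, hb, (ti hS (hO.conj hS b) hF (e1 ▸ conj_mem_conjBy ha b) hf ?_).symm⟩
    rw [e1]; simpa using ha1

theorem rcc_partition (hA : A ∈ S) (hO : HasOpp S A) (h : RootCommutatorCase S A B) :
    IsSubgroupPartition (A ⊔ ⁅A, B⁆) (membersIn S (A ⊔ ⁅A, B⁆)) := by
  refine ⟨fun C hC => hC.2, ?_, ?_⟩
  · intro x hx hx1
    obtain ⟨a, ha, e, he, rfl⟩ := (mem_sup_comm (rcc_comm_left h).symm).1 hx
    by_cases ha1 : a = 1
    · exact ⟨⁅A, B⁆, ⟨h.1, le_sup_right⟩, by simpa [ha1] using he⟩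
    · obtain ⟨b, hb, e1⟩ := rcc_mul_eq_conj h ha ha1 he
      exact ⟨conjBy A b, ⟨hS.conj_mem A hA b, rcc_conjBy_le h hb⟩, e1 ▸ conj_mem_conjBy ha b⟩
  · intro C hC D hD hne
    rw [eq_bot_iff]
    rintro x ⟨hxC, hxD⟩
    by_contra hx1
    rcases rcc_members hS hA hO h hC.1 hC.2 with rfl | ⟨b, -, rfl⟩
    · rcases rcc_members hS hA hO h hD.1 hD.2 with rfl | ⟨b, -, rfl⟩
      · exact hne rfl
      · exact hne (ti hS (hO.conj hS b) hC.1 hxD hxC hx1).symm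
    · exact hne (ti hS (hO.conj hS b) hD.1 hxC hxD hx1)

omit hS in
theorem line_symm {A C : Subgroup G} (hA : A ∈ S) (h : C ∈ linePartners S A) : A ∈ linePartners S C := by
  refine ⟨⟨hA, h.1.2.1.symm, by rw [Subgroup.commutator_comm]; exact h.1.2.2⟩, ?_⟩
  rw [sup_comm]; exact h.2

theorem rcc_line (hA : A ∈ S) (hO : HasOpp S A) (h : RootCommutatorCase S A B) :
    ⁅A, B⁆ ∈ linePartners S A :=
  ⟨⟨h.1, (rcc_ne hS h).symm, comm_iff.2 (rcc_comm_left h).symm⟩, rcc_partition hS hA hO h⟩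

end RCC

omit hS in
theorem line_comm {A C : Subgroup G} (h : C ∈ linePartners S A) : Comm A C := comm_iff.1 h.1.2.2

omit hS in
theorem line_exists {A C : Subgroup G} (h : C ∈ linePartners S A) {x : G} (hx : x ∈ A ⊔ C)
    (hx1 : x ≠ 1) : ∃ F ∈ S, F ≤ A ⊔ C ∧ x ∈ F := by
  obtain ⟨F, hF, hxF⟩ := h.2.2.1 x hx hx1
  exact ⟨F, hF.1, hF.2, hxF⟩

/-- any two different members of a line span it, partitioned -/
theorem line_of_eq {A C A' C' : Subgroup G} (h : C ∈ linePartners S A) (hA : A ∈ S) (hC' : C' ∈ S)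
    (hne : C' ≠ A') (e : A' ⊔ C' = A ⊔ C) : C' ∈ linePartners S A' := by
  have hc : Comm (A ⊔ C) (A ⊔ C) :=
    ((self_comm hS hA).sup_right (line_comm h)).sup_left
      ((line_comm h).symm.sup_right (self_comm hS h.1.1))
  refine ⟨⟨hC', hne, comm_iff.2 (hc.mono (e ▸ le_sup_left) (e ▸ le_sup_right))⟩, ?_⟩
  rw [e]; exact h.2

section L1

variable {A B C : Subgroup G} (hA : A ∈ S) (hB : B ∈ S) (hC : C ∈ S) (hp : IsRankOnePair A B)
  (hAC : Comm A C) (hBC : RootCommutatorCase S B C)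
include hA hB hC hp hAC hBC

theorem l1_rcc : RootCommutatorCase S A ⁅B, C⁆ := by
  obtain ⟨d, hd, hd1⟩ := exists_ne_one hS hBC.1
  rcases trichotomy hS hA hBC.1 with h | h | h
  · exfalso
    obtain ⟨b, hb, hb1⟩ := exists_ne_one hS hB
    obtain ⟨c, hc, e⟩ := rcc_mul_eq_conj hBC hb hb1 hd
    exact hd1 (eq_one_of_mul_mem hS hA (RankOnePair_symm hp)
      (fun b hb => (rcc_comm_left hBC d hd b hb).symm) (fun a ha => h a ha d hd) hb hb1
      (hS.conj_mem B hB c) (e ▸ conj_mem_conjBy hb c))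
  · exfalso
    obtain ⟨c, hc, hc1⟩ := exists_ne_one hS hC
    have hs := rcc_symm hBC
    obtain ⟨b, hb, e⟩ := rcc_mul_eq_conj hs hc hc1 (by rw [Subgroup.commutator_comm]; exact hd)
    refine hc1 (eq_one_of_mul_mem hS hA (RankOnePair_symm h)
      (fun d hd => rcc_comm_right hBC d hd c hc) (fun a ha => hAC a ha c hc) hd hd1
      (hS.conj_mem C hC b) ?_)
    rw [rcc_comm_right hBC d hd c hc, e]; exact conj_mem_conjBy hc b
  · exact h

omit hS hA hB hC hp in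
theorem l1_comm : Comm C ⁅A, ⁅B, C⁆⁆ :=
  (hAC.symm.sup_right (rcc_comm_right hBC).symm).mono le_rfl (Subgroup.commutator_le_sup _ _)

omit hS hA hB hC in
theorem l1_aux {a c : G} (ha : a ∈ A) (ha1 : a ≠ 1) (hc : c ∈ C) :
    ∀ b ∈ B, b * (c * (a * (c⁻¹ * (pt A B a)⁻¹ * c * pt A B a) * a⁻¹ *
        (c⁻¹ * (pt A B a)⁻¹ * c * pt A B a)⁻¹)) =
      (c * (a * (c⁻¹ * (pt A B a)⁻¹ * c * pt A B a) * a⁻¹ *
        (c⁻¹ * (pt A B a)⁻¹ * c * pt A B a)⁻¹)) * b := by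
  intro b hb
  set b0 := pt A B a with hb0
  set d := c⁻¹ * b0⁻¹ * c * b0 with hd
  have hdD : d ∈ ⁅B, C⁆ := by
    rw [Subgroup.commutator_comm]
    simpa using cm_mem (inv_mem hc) (inv_mem (pt_mem A B a))
  have h1 : Comm B (conjBy C (a * b0⁻¹)) := by
    have := hAC.conj (a * b0⁻¹)
    rwa [← conjBy_conjBy A, pt_conj hp ha ha1, conjBy_conjBy_inv] at this
  have h2 := h1 b hb _ (conj_mem_conjBy hc (a * b0⁻¹))
  have e : a * b0⁻¹ * c * (a * b0⁻¹)⁻¹ = c * (a * d * a⁻¹ * d⁻¹) * d := by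
    calc a * b0⁻¹ * c * (a * b0⁻¹)⁻¹ = (a * c) * d * a⁻¹ := by rw [hd]; group
      _ = _ := by rw [hAC a ha c hc]; group
  rw [e] at h2
  have h3 := rcc_comm_left hBC d hdD b hb
  apply mul_right_cancel (b := d)
  rw [mul_assoc b, h2, mul_assoc _ d, h3, mul_assoc _ b]

omit hB hC in
theorem l1_exists_left {c : G} (hc : c ∈ C) :
    ∃ e ∈ ⁅A, ⁅B, C⁆⁆, ∀ b ∈ B, b * (c * e) = c * e * b := by
  obtain ⟨a, ha, ha1⟩ := exists_ne_one hS hA
  refine ⟨_, cm_mem ha ?_, l1_aux hp hAC hBC ha ha1 hc⟩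
  rw [Subgroup.commutator_comm]
  simpa using cm_mem (inv_mem hc) (inv_mem (pt_mem A B a))

theorem l1_exists_right {e : G} (he : e ∈ ⁅A, ⁅B, C⁆⁆) :
    ∃ c ∈ C, ∀ b ∈ B, b * (c * e) = c * e * b := by
  obtain ⟨a, ha, ha1⟩ := exists_ne_one hS hA
  obtain ⟨d, hd, rfl⟩ := rcc_exists_right (l1_rcc hS hA hB hC hp hAC hBC) ha ha1 he
  obtain ⟨c, hc, rfl⟩ := rcc_exists_left (rcc_symm hBC) (inv_mem (pt_mem A B a))
    (inv_ne_one.2 (pt_ne_one hp ha ha1)) (by rw [Subgroup.commutator_comm]; exact hd)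
  refine ⟨c⁻¹, inv_mem hc, ?_⟩
  simpa only [inv_inv] using l1_aux hp hAC hBC ha ha1 (inv_mem hc)

theorem l1_rcc' : RootCommutatorCase S B ⁅A, ⁅B, C⁆⁆ := by
  have h1 := l1_rcc hS hA hB hC hp hAC hBC
  obtain ⟨e, he, he1⟩ := exists_ne_one hS h1.1
  rcases trichotomy hS hB h1.1 with h | h | h
  · exfalso
    obtain ⟨a, ha, ha1⟩ := exists_ne_one hS hA
    obtain ⟨d, hd, e1⟩ := rcc_mul_eq_conj h1 ha ha1 he
    exact he1 (eq_one_of_mul_mem hS hB hp (fun a ha => (rcc_comm_left h1 e he a ha).symm)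
      (fun b hb => h b hb e he) ha ha1 (hS.conj_mem A hA d) (e1 ▸ conj_mem_conjBy ha d))
  · exfalso
    obtain ⟨c, hc, h2⟩ := l1_exists_right hS hA hB hC hp hAC hBC he
    have h3 : conjBy B e = conjBy B c⁻¹ := by
      rw [← conjBy_eq_iff_eq_conjBy_inv, conjBy_conjBy]
      exact conjBy_eq_of_forall_comm h2
    have := pair_conjBy_self h he he1
    rw [h3] at this
    exact (rcc_comm_conjBy hS hB hBC (inv_mem hc)).not_pair this
  · exact h

theorem l1_eq (hw : ∀ a ∈ A, a ≠ 1 → ∀ c ∈ C, ∃ F ∈ S, a * c ∈ F) : ⁅A, ⁅B, C⁆⁆ = C := by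
  have h1 := l1_rcc hS hA hB hC hp hAC hBC
  have key : ∀ c ∈ C, ∀ e ∈ ⁅A, ⁅B, C⁆⁆, (∀ b ∈ B, b * (c * e) = c * e * b) → c * e = 1 := by
    intro c hc e he h2
    obtain ⟨a, ha, ha1⟩ := exists_ne_one hS hA
    obtain ⟨F, hF, haF⟩ := hw a ha ha1 c hc
    obtain ⟨d, hd, e1⟩ := rcc_mul_eq_conj h1 ha ha1 (inv_mem he)
    have h3 : d * (c * e) = c * e * d := by
      rw [← mul_assoc, rcc_comm_right hBC d hd c hc, mul_assoc, ← rcc_comm_right h1 e he d hd, mul_assoc]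
    have h4 : ∀ a ∈ A, a * (c * e) = c * e * a := fun a ha => by
      rw [← mul_assoc, hAC a ha c hc, mul_assoc, ← rcc_comm_left h1 e he a ha, mul_assoc]
    refine eq_one_of_mul_mem hS hB hp h4 h2 ha ha1 (hS.conj_mem F hF d⁻¹) ?_
    rw [mem_conjBy, inv_inv]
    have : d * (a * (c * e)) * d⁻¹ = a * c := by
      calc d * (a * (c * e)) * d⁻¹ = (d * a * d⁻¹) * (d * (c * e)) * d⁻¹ := by group
        _ = a * (e⁻¹ * (c * e)) := by rw [← e1, h3]; group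
        _ = a * c := by rw [l1_comm hAC hBC c hc e he]; group
    rw [this]; exact haF
  apply le_antisymm
  · intro e he
    obtain ⟨c, hc, h2⟩ := l1_exists_right hS hA hB hC hp hAC hBC he
    rw [← inv_inv e, ← eq_inv_of_mul_eq_one_left (key c hc e he h2)]
    exact inv_mem hc
  · intro c hc
    obtain ⟨e, he, h2⟩ := l1_exists_left hS hA hp hAC hBC hc
    rw [eq_inv_of_mul_eq_one_left (key c hc e he h2)]
    exact inv_mem he

end L1

/-- normal form of a line with respect to an opposite member -/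
theorem line_normal_form {A B C : Subgroup G} (hA : A ∈ S) (hB : B ∈ S) (hp : IsRankOnePair A B)
    (hC : C ∈ linePartners S A) :
    ∃ F ∈ S, RootCommutatorCase S B F ∧ RootCommutatorCase S A ⁅B, F⁆ ∧ ⁅A, ⁅B, F⁆⁆ = F ∧
      A ⊔ C = A ⊔ F ∧ (F = C ∨ IsRankOnePair C B) := by
  have hCS : C ∈ S := hC.1.1
  have hAC := line_comm hC
  have hO : HasOpp S A := ⟨B, hB, hp⟩
  have hs := RankOnePair_symm hp
  have hLA : Comm A (A ⊔ C) := (self_comm hS hA).sup_right hAC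
  have hw : ∀ F ∈ S, F ≠ A → F ≤ A ⊔ C → ∀ a ∈ A, a ≠ 1 → ∀ f ∈ F, ∃ F' ∈ S, a * f ∈ F' := by
    intro F hF hne hle a ha ha1 f hf
    obtain ⟨F', hF', -, h⟩ := line_exists hC (mul_mem (Subgroup.mem_sup_left ha) (hle hf)) (by
      intro e
      rw [mul_eq_one_iff_eq_inv] at e
      exact hne (ti hS hO hF ha (e ▸ inv_mem hf) ha1).symm)
    exact ⟨F', hF', h⟩
  have hnc : ∀ F ∈ S, F ≠ A → F ≤ A ⊔ C → ¬ Comm B F := by
    intro F hF hne hle hc
    obtain ⟨a, ha, ha1⟩ := exists_ne_one hS hA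
    obtain ⟨f, hf, hf1⟩ := exists_ne_one hS hF
    obtain ⟨F', hF', h⟩ := hw F hF hne hle a ha ha1 f hf
    exact hf1 (eq_one_of_mul_mem hS hB hp (fun a ha => hLA a ha f (hle hf)) (fun b hb => hc b hb f hf)
      ha ha1 hF' h)
  have hl1 : ∀ F ∈ S, F ≠ A → F ≤ A ⊔ C → RootCommutatorCase S B F →
      RootCommutatorCase S A ⁅B, F⁆ ∧ ⁅A, ⁅B, F⁆⁆ = F := fun F hF hne hle h =>
    ⟨l1_rcc hS hA hB hF hp (hLA.mono le_rfl hle) h,
      l1_eq hS hA hB hF hp (hLA.mono le_rfl hle) h (hw F hF hne hle)⟩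
  rcases trichotomy hS hB hCS with h | h | h
  · exact absurd h (hnc C hCS hC.1.2.1 le_sup_right)
  · obtain ⟨b, hb, hb1⟩ := exists_ne_one hS hB
    have ha := pt_mem B A b
    have hc := pt_mem B C b
    have ha1 := pt_ne_one hs hb hb1
    have hc1 := pt_ne_one h hb hb1
    have ea := pt_conj hs hb hb1
    have ec := pt_conj h hb hb1
    set a := pt B A b
    set c := pt B C b
    have hcA : c ∉ A := fun hcA => hC.1.2.1 (ti hS hO hCS hcA hc hc1).symm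
    have hf1 : a * c⁻¹ ≠ 1 := fun e => hcA (mul_inv_eq_one.1 e ▸ ha)
    obtain ⟨F, hF, hle, hf⟩ := line_exists hC
      (mul_mem (Subgroup.mem_sup_left ha) (Subgroup.mem_sup_right (inv_mem hc))) hf1
    have hFA : F ≠ A := by
      rintro rfl
      exact hcA (by simpa using inv_mem (mul_mem (inv_mem ha) hf))
    have hcm : Comm B (conjBy B (a * c⁻¹)) := by
      have := (hAC.conj b⁻¹).conj a
      rwa [← ea, ← ec, conjBy_conjBy_inv, conjBy_conjBy] at this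
    have hBF : RootCommutatorCase S B F := by
      rcases trichotomy hS hB hF with h' | h' | h'
      · exact absurd h' (hnc F hF hFA hle)
      · exact absurd (pair_conjBy_self h' hf hf1) hcm.not_pair
      · exact h'
    obtain ⟨h1, h2⟩ := hl1 F hF hFA hle hBF
    refine ⟨F, hF, hBF, h1, h2, ?_, Or.inr (RankOnePair_symm h)⟩
    obtain ⟨d, hd, e⟩ := rcc_mul_eq_conj h1 ha ha1 (h2.symm ▸ inv_mem hf)
    have e1 : c = d * a * d⁻¹ := by rw [← e, mul_inv_rev, inv_inv, ← mul_assoc, hAC a ha c hc]; group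
    have e2 : conjBy A d = C := ti hS (hO.conj hS d) hCS (e1 ▸ conj_mem_conjBy ha d) hc hc1
    have hd1 : d ≠ 1 := by rintro rfl; rw [conjBy_one] at e2; exact hC.1.2.1 e2.symm
    rw [← e2, rcc_sup_conjBy h1 hd hd1, h2]
  · obtain ⟨h1, h2⟩ := hl1 C hCS hC.1.2.1 le_sup_right h
    exact ⟨C, hCS, h, h1, h2, rfl, Or.inl rfl⟩

section Hex

variable {A B D : Subgroup G} (hA : A ∈ S) (hB : B ∈ S) (hD : D ∈ S) (hAB : RootCommutatorCase S A B)
  (hDC : ⁅D, ⁅A, B⁆⁆ = A)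
include hA hB hD hAB hDC

omit hB in
theorem hex_rcc : RootCommutatorCase S D ⁅A, B⁆ := rcc_of_mem hS hD hAB.1 (by rw [hDC]; exact hA)

/-- (2.10): the pair `B, D` is a rank one pair -/
theorem hex_pair : IsRankOnePair B D := by
  by_contra hnp
  have h2 := hex_rcc hS hA hD hAB hDC
  have hAD : Comm A D := hDC ▸ rcc_comm_left h2
  obtain ⟨d, hd, hd1⟩ := exists_ne_one hS hD
  obtain ⟨b, hb, hb1⟩ := exists_ne_one hS hB
  have hc := comm_conjBy_of_not_pair hS hB hD hnp hd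
  -- `C ≤ C^d`
  have hle : ⁅A, B⁆ ≤ conjBy ⁅A, B⁆ d := by
    intro e he
    obtain ⟨a, ha, rfl⟩ := rcc_exists_left hAB hb hb1 he
    obtain ⟨c, hc', e1⟩ := rcc_exists_right h2 hd hd1 (hDC.symm ▸ ha)
    obtain ⟨a', ha', e2⟩ := rcc_exists_left hAB hb hb1 hc'
    set b' := d * b * d⁻¹ with hb'
    have hbb' : b * b' = b' * b := hc b hb b' (conj_mem_conjBy hb d)
    -- `d c d⁻¹ = [a', b']`
    have e3 : d * c * d⁻¹ = a' * b' * a'⁻¹ * b'⁻¹ := by
      have := hAD a' ha' d hd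
      rw [e2, hb']
      calc d * (a' * b * a'⁻¹ * b⁻¹) * d⁻¹ = (d * a') * b * (d * a')⁻¹ * (d * b⁻¹ * d⁻¹) := by group
        _ = _ := by rw [← this]; group
    have hcb : c * b = b * c := rcc_comm_right hAB c hc' b hb
    have e4 : a * b * a⁻¹ * b⁻¹ = (d * c * d⁻¹) * (b * (d * c * d⁻¹)⁻¹ * b⁻¹) := by
      calc a * b * a⁻¹ * b⁻¹ = (d * c * d⁻¹) * (c⁻¹ * b * c) * (d * c * d⁻¹)⁻¹ * b⁻¹ := by
            rw [e1]; group
        _ = _ := by rw [mul_assoc c⁻¹, ← hcb]; group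
    rw [e4]
    refine mul_mem (conj_mem_conjBy hc' d) ?_
    have hn : d⁻¹ * (b * a' * b⁻¹) * d ∈ A ⊔ ⁅A, B⁆ := by
      have h3 := rcc_conjBy_line (rcc_symm h2) hd
      rw [Subgroup.commutator_comm _ D, hDC, sup_comm] at h3
      rw [← mem_conjBy, h3]
      exact rcc_conjBy_le hAB hb (conj_mem_conjBy ha' b)
    have e5 : b * (d * c * d⁻¹)⁻¹ * b⁻¹ = d * ((d⁻¹ * (b * a' * b⁻¹) * d) * b *
        (d⁻¹ * (b * a' * b⁻¹) * d)⁻¹ * b⁻¹)⁻¹ * d⁻¹ := by
      rw [e3]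
      have e6 : b * b' * b⁻¹ = b' := by rw [hbb']; group
      calc b * (a' * b' * a'⁻¹ * b'⁻¹)⁻¹ * b⁻¹
          = (b * b' * b⁻¹) * (b * a' * b⁻¹) * (b * b' * b⁻¹)⁻¹ * (b * a' * b⁻¹)⁻¹ := by group
        _ = _ := by rw [e6, hb']; group
    rw [e5]
    exact conj_mem_conjBy (inv_mem (rcc_cm_line_mem hAB hn hb)) d
  apply rcc_not_comm hS hAB
  refine (rcc_comm_right hAB).mono (fun a ha => ?_) le_rfl
  obtain ⟨c, hc', rfl⟩ := rcc_exists_right h2 (inv_mem hd) (inv_ne_one.2 hd1) (hDC.symm ▸ ha)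
  refine mul_mem ?_ (inv_mem hc')
  rw [inv_inv]; exact mem_conjBy.1 (hle hc')

theorem hex_conj {b d : G} (hb : b ∈ B) (hb1 : b ≠ 1) (hd : d ∈ D) (e : conjBy D b = conjBy B d) :
    conjBy A b = conjBy ⁅A, B⁆ d := by
  have hp := hex_pair hS hA hB hD hAB hDC
  have h2 := hex_rcc hS hA hD hAB hDC
  have hAD : Comm A D := hDC ▸ rcc_comm_left h2
  have hOB : HasOpp S B := ⟨D, hD, hp⟩
  have hOD : HasOpp S D := ⟨B, hB, RankOnePair_symm hp⟩
  have h3 := rcc_conjBy_line (rcc_symm h2) hd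
  rw [Subgroup.commutator_comm _ D, hDC, sup_comm] at h3
  have hd1 : d ≠ 1 := by
    rintro rfl
    rw [conjBy_one] at e
    exact conjBy_right_ne_left hp hb e
  apply le_antisymm
  · intro x hx
    have hxN : d⁻¹ * x * d ∈ A ⊔ ⁅A, B⁆ := by
      rw [← mem_conjBy, h3]; exact rcc_conjBy_le hAB hb hx
    obtain ⟨a, ha, c, hc, e1⟩ := (mem_sup_comm (rcc_comm_left hAB).symm).1 hxN
    have h4 := (e ▸ hAD.conj b) x hx _ (conj_mem_conjBy hb d)
    have h5 : a * c * b = b * (a * c) := by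
      rw [← e1]
      calc d⁻¹ * x * d * b = d⁻¹ * (x * (d * b * d⁻¹)) * d := by group
        _ = _ := by rw [h4]; group
    have h6 : a = 1 := by
      refine rcc_inj_right hS hB hOB (rcc_symm hAB) hb hb1 ha ?_
      rw [mul_assoc, rcc_comm_right hAB c hc b hb, ← mul_assoc, ← mul_assoc, mul_left_inj] at h5
      exact h5.symm
    rw [mem_conjBy, e1, h6, one_mul]; exact hc
  · intro x hx
    have hxN : b⁻¹ * x * b ∈ A ⊔ ⁅A, B⁆ := by
      rw [← mem_conjBy, rcc_conjBy_line hAB hb, ← h3]; exact conjBy_mono le_sup_right d hx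
    obtain ⟨a, ha, c, hc, e1⟩ := (mem_sup_comm (rcc_comm_left hAB).symm).1 hxN
    have h4 := (e.symm ▸ (rcc_comm_right hAB).conj d) x hx _ (conj_mem_conjBy hd b)
    have h5 : a * c * d = d * (a * c) := by
      rw [← e1]
      calc b⁻¹ * x * b * d = b⁻¹ * (x * (b * d * b⁻¹)) * b := by group
        _ = _ := by rw [h4]; group
    have h6 : c = 1 := by
      refine rcc_inj_right hS hD hOD h2 hd hd1 hc ?_
      rw [← mul_assoc, ← hAD a ha d hd, mul_assoc, mul_assoc, mul_right_inj] at h5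
      exact h5.symm
    rw [mem_conjBy, e1, h6, mul_one]; exact ha

end Hex

/-- the hexagon: if `E = ⁅A, C⁆` has an opposite member then some line partner of `C` is opposite to `A` -/
theorem exists_opp_line {A C : Subgroup G} (hA : A ∈ S) (hC : C ∈ S)
    (hOC : HasOpp S C) (h : RootCommutatorCase S A C) (hO : HasOpp S ⁅A, C⁆) :
    ∃ D ∈ S, IsRankOnePair A D ∧ Comm C D ∧ ⁅D, ⁅A, C⁆⁆ = C := by
  obtain ⟨B, hB, hp⟩ := id hO
  have hs := rcc_symm h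
  have hE : ⁅C, A⁆ = ⁅A, C⁆ := Subgroup.commutator_comm _ _
  have hl : C ∈ linePartners S ⁅A, C⁆ := hE ▸ line_symm hC (rcc_line hS hC hOC hs)
  obtain ⟨F, hF, h1, h2, h3, h4, -⟩ := line_normal_form hS h.1 hB hp hl
  have hFE : F ≠ ⁅A, C⁆ := fun e => rcc_not_pair hS hB h1 (e ▸ RankOnePair_symm hp)
  obtain ⟨a, ha, rfl⟩ := (rcc_members hS hC hOC hs hF (by
    rw [hE, sup_comm, h4]; exact le_sup_right)).resolve_left (hE ▸ hFE)
  have h5 := rcc_conj hS h.1 h1.1 h2 a⁻¹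
  have h6 := congrArg (fun X => conjBy X a⁻¹) h3
  simp only [conjBy_inv_conjBy] at h6
  rw [conjBy_commutator, (rcc_comm_left h).conjBy_eq (inv_mem ha)] at h6
  rw [(rcc_comm_left h).conjBy_eq (inv_mem ha)] at h5
  have hD := hS.conj_mem _ h1.1 a⁻¹
  have h7 : ⁅conjBy ⁅B, conjBy C a⁆ a⁻¹, ⁅C, A⁆⁆ = C := by rw [hE, Subgroup.commutator_comm, h6]
  refine ⟨_, hD, hex_pair hS hC hA hD hs h7, ?_, hE ▸ h7⟩
  have := rcc_comm_right h5
  rwa [h6] at this

end CL.RootSub
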