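/-
CHEV library: the values of the Steinberg character at elements of order prime to the characteristic.
-/
import Cfsg.Agent.CHEV.StChev
import Cfsg.Agent.CHEV.BorelTits
import Cfsg.Agent.SOLV.Coprime

set_option autoImplicit false
set_option linter.unusedSectionVars false

namespace CL.Cox.Exch

variable {W ι : Type*} [Group W] {s : ι → W} (h : Exch s)
include h

theorem kilmoyer {I J : Set ι} {w u v : W} (hL : LRed s I w) (hR : RRed s J w)
    (hu : u ∈ Subgroup.closure (s '' I)) (hv : v ∈ Subgroup.closure (s '' J)) (e : u * w = w * v) :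
    u ∈ Subgroup.closure (s '' {i | i ∈ I ∧ ∃ j ∈ J, s i * w = w * s j}) ∧
      v ∈ Subgroup.closure (s '' {j | j ∈ J ∧ ∃ i ∈ I, s i * w = w * s j}) := by
  have g := h.toGen
  induction hn : len s u using Nat.strong_induction_on generalizing u v with | _ n ih => ?_
  by_cases h1 : u = 1
  · subst h1
    obtain rfl : v = 1 := by simpa using e
    exact ⟨one_mem _, one_mem _⟩
  obtain ⟨i₀, hi₀⟩ := g.exists_left_descent h1
  obtain ⟨i, hi, e'⟩ := h.simple_mem_closure_iff.1 (h.simple_mem_closure_of_left_descent hu (i := i₀) (by omega))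
  rw [← e'] at hi₀
  have hsi : s i ∈ Subgroup.closure (s '' I) := Subgroup.subset_closure ⟨i, hi, rfl⟩
  have h2 := h.len_mul_of_lRed hL hu
  have h3 := h.len_mul_of_rRed hR hv
  have h4 := h.len_mul_of_lRed hL (mul_mem hsi hu)
  have h5 := hL i hi
  have h6 : ¬ RRed s J (s i * w) := fun h6 => by
    have := h.len_mul_of_rRed h6 hv
    rw [mul_assoc, ← e, ← mul_assoc] at this
    rw [e] at h2
    omega
  simp only [RRed, not_forall, not_lt] at h6
  obtain ⟨j, hj, h6⟩ := h6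
  have h7 := hR j hj
  have h8 := g.len_simple_mul_le i w
  have e1 := h.folding h5 h7 (by omega)
  obtain ⟨a, b⟩ := ih _ (by omega) (mul_mem hsi hu) (mul_mem (Subgroup.subset_closure ⟨j, hj, rfl⟩) hv)
    (by rw [mul_assoc, e, ← mul_assoc, e1, mul_assoc]) rfl
  exact ⟨(Subgroup.mul_mem_cancel_left _ (Subgroup.subset_closure (Set.mem_image_of_mem s
      (show i ∈ {i | i ∈ I ∧ ∃ j ∈ J, s i * w = w * s j} from ⟨hi, j, hj, e1⟩)))).1 a,
    (Subgroup.mul_mem_cancel_left _ (Subgroup.subset_closure (Set.mem_image_of_mem s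
      (show j ∈ {j | j ∈ J ∧ ∃ i ∈ I, s i * w = w * s j} from ⟨hj, i, hi, e1⟩)))).1 b⟩

variable [Finite W]

theorem exists_longest_conj {K : Set ι} {i : ι} (hi : i ∈ K) :
    ∃ j ∈ K, s i * h.longest K = h.longest K * s j := by
  have hs : s i ∈ Subgroup.closure (s '' K) := Subgroup.subset_closure ⟨i, hi, rfl⟩
  have h1 := h.len_mul_longest_add hs
  have h2 := h.len_longest_mul_add (mul_mem hs (h.longest_mem K))
  rw [h.len_simple] at h1
  obtain ⟨k, hk⟩ := h.len_eq_one_iff.1 (show len s (h.longest K * (s i * h.longest K)) = 1 by omega)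
  obtain ⟨j, hj, e⟩ := h.simple_mem_closure_iff.1
    (hk ▸ mul_mem (h.longest_mem K) (mul_mem hs (h.longest_mem K)))
  exact ⟨j, hj, by rw [e, ← hk, ← mul_assoc, h.longest_mul_self, one_mul]⟩

theorem exists_longest_conj' {K : Set ι} {j : ι} (hj : j ∈ K) :
    ∃ i ∈ K, s i * h.longest K = h.longest K * s j := by
  obtain ⟨i, hi, e⟩ := h.exists_longest_conj hj
  refine ⟨i, hi, ?_⟩
  rw [← inv_inj, mul_inv_rev, mul_inv_rev, h.longest_inv, h.toGen.inv_simple, h.toGen.inv_simple, e]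

theorem eq_longest_mul_iff {I : Set ι} {w : W} : w = h.longest I * h.longest Set.univ ↔
    LRed s I w ∧ (∀ i ∈ I, ∃ j, s i * w = w * s j) ∧
      ∀ j, len s w < len s (w * s j) → ∃ i ∈ I, s i * w = w * s j := by
  have g := h.toGen
  have hU : ∀ u, u ∈ Subgroup.closure (s '' Set.univ) := fun u => by
    rw [Set.image_univ, g.closure_eq_top]; trivial
  constructor
  · rintro rfl
    have h1 := h.len_mul_longest_add (hU (h.longest I))
    refine ⟨fun i hi => ?_, fun i hi => ?_, fun j hj => ?_⟩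
    · have h2 := h.len_mul_longest_add (hU (s i * h.longest I))
      have h3 := h.len_mul_longest_add (K := I) (Subgroup.subset_closure ⟨i, hi, rfl⟩)
      rw [h.len_simple] at h3
      rw [← mul_assoc]
      omega
    · obtain ⟨k, -, e⟩ := h.exists_longest_conj hi
      obtain ⟨j, -, e'⟩ := h.exists_longest_conj (Set.mem_univ k)
      exact ⟨j, by rw [← mul_assoc, e, mul_assoc, e', mul_assoc]⟩
    · obtain ⟨k, -, e⟩ := h.exists_longest_conj' (Set.mem_univ j)
      rw [mul_assoc _ _ (s j), ← e, ← mul_assoc] at hj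
      have h2 := h.len_mul_longest_add (hU (h.longest I * s k))
      have h3 : s k ∈ Subgroup.closure (s '' I) := by
        refine h.simple_mem_closure_of_left_descent (h.longest_mem I) ?_
        rw [g.len_mul_simple_eq, h.longest_inv] at h2
        rw [← h.longest_inv, ← g.len_mul_simple_eq, h.longest_inv, g.len_mul_simple_eq, h.longest_inv]
        omega
      obtain ⟨k', hk', e'⟩ := h.simple_mem_closure_iff.1 h3
      obtain ⟨i, hi, e''⟩ := h.exists_longest_conj' hk'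
      exact ⟨i, hi, by rw [← mul_assoc, e'', e', mul_assoc, e, mul_assoc]⟩
  · rintro ⟨h1, -, h3⟩
    have h4 := h.len_mul_of_lRed h1 (h.longest_mem I)
    rw [← inv_mul_eq_iff_eq_mul, h.longest_inv]
    refine h.eq_longest_iff.2 ⟨hU _, fun j _ => ?_⟩
    by_cases hj : len s w < len s (w * s j)
    · obtain ⟨i, hi, e⟩ := h3 j hj
      have h5 := h.len_longest_mul_le hi
      have h6 := g.len_mul_le (h.longest I * s i) w
      rw [mul_assoc, ← e, ← mul_assoc]
      omega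
    · have h6 := g.len_mul_le (h.longest I) (w * s j)
      rw [mul_assoc]
      omega

end CL.Cox.Exch

namespace CL.BN

open Cfsg CL.Cox Finset

theorem sum_neg_one_pow_between {κ : Type*} [Fintype κ] (T : Finset κ) (p : κ → Prop) (hT : ∀ j ∈ T, p j) :
    ∑ J : Finset κ, (-1 : ℂ) ^ J.card * ind ((∀ j ∈ J, p j) ∧ T ⊆ J) = (-1) ^ T.card * ind (∀ j, p j → j ∈ T) := by
  classical
  have h1 := sum_neg_one_pow_ind Tᶜ p
  rw [show ind (∀ j, p j → j ∈ T) = ind (∀ j ∈ Tᶜ, ¬ p j) from ind_congr (by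
    simp only [mem_compl]; exact forall_congr' fun j => not_imp_not.symm), ← h1, mul_sum,
    ← sum_subset (subset_univ (univ.filter (T ⊆ ·))) fun J _ hJ => by
      rw [ind_of_not fun h => hJ (mem_filter.2 ⟨mem_univ _, h.2⟩), mul_zero]]
  refine sum_bij' (fun J _ => J \ T) (fun J _ => J ∪ T) (fun J _ => ?_) (fun J _ => ?_) (fun J hJ => ?_)
    (fun J hJ => ?_) fun J hJ => ?_
  · exact mem_powerset.2 fun j hj => mem_compl.2 (mem_sdiff.1 hj).2
  · exact mem_filter.2 ⟨mem_univ _, subset_union_right⟩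
  · exact sdiff_union_of_subset (mem_filter.1 hJ).2
  · exact union_sdiff_cancel_right (disjoint_left.2 fun j hj => mem_compl.1 (mem_powerset.1 hJ hj))
  · have hJ' := (mem_filter.1 hJ).2
    rw [← mul_assoc, ← pow_add, add_comm, card_sdiff_add_card_eq_card hJ']
    congr 1
    refine ind_congr ⟨fun h j hj => h.1 j (mem_sdiff.1 hj).1, fun h => ⟨fun j hj => ?_, hJ'⟩⟩
    by_cases h' : j ∈ T
    · exact hT j h'
    · exact h j (mem_sdiff.2 ⟨hj, h'⟩)

variable {G : Type*} [Group G] [Fintype G]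

theorem sum_dcoset (H K : Subgroup G) (n : G) {M : Subgroup G} (hM : ∀ x, x ∈ M ↔ x ∈ H ∧ n⁻¹ * x * n ∈ K)
    (f : G → ℂ) (hf : ∀ y, ∀ c ∈ K, f (y * c) = f y) :
    (Nat.card M : ℂ) * ∑ y, ind (∃ p ∈ H, ∃ q ∈ K, y = p * n * q) * f y =
      Nat.card K * ∑ x, ind (x ∈ H) * f (x * n) := by
  have h1 : ∀ y, (Nat.card M : ℂ) * ind (∃ p ∈ H, ∃ q ∈ K, y = p * n * q) =
      ∑ x, ind (x ∈ H ∧ (x * n)⁻¹ * y ∈ K) := by
    intro y
    by_cases h : ∃ p ∈ H, ∃ q ∈ K, y = p * n * q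
    · rw [ind_of h, mul_one, ← sum_ind_mem]
      obtain ⟨b, hb, b', hb', rfl⟩ := h
      rw [← Equiv.sum_comp (Equiv.mulLeft b) (fun x => ind (x ∈ H ∧ (x * n)⁻¹ * (b * n * b') ∈ K))]
      refine sum_congr rfl fun x _ => ind_congr ?_
      rw [hM, Equiv.coe_mulLeft, Subgroup.mul_mem_cancel_left _ hb,
        show (b * x * n)⁻¹ * (b * n * b') = (n⁻¹ * x * n)⁻¹ * b' by group, Subgroup.mul_mem_cancel_right _ hb',
        inv_mem_iff]
    · rw [ind_of_not h, mul_zero, sum_eq_zero]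
      exact fun x _ => ind_of_not fun h1 => h ⟨x, h1.1, _, h1.2, by group⟩
  simp only [mul_sum, ← mul_assoc, h1, sum_mul]
  rw [sum_comm]
  refine sum_congr rfl fun x _ => ?_
  rw [← sum_ind_mem, sum_mul, sum_mul, ← Equiv.sum_comp (Equiv.mulLeft (x * n))]
  refine sum_congr rfl fun c _ => ?_
  rw [Equiv.coe_mulLeft, inv_mul_cancel_left, ind_and, mul_comm (ind (x ∈ H))]
  by_cases hc : c ∈ K
  · rw [hf _ _ hc]
  · simp [ind_of_not hc]

/-- the number of fixed points of `g` on the cosets of `H ∩ n K n⁻¹` in `H` -/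
noncomputable def dfix (H K : Subgroup G) (n g : G) : ℂ :=
  (Nat.card ↥(H ⊓ K.comap (MulAut.conj n⁻¹).toMonoidHom) : ℂ)⁻¹ * ∑ x, ind (x ∈ H ∧ n⁻¹ * (x⁻¹ * g * x) * n ∈ K)

theorem dfix_eq {H K M : Subgroup G} {n g : G} (hg : g ∈ H) (hM : ∀ x, x ∈ M ↔ x ∈ H ∧ n⁻¹ * x * n ∈ K) :
    dfix H K n g = (Nat.card M : ℂ)⁻¹ * ∑ x, ind (x ∈ H ∧ x⁻¹ * g * x ∈ M) := by
  have : H ⊓ K.comap (MulAut.conj n⁻¹).toMonoidHom = M := by
    ext x; simp [hM]
  rw [dfix, this]
  congr 1
  refine sum_congr rfl fun x _ => ind_congr (and_congr_right fun hx => ?_)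
  rw [hM, and_iff_right (mul_mem (mul_mem (inv_mem hx) hg) hx)]

theorem sum_ind_conj_mem {U L : Subgroup G} (hn : L ≤ Subgroup.normalizer (U : Set G)) (hd : U ⊓ L = ⊥) {g : G}
    (hg : g ∈ L) : ∑ x, ind (x ∈ U ⊔ L ∧ x⁻¹ * g * x ∈ L) =
      Nat.card ↥(U ⊓ Subgroup.centralizer {g}) * Nat.card L := by
  rw [sum_ind, ← Nat.cast_mul, ← Nat.card_prod]
  congr 1
  symm
  refine Nat.card_congr (Equiv.ofBijective (fun a => ⟨a.1 * a.2,
    mul_mem (Subgroup.mem_sup_left a.1.2.1) (Subgroup.mem_sup_right a.2.2), ?_⟩) ⟨?_, ?_⟩)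
  · have := Subgroup.mem_centralizer_singleton_iff.1 a.1.2.2
    rw [show ((a.1 : G) * a.2)⁻¹ * g * (a.1 * a.2) = (a.2 : G)⁻¹ * ((a.1 : G)⁻¹ * (g * a.1)) * a.2 by group, ← this,
      inv_mul_cancel_left]
    exact mul_mem (mul_mem (inv_mem a.2.2) hg) a.2.2
  · rintro ⟨⟨u, hu⟩, ⟨l, hl⟩⟩ ⟨⟨u', hu'⟩, ⟨l', hl'⟩⟩ e
    have e1 : u * l = u' * l' := congrArg Subtype.val e
    have e2 : u'⁻¹ * u = l' * l⁻¹ := by rw [← mul_left_inj l, mul_assoc, e1]; group
    have : u'⁻¹ * u ∈ U ⊓ L := Subgroup.mem_inf.2 ⟨mul_mem (inv_mem hu'.1) hu.1, e2 ▸ mul_mem hl' (inv_mem hl)⟩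
    rw [hd, Subgroup.mem_bot, inv_mul_eq_one] at this
    subst this
    obtain rfl := mul_left_cancel e1
    rfl
  · rintro ⟨x, hx, hx'⟩
    obtain ⟨u, hu, l, hl, rfl⟩ := (CL.mem_sup_of_le_normalizer' hn).1 hx
    have h1 : u⁻¹ * (g * u * g⁻¹) ∈ U ⊓ L := by
      refine Subgroup.mem_inf.2 ⟨mul_mem (inv_mem hu) ((Subgroup.mem_normalizer_iff.1 (hn hg) u).1 hu), ?_⟩
      have := mul_mem (mul_mem (mul_mem hl hx') (inv_mem hl)) (inv_mem hg)
      convert this using 1; group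
    rw [hd, Subgroup.mem_bot, inv_mul_eq_one] at h1
    refine ⟨(⟨u, hu, Subgroup.mem_centralizer_singleton_iff.2 ?_⟩, ⟨l, hl⟩), rfl⟩
    rw [← mul_inv_eq_iff_eq_mul.1 h1.symm]

variable (P : BNPair G) {κ : Type*} {e : κ → P.S} (he : Function.Surjective e) [Fintype (W P)]
include he

theorem fixedPointCharacter_par_eq (I J : Set κ) {n : W P → G} (hn : ∀ w, δ P (n w) = w) (g : G) :
    fixedPointCharacter (par P e J) g =
      ∑ w, ind (LRed (sE P e) I w ∧ RRed (sE P e) J w) * dfix (par P e I) (par P e J) (n w) g := by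
  have h1 : ∀ t, ∑ w, ind (LRed (sE P e) I w ∧ RRed (sE P e) J w) *
      ind (∃ p ∈ par P e I, ∃ q ∈ par P e J, t = p * n w * q) = 1 := fun t => by
    obtain ⟨u, hu, d, v, hv, h1, hL, hR, -⟩ := (exch_sE P he).exists_red_doubleCoset I J (δ P t)
    rw [sum_eq_single d, ind_of ⟨hL, hR⟩, ind_of ((doubleCoset_par_iff P e).2 ⟨u, hu, v, hv, by rwa [hn]⟩),
      mul_one]
    · intro w _ hw
      rw [← ind_and]
      refine ind_of_not fun h => hw ?_
      obtain ⟨u', hu', v', hv', h2⟩ := (doubleCoset_par_iff P e).1 h.2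
      rw [hn, h1] at h2
      exact (exch_sE P he).red_unique (mul_mem (inv_mem hu') hu) (mul_mem hv (inv_mem hv'))
        (by rw [← mul_left_inj v', ← mul_right_inj u', ← mul_assoc, ← h2]; group) hL hR h.1.1 h.1.2
    · exact fun h => absurd (mem_univ _) h
  rw [fixedPointCharacter_eq, sum_congr rfl fun t _ => (one_mul _).symm.trans (congrArg (· * _) (h1 t).symm)]
  simp only [sum_mul]
  rw [sum_comm, mul_sum]
  refine sum_congr rfl fun w _ => ?_
  simp only [mul_assoc]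
  rw [← mul_sum, mul_left_comm]
  congr 1
  rw [dfix, inv_mul_eq_iff_eq_mul₀ (CL.Char.card_ne_zero _), mul_left_comm,
    eq_inv_mul_iff_mul_eq₀ (CL.Char.card_ne_zero _)]
  have := sum_dcoset (par P e I) (par P e J) (n w)
    (M := par P e I ⊓ (par P e J).comap (MulAut.conj (n w)⁻¹).toMonoidHom) (fun x => by simp)
    (fun t => ind (t⁻¹ * g * t ∈ par P e J)) fun y c hc => ind_congr (by
      rw [show (y * c)⁻¹ * g * (y * c) = c⁻¹ * (y⁻¹ * g * y) * c by group, Subgroup.mul_mem_cancel_right _ hc,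
        Subgroup.mul_mem_cancel_left _ (inv_mem hc)])
  simp only [mul_assoc] at this
  rw [this]
  simp only [ind_and, mul_inv_rev, mul_assoc]

omit [Fintype G] [Fintype (W P)] in
theorem mem_par_of_conj {I J : Set κ} {y x : G} (hL : LRed (sE P e) I (δ P y)) (hR : RRed (sE P e) J (δ P y))
    (hx : x ∈ par P e I) (h : y⁻¹ * x * y ∈ par P e J) :
    x ∈ par P e {i | i ∈ I ∧ ∃ j ∈ J, sE P e i * δ P y = δ P y * sE P e j} ∧
      y⁻¹ * x * y ∈ par P e {j | j ∈ J ∧ ∃ i ∈ I, sE P e i * δ P y = δ P y * sE P e j} := by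
  have h1 := δ_mul_of_rRed P he hR h
  have h2 : δ P (x * y) = δ P x * δ P y := by
    refine δ_mul_of_len_add P x y ?_
    simp only [← len_sE P he]
    exact (exch_sE P he).len_mul_of_lRed hL ((mem_par_iff P e).1 hx)
  rw [show y * (y⁻¹ * x * y) = x * y by group, h2] at h1
  simp only [mem_par_iff]
  exact (exch_sE P he).kilmoyer hL hR ((mem_par_iff P e).1 hx) ((mem_par_iff P e).1 h) h1

variable [Fintype κ]

/-- the Steinberg character at an element of `P_I` with no `P_I`-conjugate in a smaller parabolic subgroup -/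
theorem st_of_elliptic (hi : Function.Injective (sE P e)) {I : Set κ} {g : G} (hg : g ∈ par P e I)
    (hell : ∀ I' ⊆ I, ∀ x ∈ par P e I, x⁻¹ * g * x ∈ par P e I' → I ⊆ I') {m : G}
    (hm : δ P m = wL P he I * wL P he Set.univ) : ∃ k : ℕ,
    st P e g = (-1) ^ k * dfix (par P e I) (par P e {j | ∃ i ∈ I, sE P e i * δ P m = δ P m * sE P e j}) m g := by
  classical
  obtain ⟨n, hn, hnm⟩ : ∃ n : W P → G, (∀ w, δ P (n w) = w) ∧ n (δ P m) = m := by
    choose n hn using δ_surjective P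
    refine ⟨fun w => if w = δ P m then m else n w, fun w => ?_, if_pos rfl⟩
    beta_reduce
    split_ifs with h
    · exact h.symm
    · exact hn w
  let T : W P → Finset κ := fun w => univ.filter fun j => ∃ i ∈ I, sE P e i * w = w * sE P e j
  have hT : ∀ w j, j ∈ T w ↔ ∃ i ∈ I, sE P e i * w = w * sE P e j := fun w j => by simp [T]
  let E : W P → Prop := fun w => LRed (sE P e) I w ∧ ∀ i ∈ I, ∃ j, sE P e i * w = w * sE P e j
  have h1 : ∀ w (J : Finset κ), ind (LRed (sE P e) I w ∧ RRed (sE P e) J w) * dfix (par P e I) (par P e J) (n w) g =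
      ind (E w) * ind ((∀ j ∈ J, len (sE P e) w < len (sE P e) (w * sE P e j)) ∧ T w ⊆ J) *
        dfix (par P e I) (par P e (T w)) (n w) g := fun w J => by
    by_cases h : LRed (sE P e) I w ∧ RRed (sE P e) J w
    swap
    · rw [ind_of_not h, ← ind_and, ind_of_not fun h' => h ⟨h'.1.1, h'.2.1⟩, zero_mul, zero_mul]
    have key := fun x => mem_par_of_conj P he (I := I) (J := J) (x := x) (y := n w) (by rw [hn]; exact h.1)
      (by rw [hn]; exact h.2)
    simp only [hn] at key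
    by_cases h' : ∀ i ∈ I, ∃ j ∈ J, sE P e i * w = w * sE P e j
    · have h2 : T w ⊆ J := fun j hj => by
        obtain ⟨i, hi', e1⟩ := (hT w j).1 hj
        obtain ⟨j', hj', e2⟩ := h' i hi'
        rwa [hi (mul_left_cancel (e1.symm.trans e2))]
      rw [ind_of h, ind_of (show E w from ⟨h.1, fun i hi => (h' i hi).imp fun j hj => hj.2⟩), ind_of ⟨h.2, h2⟩,
        one_mul, one_mul, one_mul, dfix_eq hg (M := par P e I ⊓ (par P e (T w)).comap
          (MulAut.conj (n w)⁻¹).toMonoidHom) fun x => ?_, dfix_eq hg (M := par P e I ⊓ (par P e (T w)).comap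
          (MulAut.conj (n w)⁻¹).toMonoidHom) fun x => by simp]
      simp only [Subgroup.mem_inf, Subgroup.mem_comap, MulEquiv.coe_toMonoidHom, MulAut.conj_apply, inv_inv]
      exact and_congr_right fun hx => ⟨fun h3 => par_mono P e (coe_subset.2 h2) h3,
        fun h3 => par_mono P e (fun j hj => (hT w j).2 hj.2) (key x hx h3).2⟩
    · rw [← ind_and, ind_of_not (p := E w ∧ _) fun h3 => h' fun i hi => by
        obtain ⟨j, hj⟩ := h3.1.2 i hi
        exact ⟨j, h3.2.2 ((hT w j).2 ⟨i, hi, hj⟩), hj⟩, zero_mul, dfix, sum_eq_zero, mul_zero, mul_zero]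
      refine fun x _ => ind_of_not fun h3 => h' fun i hi => ?_
      exact (hell _ (fun _ h => h.1) x h3.1 (key _ (mul_mem (mul_mem (inv_mem h3.1) hg) h3.1) h3.2).1 hi).2
  refine ⟨(T (δ P m)).card, ?_⟩
  simp only [st, fixedPointCharacter_par_eq P he I _ hn, h1, mul_sum]
  rw [sum_comm, sum_eq_single (δ P m)]
  · obtain ⟨h2, h3, h4⟩ := (exch_sE P he).eq_longest_mul_iff.1 hm
    have := sum_neg_one_pow_between (T (δ P m))
      (fun j => len (sE P e) (δ P m) < len (sE P e) (δ P m * sE P e j)) fun j hj => by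
        obtain ⟨i, hi, e1⟩ := (hT _ j).1 hj
        exact e1 ▸ h2 i hi
    rw [ind_of fun j hj => (hT _ j).2 (h4 j hj), mul_one] at this
    simp only [ind_of (show E (δ P m) from ⟨h2, h3⟩), one_mul, ← mul_assoc, ← sum_mul]
    rw [this, hnm]
    congr 3
    ext j
    simp [T]
  · intro w _ hw
    by_cases h : E w
    · have := sum_neg_one_pow_between (T w) (fun j => len (sE P e) w < len (sE P e) (w * sE P e j)) fun j hj => by
        obtain ⟨i, hi, e1⟩ := (hT _ j).1 hj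
        exact e1 ▸ h.1 i hi
      rw [ind_of_not fun h' => hw (((exch_sE P he).eq_longest_mul_iff.2
        ⟨h.1, h.2, fun j hj => (hT _ j).1 (h' j hj)⟩).trans hm.symm), mul_zero] at this
      simp only [ind_of h, one_mul, ← mul_assoc, ← sum_mul]
      rw [this, zero_mul]
    · simp [ind_of_not h]
  · exact fun h => absurd (mem_univ _) h

end CL.BN

namespace CL.Chev.StData

open Cfsg CL.Cox CL.BN Finset

variable {ι κ : Type*} [Fintype κ] [DecidableEq κ] {R : RootSys ι κ} [Finite ι] {F G : Type*} [Field F] [Group G]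
  {S : StData R F G} (hS : S.Good) (htop : S.grp = ⊤)

theorem Good.sE_injective : Function.Injective (sE (hS.bnPair htop) (hS.idx htop)) := fun i j h => by
  have := congrArg (hS.weylEquiv htop) h
  rw [hS.weylEquiv_sE, hS.weylEquiv_sE] at this
  exact R.sW_injective this

theorem UJ_anti {J K : Set κ} (h : J ⊆ K) : S.UJ K ≤ S.UJ J :=
  S.XS_mono fun _ hr => ⟨hr.1, fun h' => hr.2 (R.sub_mono h h')⟩

variable [Fintype G]

theorem Good.st_of_elliptic {I : Set κ} {g : G} (hg : g ∈ S.LJ I)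
    (hell : ∀ I' ⊆ I, ∀ x ∈ S.P I, x⁻¹ * g * x ∈ S.P I' → I ⊆ I') : ∃ k : ℕ,
    st (hS.bnPair htop) (hS.idx htop) g = (-1) ^ k * Nat.card ↥(S.UJ I ⊓ Subgroup.centralizer {g}) := by
  have := Fintype.ofFinite (W (hS.bnPair htop))
  obtain ⟨m₁, hN₁, h₁⟩ := S.exists_acts_NJ (R.w0_mem I)
  obtain ⟨m₂, hN₂, h₂⟩ := S.exists_acts_w0
  have hN := mul_mem (S.NJ_le_N I hN₁) hN₂
  have hm : δ (hS.bnPair htop) (m₁ * m₂) = wL _ (hS.idx_surjective htop) I * wL _ (hS.idx_surjective htop) Set.univ := by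
    rw [δ_mul_of_mem_N _ (S.NJ_le_N I hN₁) hN₂, hS.δ_eq_wL htop h₁, hS.δ_eq_wL htop h₂]
  obtain ⟨k, hk⟩ := BN.st_of_elliptic _ (hS.idx_surjective htop) (hS.sE_injective htop) (I := I) (g := g)
    (by rw [hS.par_idx]; exact S.LJ_le_P I hg) (by simpa only [hS.par_idx] using hell) hm
  obtain ⟨h3, h4, -⟩ := (exch_sE _ (hS.idx_surjective htop)).eq_longest_mul_iff.1 hm
  set m := m₁ * m₂
  set T := {j | ∃ i ∈ I, sE _ (hS.idx htop) i * δ (hS.bnPair htop) m = δ (hS.bnPair htop) m * sE _ (hS.idx htop) j}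
  have hw := (h₁.mul h₂).inv
  have h5 : R.ninvs (R.w0 I * R.w0 Set.univ)⁻¹ = {r | R.IsPos r ∧ r ∈ R.sub I} := by
    rw [← R.invs_w0, mul_inv_rev, R.w0_inv, R.w0_inv]
    ext r
    simp only [RootSys.ninvs, RootSys.invs, Set.mem_setOf_eq, Equiv.Perm.mul_apply, R.isPos_w0_univ]
  have hL : ∀ x ∈ S.LJ I, m⁻¹ * x * m ∈ S.P T := by
    have hH : S.H ≤ (S.P T).comap (MulAut.conj m⁻¹).toMonoidHom := fun x hx =>
      S.B_le_P T (S.H_le_B (hw.conj_mem_H hx))
    have : S.LJ I ≤ (S.P T).comap (MulAut.conj m⁻¹).toMonoidHom := by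
      rw [LJ_eq_BK_sup_NJ]
      refine sup_le (sup_le (fun x hx => S.B_le_P T ((hS.conj_mem_B_iff hw (S.XS_le_U (fun r hr => hr.1) hx)).2
        (h5 ▸ hx))) hH) (sup_le hH ((Subgroup.closure_le _).2 ?_))
      rintro _ ⟨i, hi, rfl⟩
      obtain ⟨j, hj⟩ := h4 i hi
      change m⁻¹ * _ * m⁻¹⁻¹ ∈ S.P T
      rw [← hS.par_idx htop, mem_par_iff, inv_inv, δ_mul_of_mem_N _ (mul_mem (inv_mem hN) (S.n_mem_N _ one_ne_zero)) hN,
        δ_mul_of_mem_N _ (inv_mem hN) (S.n_mem_N _ one_ne_zero), δ_inv,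
        show δ (hS.bnPair htop) (S.n (R.simple i) 1) = sE _ (hS.idx htop) i from δ_S _ (hS.idx htop i), mul_assoc, hj,
        inv_mul_cancel_left]
      exact Subgroup.subset_closure ⟨j, ⟨i, hi, hj⟩, rfl⟩
    intro x hx
    simpa using this hx
  have hn : S.LJ I ≤ Subgroup.normalizer (S.UJ I : Set G) := (S.LJ_le_P I).trans (S.P_le_normalizer_UJ I)
  refine ⟨k, ?_⟩
  rw [hk, hS.par_idx, hS.par_idx, dfix_eq (S.LJ_le_P I hg) (M := S.LJ I) fun x => ?_, ← S.UJ_sup_LJ,
    sum_ind_conj_mem hn (hS.UJ_inf_LJ I) hg, mul_comm (Nat.card _ : ℂ), inv_mul_cancel_left₀ (CL.Char.card_ne_zero _)]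
  refine ⟨fun hx => ⟨S.LJ_le_P I hx, hL x hx⟩, fun ⟨hx, hx'⟩ => ?_⟩
  rw [← S.UJ_sup_LJ] at hx
  obtain ⟨u, hu, l, hl, rfl⟩ := (CL.mem_sup_of_le_normalizer' hn).1 hx
  refine mul_mem ?_ hl
  have h6 : m⁻¹ * u * m ∈ S.P T := by
    rw [← Subgroup.mul_mem_cancel_right _ (hL l hl)]
    convert hx' using 1; group
  rw [← hS.par_idx htop, conj_mem_par_iff _ (hS.idx_surjective htop) (fun j hj => by
    obtain ⟨i, hi, e⟩ := hj
    exact e ▸ h3 i hi) (S.U_le_B (S.UJ_le_U I hu))] at h6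
  have h7 := (hS.conj_mem_B_iff hw (S.UJ_le_U I hu)).1 (by rwa [inv_inv])
  rw [h5] at h7
  exact Subgroup.mem_sup_right (S.XS_mono (fun r hr => hr.2) h7)

variable {p : ℕ} [Fact p.Prime] [CharP F p] [Finite F]

/-- the Steinberg character at an element of order prime to `p` -/
theorem Good.st_of_not_dvd (hH : ¬ p ∣ Nat.card S.H) {g : G} (hg : ¬ p ∣ orderOf g) : ∃ k : ℕ,
    st (hS.bnPair htop) (hS.idx htop) g =
      (-1) ^ k * (p ^ (Nat.card (Subgroup.centralizer ({g} : Set G))).factorization p : ℕ) := by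
  classical
  let X₀ : Sylow p (Subgroup.centralizer ({g} : Set G)) := default
  let X := X₀.1.map (Subgroup.centralizer ({g} : Set G)).subtype
  have hXC : X ≤ Subgroup.centralizer {g} := Subgroup.map_subtype_le _
  have hex : ∃ n, ∃ (y : G) (J : Set κ), J.ncard = n ∧ y⁻¹ * g * y ∈ S.P J ∧ ∀ x ∈ X, y⁻¹ * x * y ∈ S.UJ J := by
    obtain ⟨y, J, h1, h2⟩ := hS.borelTits_pgroup htop hH (X := X) (X₀.isPGroup'.map _)
    refine ⟨_, y, J, rfl, h2 g (Subgroup.centralizer_le_normalizer _ fun x hx => ?_), h1⟩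
    exact Subgroup.mem_centralizer_singleton_iff.1 (hXC hx)
  obtain ⟨y₀, J, hJ, h1, h2⟩ := Nat.find_spec hex
  have hn : S.LJ J ≤ Subgroup.normalizer (S.UJ J : Set G) := (S.LJ_le_P J).trans (S.P_le_normalizer_UJ J)
  have hP : ∀ x ∈ S.P J, ∀ u ∈ S.UJ J, x⁻¹ * u * x ∈ S.UJ J := fun x hx u hu => by
    simpa using (Subgroup.mem_normalizer_iff.1 (S.P_le_normalizer_UJ J (inv_mem hx)) u).1 hu
  obtain ⟨a, ha⟩ := IsPGroup.iff_card.1 (hS.isPGroup_UJ (p := p) J)
  obtain ⟨k, hk, hk'⟩ := CL.coprime_le_conj_of_le_sup (Subgroup.zpowers (y₀⁻¹ * g * y₀)) (S.UJ J) (S.LJ J) hn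
    (by rw [S.UJ_sup_LJ]; exact (Subgroup.zpowers_le).2 h1) (by
      rw [Nat.card_zpowers, ha, show orderOf (y₀⁻¹ * g * y₀) = orderOf g from
        (MulAut.conj y₀⁻¹).orderOf_eq g ▸ by simp]
      exact ((Nat.Prime.coprime_iff_not_dvd Fact.out).2 hg).symm.pow_right a) (Or.inl inferInstance)
  have h3 := CL.mem_conj_smul_iff.1 (hk' (Subgroup.mem_zpowers _))
  have hkP : k ∈ S.P J := S.B_le_P J (S.U_le_B (S.UJ_le_U J hk))
  have h4 : ∀ x ∈ X, (y₀ * k)⁻¹ * x * (y₀ * k) ∈ S.UJ J := fun x hx => by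
    simpa [mul_assoc] using hP k hkP _ (h2 x hx)
  rw [show k⁻¹ * (y₀⁻¹ * g * y₀) * k = (y₀ * k)⁻¹ * g * (y₀ * k) by group] at h3
  set y := y₀ * k
  obtain ⟨b, hb⟩ := hS.st_of_elliptic htop h3 fun I' hI x hx hx' => by
    refine (Set.eq_of_subset_of_ncard_le hI ?_).ge
    rw [hJ]
    refine Nat.find_min' hex ⟨y * x, I', rfl, by simpa [mul_assoc] using hx', fun z hz => UJ_anti hI ?_⟩
    simpa [mul_assoc] using hP x hx _ (h4 z hz)
  refine ⟨b, ?_⟩
  rw [← (isGen_st _ (e := hS.idx htop)).isClassFunction.conj_inv g y, hb]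
  congr 2
  have e1 : Subgroup.centralizer ({g} : Set G) =
      (Subgroup.centralizer {y⁻¹ * g * y}).map (MulAut.conj y).toMonoidHom := by
    ext z
    rw [Subgroup.mem_map_equiv, Subgroup.mem_centralizer_singleton_iff, Subgroup.mem_centralizer_singleton_iff,
      MulAut.conj_symm_apply, ← (MulAut.conj y⁻¹).injective.eq_iff]
    simp [mul_assoc]
  obtain ⟨c, hc⟩ := IsPGroup.iff_card.1 ((hS.isPGroup_UJ (p := p) J).to_inf_left
    (K := Subgroup.centralizer {y⁻¹ * g * y}))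
  apply Nat.dvd_antisymm
  · rw [hc]
    refine pow_dvd_pow p (((Fact.out : p.Prime).pow_dvd_iff_le_factorization Nat.card_pos.ne').1 ?_)
    rw [← hc, e1, Subgroup.card_map_of_injective (MulAut.conj y).injective]
    exact Subgroup.card_dvd_of_le inf_le_right
  · rw [← X₀.card_eq_multiplicity, ← Subgroup.card_map_of_injective (Subgroup.subtype_injective _),
      ← Subgroup.card_map_of_injective (f := (MulAut.conj y⁻¹).toMonoidHom) (MulAut.conj y⁻¹).injective]
    refine Subgroup.card_dvd_of_le ?_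
    rintro _ ⟨x, hx, rfl⟩
    refine ⟨by simpa using h4 x hx, ?_⟩
    have := hXC hx
    rw [e1, Subgroup.mem_map_equiv] at this
    simpa using this

end CL.Chev.StData
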